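import Mathlib

set_option autoImplicit false

namespace Cfsg.Agent.Helper8.GUC

open Polynomial

/-- A binary form `a² - d b²` is universal over a finite field of odd characteristic. -/
theorem quad_univ {k : Type*} [Field k] [Finite k] (h2 : (2 : k) ≠ 0) (d u : k) (hd : d ≠ 0) :
    ∃ a b : k, a ^ 2 - d * b ^ 2 - u = 0 := by
  classical
  haveI : Fintype k := Fintype.ofFinite k
  have hcard : Fintype.card k % 2 = 1 := by
    rcases Nat.mod_two_eq_zero_or_one (Fintype.card k) with h | h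
    · exfalso
      have hc : ringChar k = 2 := FiniteField.even_card_iff_char_two.2 h
      haveI : CharP k 2 := ringChar.of_eq hc
      apply h2
      have := CharP.cast_eq_zero k 2
      exact_mod_cast this
    · exact h
  obtain ⟨a, b, hab⟩ := FiniteField.exists_root_sum_quadratic
    (f := C 1 * X ^ 2 + C 0 * X + C 0) (g := C (-d) * X ^ 2 + C 0 * X + C (-u))
    (degree_quadratic one_ne_zero) (degree_quadratic (neg_ne_zero.2 hd)) hcard
  refine ⟨a, b, ?_⟩
  simp only [eval_add, eval_mul, eval_C, eval_pow, eval_X] at hab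
  linear_combination hab

/-- Odd characteristic: the form `a² - δ b²` represents `X` modulo `X^M - 1` when `M` is invertible. -/
theorem lemO {F₀ : Type*} [Field F₀] [Finite F₀] (h2 : (2 : F₀) ≠ 0) (M : ℕ) (hM : (M : F₀) ≠ 0)
    (δ : F₀) (hδ : δ ≠ 0) :
    ∃ a b : F₀[X], (X ^ M - 1 : F₀[X]) ∣ a ^ 2 - C δ * b ^ 2 - X := by
  classical
  have hM0 : M ≠ 0 := by
    rintro rfl
    exact hM (by simp)
  obtain ⟨P, hP⟩ : ∃ P : F₀[X], P = X ^ M - 1 := ⟨_, rfl⟩
  rw [← hP]
  have hsep : P.Separable := by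
    have := Polynomial.separable_X_pow_sub_C (1 : F₀) hM one_ne_zero
    rw [map_one] at this
    rw [hP]
    exact this
  have hmonic : P.Monic := by
    have := monic_X_pow_sub_C (1 : F₀) hM0
    rw [map_one] at this
    rw [hP]
    exact this
  have hrad : (Ideal.span {P}).IsRadical := isRadical_iff_span_singleton.1 hsep.squarefree.isRadical
  haveI : IsReduced (AdjoinRoot P) := (Ideal.isRadical_iff_quotient_reduced _).1 hrad
  haveI : Module.Finite F₀ (AdjoinRoot P) := hmonic.finite_adjoinRoot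
  haveI : Finite (AdjoinRoot P) := Module.finite_of_finite F₀
  have hu2 : IsUnit (2 : AdjoinRoot P) := by
    have := (IsUnit.mk0 (2 : F₀) h2).map (AdjoinRoot.of P)
    rwa [map_ofNat] at this
  have huδ : IsUnit (AdjoinRoot.of P δ) := (IsUnit.mk0 δ hδ).map (AdjoinRoot.of P)
  have key : ∀ I : MaximalSpectrum (AdjoinRoot P), ∃ a b : AdjoinRoot P ⧸ I.asIdeal,
      a ^ 2 - Ideal.Quotient.mk I.asIdeal (AdjoinRoot.of P δ) * b ^ 2
        - Ideal.Quotient.mk I.asIdeal (AdjoinRoot.root P) = 0 := by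
    intro I
    letI : Field (AdjoinRoot P ⧸ I.asIdeal) := Ideal.Quotient.field I.asIdeal
    haveI : Finite (AdjoinRoot P ⧸ I.asIdeal) :=
      Finite.of_surjective _ (Ideal.Quotient.mk_surjective (I := I.asIdeal))
    apply quad_univ
    · have := hu2.map (Ideal.Quotient.mk I.asIdeal)
      rw [map_ofNat] at this
      exact this.ne_zero
    · exact (huδ.map (Ideal.Quotient.mk I.asIdeal)).ne_zero
  choose a b hab using key
  obtain ⟨a', ha'⟩ := AdjoinRoot.mk_surjective ((IsArtinianRing.equivPi (AdjoinRoot P)).symm a)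
  obtain ⟨b', hb'⟩ := AdjoinRoot.mk_surjective ((IsArtinianRing.equivPi (AdjoinRoot P)).symm b)
  refine ⟨a', b', ?_⟩
  rw [← AdjoinRoot.mk_eq_zero]
  rw [map_sub, map_sub, map_mul, map_pow, map_pow, ha', hb', AdjoinRoot.mk_C, AdjoinRoot.mk_X]
  apply (IsArtinianRing.equivPi (AdjoinRoot P)).injective
  funext I
  rw [IsArtinianRing.equivPi_apply, map_zero]
  have h1 : (Ideal.Quotient.mk I.asIdeal) ((IsArtinianRing.equivPi (AdjoinRoot P)).symm a) = a I := by
    rw [← IsArtinianRing.equivPi_apply, AlgEquiv.apply_symm_apply]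
  have h2' : (Ideal.Quotient.mk I.asIdeal) ((IsArtinianRing.equivPi (AdjoinRoot P)).symm b) = b I := by
    rw [← IsArtinianRing.equivPi_apply, AlgEquiv.apply_symm_apply]
  show (Ideal.Quotient.mk I.asIdeal) _ = 0
  rw [map_sub, map_sub, map_mul, map_pow, map_pow, h1, h2']
  exact hab I

/-- Characteristic 2: an explicit solution of `y + ν y² = X + c X^(2^e)`. -/
theorem lemE {K : Type*} [Field K] (h2 : (2 : K) = 0) (σ : K →+* K) (ν : K) (hν : σ ν = ν) (e : ℕ) :
    ∃ (y : K[X]) (c : K), y.map σ = y ∧ σ c = c ∧ y + C ν * y ^ 2 = X + C c * X ^ (2 ^ e) := by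
  have h2' : (2 : K[X]) = 0 := by
    rw [← map_ofNat (C : K →+* K[X]) 2, h2, map_zero]
  induction e with
  | zero =>
    refine ⟨0, 1, by simp, map_one σ, ?_⟩
    rw [pow_zero, pow_one, C_1, one_mul]
    linear_combination (-X) * h2'
  | succ e ih =>
    obtain ⟨y, c, hy, hc, hyc⟩ := ih
    refine ⟨y + C c * X ^ (2 ^ e), ν * c ^ 2, ?_, ?_, ?_⟩
    · rw [Polynomial.map_add, Polynomial.map_mul, Polynomial.map_pow, Polynomial.map_C,
        Polynomial.map_X, hy, hc]
    · rw [map_mul, map_pow, hν, hc]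
    · rw [pow_succ 2 e, pow_mul, C_mul, C_pow]
      linear_combination hyc + (C c * X ^ (2 ^ e) + C ν * y * C c * X ^ (2 ^ e)) * h2'

end Cfsg.Agent.Helper8.GUC
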