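import Mathlib
import Cfsg.Agent.Helper8.GUConj1

set_option autoImplicit false

namespace Cfsg.Agent.Helper8.GUC

open Polynomial

/-- The binary norm form of the quadratic extension `K / K^σ` represents `X` modulo `X^(2^e) - 1`,
with coefficients fixed by `σ`. -/
theorem lemU {K : Type*} [Field K] [Finite K] (σ : K →+* K) (hσ : ∀ x, σ (σ x) = x)
    (hne : σ ≠ RingHom.id K) (e : ℕ) :
    ∃ (ω : K) (f g : K[X]), f.map σ = f ∧ g.map σ = g ∧
      (X ^ (2 ^ e) - 1 : K[X]) ∣ f ^ 2 + C (ω + σ ω) * f * g + C (ω * σ ω) * g ^ 2 - X := by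
  classical
  obtain ⟨z, hz⟩ : ∃ z, σ z ≠ z := by
    by_contra hcon
    push_neg at hcon
    exact hne (RingHom.ext fun x => hcon x)
  by_cases h2 : (2 : K) = 0
  · -- characteristic 2
    have hadd : ∀ x : K, x + x = 0 := fun x => by linear_combination x * h2
    have h2' : (2 : K[X]) = 0 := by
      rw [← map_ofNat (C : K →+* K[X]) 2, h2, map_zero]
    have hτ : z + σ z ≠ 0 := by
      intro h
      apply hz
      linear_combination h - hadd z
    have hστ : σ (z + σ z) = z + σ z := by rw [map_add, hσ, add_comm]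
    obtain ⟨ω, hω⟩ : ∃ ω : K, ω = z / (z + σ z) := ⟨_, rfl⟩
    have hω1 : ω + σ ω = 1 := by
      rw [hω, map_div₀, hστ, ← add_div, div_self hτ]
    have hν : σ (ω * σ ω) = ω * σ ω := by rw [map_mul, hσ, mul_comm]
    obtain ⟨y, c, hy, -, hyc⟩ := lemE h2 σ (ω * σ ω) hν e
    refine ⟨ω, 1, y.comp (X - 1), by simp, ?_, ?_⟩
    · rw [Polynomial.map_comp, hy, Polynomial.map_sub, Polynomial.map_X, Polynomial.map_one]
    · have h1 := congrArg (fun p : K[X] => p.comp (X - 1)) hyc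
      simp only [add_comp, mul_comp, C_comp, pow_comp, X_comp] at h1
      have hpow : (X - 1 : K[X]) ^ (2 ^ e) = X ^ (2 ^ e) - 1 := by
        haveI : CharP K 2 := CharTwo.of_one_ne_zero_of_two_eq_zero one_ne_zero h2
        haveI : CharP K[X] 2 := inferInstance
        rw [sub_pow_char_pow, one_pow]
      refine ⟨C c, ?_⟩
      rw [hω1, ← hpow, C_1]
      linear_combination h1
  · -- odd characteristic
    obtain ⟨ω, hω⟩ : ∃ ω : K, ω = z - σ z := ⟨_, rfl⟩
    have hω0 : ω ≠ 0 := by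
      rw [hω]
      exact fun h => hz (sub_eq_zero.1 h).symm
    have hσω : σ ω = -ω := by rw [hω, map_sub, hσ]; ring
    let F₀ : Subfield K := σ.eqLocusField (RingHom.id K)
    have hδmem : ω ^ 2 ∈ F₀ := by
      show σ (ω ^ 2) = ω ^ 2
      rw [map_pow, hσω]
      ring
    have h20 : (2 : ↥F₀) ≠ 0 := by
      intro h
      apply h2
      rw [show (2 : K) = ((2 : ↥F₀) : K) from rfl, h]
      rfl
    have hM : ((2 ^ e : ℕ) : ↥F₀) ≠ 0 := by
      rw [Nat.cast_pow, Nat.cast_ofNat]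
      exact pow_ne_zero _ h20
    have hδ0 : (⟨ω ^ 2, hδmem⟩ : ↥F₀) ≠ 0 := by
      intro h
      have := congrArg (fun x : ↥F₀ => (x : K)) h
      simp only [] at this
      exact hω0 (pow_eq_zero_iff (two_ne_zero) |>.1 this)
    obtain ⟨a, b, hab⟩ := lemO h20 (2 ^ e) hM (⟨ω ^ 2, hδmem⟩ : ↥F₀) hδ0
    have hfix : σ.comp F₀.subtype = F₀.subtype := RingHom.ext fun x => x.2
    refine ⟨ω, a.map F₀.subtype, b.map F₀.subtype, ?_, ?_, ?_⟩
    · rw [Polynomial.map_map, hfix]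
    · rw [Polynomial.map_map, hfix]
    · have h1 := Polynomial.map_dvd F₀.subtype hab
      simp only [Polynomial.map_sub, Polynomial.map_pow, Polynomial.map_X, Polynomial.map_one,
        Polynomial.map_mul, Polynomial.map_C] at h1
      have e1 : ω + σ ω = 0 := by rw [hσω]; ring
      have e2 : ω * σ ω = -(ω ^ 2) := by rw [hσω]; ring
      rw [e1, e2, map_zero, zero_mul, zero_mul, add_zero, map_neg, neg_mul, ← sub_eq_add_neg]
      exact h1

/-- For every `o ≥ 1` there is a polynomial `Φ` with `Φ^σ Φ ≡ X` modulo `X^o - 1`. -/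
theorem lemPhi {K : Type*} [Field K] [Finite K] (σ : K →+* K) (hσ : ∀ x, σ (σ x) = x)
    (hne : σ ≠ RingHom.id K) (o : ℕ) (ho : 0 < o) :
    ∃ Φ : K[X], (X ^ o - 1 : K[X]) ∣ Φ.map σ * Φ - X := by
  obtain ⟨e, o', ho', hoe⟩ := Nat.exists_eq_two_pow_mul_odd ho.ne'
  obtain ⟨k, hk⟩ := ho'
  obtain ⟨ω, f, g, hf, hg, ⟨h, hh⟩⟩ := lemU σ hσ hne e
  have hko : k ≤ o := by
    have : 1 ≤ 2 ^ e := Nat.one_le_two_pow
    nlinarith
  obtain ⟨j, hj⟩ : ∃ j, j = o - k := ⟨_, rfl⟩
  have hjo : 2 * j + o' = 2 * o + 1 := by omega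
  refine ⟨X ^ j * (f.comp (X ^ o') + C ω * g.comp (X ^ o')), ?_⟩
  have hΦ : (X ^ j * (f.comp (X ^ o') + C ω * g.comp (X ^ o'))).map σ
      = X ^ j * (f.comp (X ^ o') + C (σ ω) * g.comp (X ^ o')) := by
    rw [Polynomial.map_mul, Polynomial.map_pow, Polynomial.map_X, Polynomial.map_add,
      Polynomial.map_mul, Polynomial.map_C, Polynomial.map_comp, Polynomial.map_comp, hf, hg,
      Polynomial.map_pow, Polynomial.map_X]
  rw [hΦ]
  have h1 := congrArg (fun p : K[X] => p.comp (X ^ o')) hh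
  simp only [sub_comp, add_comp, mul_comp, C_comp, pow_comp, X_comp, one_comp] at h1
  rw [← pow_mul, mul_comm o' (2 ^ e), ← hoe] at h1
  have hpow : (X : K[X]) ^ (2 * j) * X ^ o' = X * (X ^ o) ^ 2 := by
    rw [← pow_add, hjo, ← pow_mul, pow_succ, mul_comm o 2, mul_comm]
  refine ⟨X ^ (2 * j) * h.comp (X ^ o') + X * (X ^ o + 1), ?_⟩
  rw [C_add, C_mul] at h1
  linear_combination X ^ (2 * j) * h1 + hpow

end Cfsg.Agent.Helper8.GUC
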