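import Mathlib
import Cfsg.Prelude.Def_LieClassical
import Cfsg.Agent.S0278
import Cfsg.Agent.Helper8.GUConj2

set_option autoImplicit false

namespace Cfsg.Agent.Helper8.GUC

open Polynomial Matrix

variable {K : Type*} [Field K] {n : ℕ}

/-- The `σ`-conjugate transpose. -/
def dag (σ : K →+* K) (X : Matrix (Fin n) (Fin n) K) : Matrix (Fin n) (Fin n) K := (X.map σ)ᵀ

theorem dag_apply (σ : K →+* K) (X : Matrix (Fin n) (Fin n) K) (i j : Fin n) :
    dag σ X i j = σ (X j i) := rfl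

theorem dag_mul (σ : K →+* K) (X Y : Matrix (Fin n) (Fin n) K) :
    dag σ (X * Y) = dag σ Y * dag σ X := by
  unfold dag
  rw [Matrix.map_mul, Matrix.transpose_mul]

theorem dag_one (σ : K →+* K) : dag σ (1 : Matrix (Fin n) (Fin n) K) = 1 := by
  ext i j
  rw [dag_apply, Matrix.one_apply, Matrix.one_apply]
  by_cases h : i = j
  · subst h
    simp
  · rw [if_neg h, if_neg (fun h' => h h'.symm), map_zero]

theorem dag_add (σ : K →+* K) (X Y : Matrix (Fin n) (Fin n) K) :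
    dag σ (X + Y) = dag σ X + dag σ Y := by
  ext i j
  simp [dag_apply]

theorem dag_smul (σ : K →+* K) (c : K) (X : Matrix (Fin n) (Fin n) K) :
    dag σ (c • X) = σ c • dag σ X := by
  ext i j
  simp [dag_apply]

theorem dag_pow (σ : K →+* K) (X : Matrix (Fin n) (Fin n) K) (k : ℕ) :
    dag σ (X ^ k) = dag σ X ^ k := by
  induction k with
  | zero => rw [pow_zero, pow_zero, dag_one]
  | succ k ih => rw [pow_succ, dag_mul, ih, ← pow_succ']

theorem dag_dag (σ : K →+* K) (hσ : ∀ x, σ (σ x) = x) (X : Matrix (Fin n) (Fin n) K) :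
    dag σ (dag σ X) = X := by
  ext i j
  rw [dag_apply, dag_apply, hσ]

theorem dag_aeval (σ : K →+* K) (X : Matrix (Fin n) (Fin n) K) (f : K[X]) :
    dag σ (aeval X f) = aeval (dag σ X) (f.map σ) := by
  induction f using Polynomial.induction_on' with
  | add p q hp hq => rw [map_add, dag_add, hp, hq, Polynomial.map_add, map_add]
  | monomial m a =>
    rw [Polynomial.map_monomial, aeval_monomial, aeval_monomial, Algebra.algebraMap_eq_smul_one,
      Algebra.algebraMap_eq_smul_one, smul_mul_assoc, one_mul, smul_mul_assoc, one_mul, dag_smul,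
      dag_pow]

theorem commute_aeval (A X : Matrix (Fin n) (Fin n) K) (h : Commute A X) (f : K[X]) :
    Commute A (aeval X f) := by
  induction f using Polynomial.induction_on' with
  | add p q hp hq =>
    rw [map_add]
    exact hp.add_right hq
  | monomial m a =>
    rw [aeval_monomial]
    exact (Algebra.commute_algebraMap_right a A).mul_right (h.pow_right m)

theorem dag_of_GU [Fintype K] {q : ℕ} (hK : Fintype.card K = q ^ 2)
    (A : Matrix (Fin n) (Fin n) K)
    (hA : ∀ u v, hermForm n K q (A *ᵥ u) (A *ᵥ v) = hermForm n K q u v) :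
    dag (S0284.frob hK) A * A = 1 := by
  have h := S0278.gram_eq_one hK n A hA
  have h' := congrArg Matrix.transpose h
  rw [Matrix.transpose_mul, Matrix.transpose_transpose, Matrix.transpose_one] at h'
  exact h'

theorem GU_of_dag [Fintype K] {q : ℕ} (hK : Fintype.card K = q ^ 2)
    (A : Matrix (Fin n) (Fin n) K) (h : dag (S0284.frob hK) A * A = 1) :
    ∀ u v, hermForm n K q (A *ᵥ u) (A *ᵥ v) = hermForm n K q u v := by
  intro u v
  have hg : Aᵀ * A.map (S0284.frob hK) = 1 := by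
    have h' := congrArg Matrix.transpose h
    rw [Matrix.transpose_mul, Matrix.transpose_one] at h'
    exact h'
  have hform : ∀ x y : Fin n → K, hermForm n K q x y
      = x ⬝ᵥ (fun i => S0284.frob hK (y i)) := fun x y => rfl
  have hmv : (fun i => S0284.frob hK ((A *ᵥ v) i))
      = A.map (S0284.frob hK) *ᵥ (fun i => S0284.frob hK (v i)) := by
    funext i
    exact RingHom.map_mulVec (S0284.frob hK) A v i
  rw [hform, hform, hmv, ← Matrix.vecMul_transpose, ← Matrix.dotProduct_mulVec,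
    Matrix.mulVec_mulVec, hg, Matrix.one_mulVec]

/-- Conjugacy in `GU_n(q)` is controlled by `GL_n(q²)`. -/
theorem conj_gu [Fintype K] {q : ℕ} (hK : Fintype.card K = q ^ 2) (A B : GL (Fin n) K)
    (hA : A ∈ Cfsg.GU n K q) (hB : B ∈ Cfsg.GU n K q) (P : GL (Fin n) K)
    (hP : P * A * P⁻¹ = B) :
    ∃ U : GL (Fin n) K, U ∈ Cfsg.GU n K q ∧ U * A * U⁻¹ = B := by
  classical
  obtain ⟨σ, hσdef⟩ : ∃ σ : K →+* K, σ = S0284.frob hK := ⟨_, rfl⟩
  have hσ : ∀ x, σ (σ x) = x := by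
    intro x
    rw [hσdef]
    exact S0284.frob_invol hK x
  have hne : σ ≠ RingHom.id K := by
    rw [hσdef]
    exact S0284.frob_ne hK
  have hAd : dag σ (A : Matrix (Fin n) (Fin n) K) * (A : Matrix (Fin n) (Fin n) K) = 1 := by
    rw [hσdef]
    exact dag_of_GU hK _ hA
  have hBd : dag σ (B : Matrix (Fin n) (Fin n) K) * (B : Matrix (Fin n) (Fin n) K) = 1 := by
    rw [hσdef]
    exact dag_of_GU hK _ hB
  have hAd' : (A : Matrix (Fin n) (Fin n) K) * dag σ (A : Matrix (Fin n) (Fin n) K) = 1 :=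
    mul_eq_one_comm.1 hAd
  have hPA : (P : Matrix (Fin n) (Fin n) K) * (A : Matrix (Fin n) (Fin n) K)
      = (B : Matrix (Fin n) (Fin n) K) * (P : Matrix (Fin n) (Fin n) K) := by
    have h1 : P * A = B * P := by rw [← hP]; group
    have h2 := congrArg (fun g : GL (Fin n) K => (g : Matrix (Fin n) (Fin n) K)) h1
    simpa using h2
  obtain ⟨Pm, hPm⟩ : ∃ Pm : Matrix (Fin n) (Fin n) K, Pm = (P : Matrix (Fin n) (Fin n) K) := ⟨_, rfl⟩
  obtain ⟨Pi, hPi⟩ : ∃ Pi : Matrix (Fin n) (Fin n) K,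
      Pi = ((P⁻¹ : GL (Fin n) K) : Matrix (Fin n) (Fin n) K) := ⟨_, rfl⟩
  obtain ⟨Am, hAm⟩ : ∃ Am : Matrix (Fin n) (Fin n) K, Am = (A : Matrix (Fin n) (Fin n) K) := ⟨_, rfl⟩
  obtain ⟨Bm, hBm⟩ : ∃ Bm : Matrix (Fin n) (Fin n) K, Bm = (B : Matrix (Fin n) (Fin n) K) := ⟨_, rfl⟩
  rw [← hPm, ← hAm, ← hBm] at hPA
  rw [← hAm] at hAd hAd'
  rw [← hBm] at hBd
  have hPPi : Pm * Pi = 1 := by rw [hPm, hPi, ← Units.val_mul, mul_inv_cancel, Units.val_one]
  have hPiP : Pi * Pm = 1 := by rw [hPm, hPi, ← Units.val_mul, inv_mul_cancel, Units.val_one]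
  -- the Hermitian matrix H
  obtain ⟨H, hH⟩ : ∃ H : Matrix (Fin n) (Fin n) K, H = dag σ Pm * Pm := ⟨_, rfl⟩
  have hHd : dag σ H = H := by rw [hH, dag_mul, dag_dag σ hσ]
  have hHA : Commute Am H := by
    have h1 : dag σ Am * H * Am = H := by
      calc dag σ Am * H * Am = dag σ (Pm * Am) * (Pm * Am) := by
            rw [hH, dag_mul]; simp only [mul_assoc]
        _ = dag σ Pm * (dag σ Bm * Bm) * Pm := by rw [hPA, dag_mul]; simp only [mul_assoc]
        _ = H := by rw [hBd, mul_one, hH]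
    show Am * H = H * Am
    calc Am * H = Am * (dag σ Am * H * Am) := by rw [h1]
      _ = (Am * dag σ Am) * H * Am := by simp only [mul_assoc]
      _ = H * Am := by rw [hAd', one_mul]
  have hH1 : H * (Pi * dag σ Pi) = 1 := by
    calc H * (Pi * dag σ Pi) = dag σ Pm * (Pm * Pi) * dag σ Pi := by
          rw [hH]; simp only [mul_assoc]
      _ = dag σ (Pi * Pm) := by rw [hPPi, mul_one, dag_mul]
      _ = 1 := by rw [hPiP, dag_one]
  have hH2 : (Pi * dag σ Pi) * H = 1 := mul_eq_one_comm.1 hH1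
  let Hg : GL (Fin n) K := ⟨H, Pi * dag σ Pi, hH1, hH2⟩
  have ho : 0 < orderOf Hg := orderOf_pos Hg
  have hHo : H ^ orderOf Hg = 1 := by
    have h1 := pow_orderOf_eq_one Hg
    have h2 : ((Hg ^ orderOf Hg : GL (Fin n) K) : Matrix (Fin n) (Fin n) K) = 1 := by
      rw [h1]
      rfl
    rw [Units.val_pow_eq_pow_val] at h2
    exact h2
  obtain ⟨Φ, ⟨h, hh⟩⟩ := lemPhi σ hσ hne (orderOf Hg) ho
  obtain ⟨R, hR⟩ : ∃ R : Matrix (Fin n) (Fin n) K, R = aeval H Φ := ⟨_, rfl⟩
  have hRd : dag σ R = aeval H (Φ.map σ) := by rw [hR, dag_aeval, hHd]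
  have hRR : dag σ R * R = H := by
    rw [hRd, hR, ← map_mul]
    have h1 : Φ.map σ * Φ = X + (X ^ orderOf Hg - 1) * h := by linear_combination hh
    rw [h1, map_add, map_mul, map_sub, map_pow, aeval_X, map_one, hHo, sub_self, zero_mul,
      add_zero]
  have hRA : Commute Am R := by
    rw [hR]
    exact commute_aeval Am H hHA Φ
  have hR1 : (Pi * dag σ Pi * dag σ R) * R = 1 := by
    rw [mul_assoc, hRR, hH2]
  have hR2 : R * (Pi * dag σ Pi * dag σ R) = 1 := mul_eq_one_comm.1 hR1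
  let Rg : GL (Fin n) K := ⟨R, Pi * dag σ Pi * dag σ R, hR2, hR1⟩
  have hRgA : Rg * A = A * Rg := by
    apply Units.ext
    rw [Units.val_mul, Units.val_mul, ← hAm]
    exact hRA.eq.symm
  refine ⟨P * Rg⁻¹, ?_, ?_⟩
  · rw [S0277.mem_GU]
    have hU : dag (S0284.frob hK) ((P * Rg⁻¹ : GL (Fin n) K) : Matrix (Fin n) (Fin n) K)
        * ((P * Rg⁻¹ : GL (Fin n) K) : Matrix (Fin n) (Fin n) K) = 1 := by
      rw [← hσdef, Units.val_mul, ← hPm]
      obtain ⟨Ri, hRi⟩ : ∃ Ri : Matrix (Fin n) (Fin n) K,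
          Ri = ((Rg⁻¹ : GL (Fin n) K) : Matrix (Fin n) (Fin n) K) := ⟨_, rfl⟩
      rw [← hRi]
      have hRRi : R * Ri = 1 := by
        rw [hRi]
        exact hR2
      calc dag σ (Pm * Ri) * (Pm * Ri) = dag σ Ri * (dag σ Pm * Pm) * Ri := by
            rw [dag_mul]; simp only [mul_assoc]
        _ = dag σ Ri * (dag σ R * R) * Ri := by rw [← hH, hRR]
        _ = dag σ (R * Ri) * (R * Ri) := by rw [dag_mul]; simp only [mul_assoc]
        _ = 1 := by rw [hRRi, dag_one, one_mul]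
    exact GU_of_dag hK _ hU
  · rw [← hP]
    have hconj : Rg⁻¹ * A * Rg = A := by
      rw [mul_assoc, ← hRgA, inv_mul_cancel_left]
    calc P * Rg⁻¹ * A * (P * Rg⁻¹)⁻¹ = P * (Rg⁻¹ * A * Rg) * P⁻¹ := by group
      _ = P * A * P⁻¹ := by rw [hconj]

end Cfsg.Agent.Helper8.GUC
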