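import Mathlib
import Cfsg.Prelude.Def_GeometricClasses
import Cfsg.Agent.Helper8.SUBridge

/-!
# `SU_3(q)` is generated by unitary transvections (`q > 2`)

A hyperbolic pair `e, f`, the unipotent radical `x ↦ x + h(x,e) b - h(x,b) e + t h(x,e) e` of
the stabiliser of `e`, the torus elements of the `SL₂` on the hyperbolic plane, and the
reduction of an arbitrary element of `SU_3` to the identity.
-/

set_option autoImplicit false

namespace Cfsg.Agent.Helper8.SUNd

open Matrix Cfsg.Agent.Helper2 Cfsg.Agent.Helper8.SULag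

variable {F : Type*} [Field F] {n q : ℕ}

local notation "VV" => (Fin n → F)
local notation "MM" => Matrix (Fin n) (Fin n) F
local notation "GG" => Matrix.GeneralLinearGroup (Fin n) F
local notation "hh" => Cfsg.hermForm n F q

/-- A hyperbolic pair. -/
structure Hyp2 (q : ℕ) (e f : Fin n → F) : Prop where
  ee : Cfsg.hermForm n F q e e = 0
  ff : Cfsg.hermForm n F q f f = 0
  ef : Cfsg.hermForm n F q e f = 1
  fe : Cfsg.hermForm n F q f e = 1

/-- The hyperbolic plane. -/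
def H2 (e f : Fin n → F) : Submodule F (Fin n → F) :=
  ⊥ ⊔ Submodule.span F {e} ⊔ Submodule.span F {f}

theorem exists_hyp2 [Finite F] (hq : QF F q) (hn : 2 ≤ n) : ∃ e f : VV, Hyp2 q e f := by
  have hU := ND_bot (n := n) (F := F) hq
  have hb : Module.finrank F (⊥ : Submodule F VV) = 0 := finrank_bot F (Fin n → F)
  obtain ⟨z, hz, hzz⟩ := exists_noniso hq hU (by rw [hb]; omega)
  have hz0 : z ≠ 0 := by
    rintro rfl
    exact hzz (h_zero_left 0)
  obtain ⟨e₁, he₁, he₁e₁, hze₁⟩ := exists_iso_npair hq hU (by rw [hb]; omega) hz hz0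
  have he₁0 : e₁ ≠ 0 := by
    rintro rfl
    exact hze₁ (h_zero_right hq z)
  obtain ⟨f₁, hf₁, hf₁f₁, he₁f₁⟩ := exists_partner hq hU he₁ he₁0 he₁e₁
  exact ⟨e₁, f₁, ⟨he₁e₁, hf₁f₁, he₁f₁, by rw [← h_conj hq e₁ f₁, he₁f₁, map_one]⟩⟩

theorem Hyp2.nd (hq : QF F q) {e f : VV} (B : Hyp2 q e f) : ND q (H2 e f) :=
  ND_ext2 hq (ND_bot hq) (mem_perp_bot hq e) (mem_perp_bot hq f) B.ee B.ff B.ef

theorem mem_perp_H2 (hq : QF F q) (e f p : VV) :
    p ∈ perp q (H2 e f) ↔ hh p e = 0 ∧ hh p f = 0 := by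
  unfold H2
  rw [mem_perp_ext hq, mem_perp_ext hq]
  exact ⟨fun h => ⟨h.1.2, h.2⟩, fun h => ⟨⟨mem_perp_bot hq p, h.1⟩, h.2⟩⟩

theorem decomp2 (hq : QF F q) {e f : VV} (B : Hyp2 q e f) (v : VV) :
    ∃ (α β : F) (p : VV), p ∈ perp q (H2 e f) ∧ v = α • e + β • f + p := by
  obtain ⟨u, hu, hp⟩ := B.nd hq v
  unfold H2 at hu
  obtain ⟨u2, hu2, p3, hp3, rfl⟩ := Submodule.mem_sup.1 hu
  obtain ⟨u1, hu1, p2, hp2, rfl⟩ := Submodule.mem_sup.1 hu2
  obtain ⟨a, rfl⟩ := Submodule.mem_span_singleton.1 hp2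
  obtain ⟨b, rfl⟩ := Submodule.mem_span_singleton.1 hp3
  rw [(Submodule.mem_bot F).1 hu1, zero_add] at hp
  exact ⟨a, b, _, hp, by abel⟩

theorem Hyp2.finrank_ge (hq : QF F q) {e f : VV} (B : Hyp2 q e f) :
    2 ≤ Module.finrank F (H2 e f) := by
  unfold H2
  have hb : Module.finrank F (⊥ : Submodule F VV) = 0 := finrank_bot F (Fin n → F)
  have h1 := finrank_ext_lt (⊥ : Submodule F VV) e (fun h => by
    have h2 := B.ef
    rw [(Submodule.mem_bot F).1 h, h_zero_left] at h2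
    exact zero_ne_one h2)
  have l1 : (⊥ : Submodule F VV) ⊔ Submodule.span F {e} ≤ perpR hq e :=
    sup_le bot_le ((Submodule.span_singleton_le_iff_mem e (perpR hq e)).2 B.ee)
  have h2 := finrank_ext_lt ((⊥ : Submodule F VV) ⊔ Submodule.span F {e}) f (fun h => by
    have h3 : hh e f = 0 := l1 h
    rw [B.ef] at h3
    exact one_ne_zero h3)
  omega

/-! ## The unipotent radical -/

open Classical in
/-- The element `x ↦ x + h(x,a) b - h(x,b) a + t h(x,a) a` of `GL` (for `a` isotropic and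
orthogonal to `b`; the identity otherwise). -/
noncomputable def EU (n : ℕ) {F : Type*} [Field F] (q : ℕ) (a b : Fin n → F) (t : F) :
    Matrix.GeneralLinearGroup (Fin n) F :=
  if h : Cfsg.hermForm n F q a a = 0 ∧ Cfsg.hermForm n F q a b = 0 ∧
      Cfsg.hermForm n F q b a = 0 then
    Parab.tgl (-a) (fun j => b j ^ q) (by
      rw [dot_eq, h_neg_left, h.2.1, neg_zero, add_zero]
      exact one_ne_zero) *
    Parab.tgl (b + (t + Cfsg.hermForm n F q b b) • a) (fun j => a j ^ q) (by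
      rw [dot_eq, h_add_left, h_smul_left, h.2.2, h.1, mul_zero, add_zero, add_zero]
      exact one_ne_zero)
  else 1

theorem EU_mulVec {a b : VV} (ha : hh a a = 0) (hab : hh a b = 0) (hba : hh b a = 0) (t : F)
    (x : VV) :
    ((EU n q a b t : GG) : MM) *ᵥ x = x + hh x a • b - hh x b • a + (t * hh x a) • a := by
  unfold EU
  rw [dif_pos ⟨ha, hab, hba⟩, Units.val_mul, Parab.tgl_val, Parab.tgl_val,
    ← Matrix.mulVec_mulVec, Parab.tmat_mulVec, Parab.tmat_mulVec, dot_eq, dot_eq]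
  simp only [h_add_left, h_smul_left, hab, mul_zero, add_zero]
  module

theorem EU_mem_sl (a b : VV) (t : F) : EU n q a b t ∈ Cfsg.Geo.specialLinear (Fin n) F := by
  by_cases h : hh a a = 0 ∧ hh a b = 0 ∧ hh b a = 0
  · rw [Parab.mem_sl_iff]
    unfold EU
    rw [dif_pos h, Units.val_mul, Parab.tgl_val, Parab.tgl_val, Matrix.det_mul, Parab.tmat_det,
      Parab.tmat_det, dot_eq, dot_eq, h_neg_left, h.2.1, h_add_left, h_smul_left, h.2.2, h.1]
    ring
  · unfold EU
    rw [dif_neg h]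
    exact Subgroup.one_mem _

theorem EU_mem_gu (hq : QF F q) {a b : VV} (ha : hh a a = 0) (hab : hh a b = 0)
    (hba : hh b a = 0) {t : F} (ht : t + frob hq t + hh b b = 0) :
    EU n q a b t ∈ Cfsg.GU n F q := by
  rw [mem_gu_iff]
  intro u v
  rw [EU_mulVec ha hab hba, EU_mulVec ha hab hba]
  simp only [h_add_left, h_sub_left, h_add_right hq, h_sub_right hq, h_smul_left,
    h_smul_right hq, map_mul, h_conj hq, ha, hab, hba, mul_zero, add_zero, sub_zero, zero_add,
    zero_sub]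
  linear_combination (hh u a * hh a v) * ht

/-- Transitivity of the unipotent radical at `e`. -/
theorem EU_move (hq : QF F q) {e f f' : VV} (hee : hh e e = 0) (hfe : hh f e = 1)
    (hf'e : hh f' e = 1) (hff : hh f f = 0) (hf'f' : hh f' f' = 0) :
    ∃ E : GG, E ∈ Cfsg.GU n F q ⊓ Cfsg.Geo.specialLinear (Fin n) F ∧ (E : MM) *ᵥ e = e ∧
      (E : MM) *ᵥ f = f' := by
  have hde : hh (f' - f) e = 0 := by rw [h_sub_left, hfe, hf'e, sub_self]
  have hed : hh e (f' - f) = 0 := h_symm0 hq hde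
  have hfd : frob hq (hh f (f' - f)) = hh (f' - f) f := h_conj hq _ _
  have ht : hh f (f' - f) + frob hq (hh f (f' - f)) + hh (f' - f) (f' - f) = 0 := by
    have h1 : hh f' f' = hh f f + hh f (f' - f) + hh (f' - f) f + hh (f' - f) (f' - f) := by
      have e1 : f' = f + (f' - f) := by abel
      conv_lhs => rw [e1]
      rw [h_add_left, h_add_right hq, h_add_right hq]
      ring
    rw [hfd]
    rw [hf'f', hff] at h1
    linear_combination -h1
  refine ⟨EU n q e (f' - f) (hh f (f' - f)),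
    Subgroup.mem_inf.2 ⟨EU_mem_gu hq hee hed hde ht, EU_mem_sl _ _ _⟩, ?_, ?_⟩
  · rw [EU_mulVec hee hed hde, hee, hed]
    module
  · rw [EU_mulVec hee hed hde, hfe]
    module

/-- The transvection group is normalised by `GU`. -/
theorem TT_conj (hq : QF F q) {g t : GG} (hg : g ∈ Cfsg.GU n F q) (ht : t ∈ TT hq n) :
    g * t * g⁻¹ ∈ TT hq n := by
  have h1 : TT hq n ≤ (TT hq n).comap (MulAut.conj g).toMonoidHom := by
    apply (Subgroup.closure_le _).2
    rintro x ⟨a, c, ha, hc, rfl⟩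
    show (MulAut.conj g) (tvU n q a c) ∈ TT hq n
    rw [MulAut.conj_apply, ← tvU_conj g hg a c]
    exact TT_mem hq _ c (by rw [h_map hg]; exact ha) hc
  exact h1 ht

/-! ## Torus elements of the `SL₂` on the hyperbolic plane -/

theorem tE_lin {e f : VV} (B : Hyp2 q e f) (x c d : F) {p : VV} (hpe : hh p e = 0) :
    ((tvU n q e x : GG) : MM) *ᵥ (c • e + d • f + p) = (c + x * d) • e + d • f + p := by
  rw [tvU_mulVec _ B.ee, h_add_left, h_add_left, h_smul_left, h_smul_left, B.ee, B.fe, hpe]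
  module

theorem tF_lin {e f : VV} (B : Hyp2 q e f) (x c d : F) {p : VV} (hpf : hh p f = 0) :
    ((tvU n q f x : GG) : MM) *ᵥ (c • e + d • f + p) = c • e + (d + x * c) • f + p := by
  rw [tvU_mulVec _ B.ff, h_add_left, h_add_left, h_smul_left, h_smul_left, B.ff, B.ef, hpf]
  module

/-- The torus element `e ↦ k' e`, `f ↦ k f` as a product of six transvections. -/
noncomputable def hk (hq : QF F q) (n : ℕ) (e f : Fin n → F) (k k' : F) :
    Matrix.GeneralLinearGroup (Fin n) F :=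
  tvU n q e (-(skew0 hq * k')) * tvU n q f ((skew0 hq)⁻¹ * k) * tvU n q e (-(skew0 hq * k')) *
    tvU n q e (skew0 hq) * tvU n q f (-(skew0 hq)⁻¹) * tvU n q e (skew0 hq)

theorem hk_mem (hq : QF F q) {e f : VV} (B : Hyp2 q e f) {k k' : F} (hkk : k * k' = 1)
    (hfk : frob hq k = k) : hk hq n e f k k' ∈ TT hq n := by
  have hk0 : k ≠ 0 := by
    rintro rfl
    rw [zero_mul] at hkk
    exact zero_ne_one hkk
  have hfk' : frob hq k' = k' := by
    have h4 : frob hq k * frob hq k' = 1 := by rw [← map_mul, hkk, map_one]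
    rw [hfk] at h4
    apply mul_left_cancel₀ hk0
    rw [h4, hkk]
  have hsf := skew0_frob hq
  have hx0 : frob hq (-(skew0 hq)⁻¹) = -(-(skew0 hq)⁻¹) := by
    rw [map_neg, map_inv₀, hsf, inv_neg]
  have hx1 : frob hq (-(skew0 hq * k')) = -(-(skew0 hq * k')) := by
    rw [map_neg, map_mul, hsf, hfk']
    ring
  have hx2 : frob hq ((skew0 hq)⁻¹ * k) = -((skew0 hq)⁻¹ * k) := by
    rw [map_mul, map_inv₀, hsf, hfk, inv_neg]
    ring
  unfold hk
  exact (TT hq n).mul_mem ((TT hq n).mul_mem ((TT hq n).mul_mem ((TT hq n).mul_mem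
    ((TT hq n).mul_mem (TT_mem hq e _ B.ee hx1) (TT_mem hq f _ B.ff hx2))
    (TT_mem hq e _ B.ee hx1)) (TT_mem hq e _ B.ee hsf)) (TT_mem hq f _ B.ff hx0))
    (TT_mem hq e _ B.ee hsf)

theorem hk_apply (hq : QF F q) {e f : VV} (B : Hyp2 q e f) {k k' : F} (hkk : k * k' = 1)
    (c d : F) {p : VV} (hpe : hh p e = 0) (hpf : hh p f = 0) :
    ((hk hq n e f k k' : GG) : MM) *ᵥ (c • e + d • f + p) = (k' * c) • e + (k * d) • f + p := by
  have hs0 := skew0_ne hq
  unfold hk
  simp only [Units.val_mul, ← Matrix.mulVec_mulVec]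
  rw [tE_lin B _ _ _ hpe, tF_lin B _ _ _ hpf, tE_lin B _ _ _ hpe, tE_lin B _ _ _ hpe,
    tF_lin B _ _ _ hpf, tE_lin B _ _ _ hpe]
  have key : ∀ c₁ d₁ c₂ d₂ : F, c₁ = c₂ → d₁ = d₂ → c₁ • e + d₁ • f + p = c₂ • e + d₂ • f + p := by
    intro c₁ d₁ c₂ d₂ h1 h2
    rw [h1, h2]
  apply key
  · field_simp
    linear_combination (-(skew0 hq * d) - c * k') * hkk
  · field_simp
    linear_combination c * hkk

/-! ## The unipotent radical lies in the transvection group -/

theorem Qe_mem (hq : QF F q) {e f : VV} (B : Hyp2 q e f) {k k' : F} (hkk : k * k' = 1)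
    (hfk : frob hq k = k) {b : VV} (hbe : hh b e = 0) (hbf : hh b f = 0) :
    ∃ τ ∈ TT hq n, ((τ : GG) : MM) *ᵥ e = e ∧
      ∃ κ : F, ((τ : GG) : MM) *ᵥ f = f + (1 - k') • b + κ • e := by
  have heb := h_symm0 hq hbe
  have hfb := h_symm0 hq hbf
  obtain ⟨t, ht⟩ := exists_tr hq (-(hh b b)) (by rw [map_neg, h_conj hq])
  have ht' : t + frob hq t + hh b b = 0 := by linear_combination ht
  have hE := EU_mem_gu hq B.ee heb hbe ht'
  have hEv := fun x => EU_mulVec (n := n) (q := q) B.ee heb hbe t x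
  have hH := hk_mem hq B hkk hfk
  have z0 : hh (0 : VV) e = 0 := h_zero_left e
  have z0' : hh (0 : VV) f = 0 := h_zero_left f
  -- the four maps on `e`
  have a1 : ((hk hq n e f k k' : GG) : MM) *ᵥ (k • e) = e := by
    have h1 := hk_apply hq B hkk k 0 z0 z0'
    have e1 : k • e + (0 : F) • f + 0 = k • e := by module
    have e2 : (k' * k) • e + (k * 0) • f + 0 = e := by
      rw [mul_comm k' k, hkk]
      module
    rw [e1, e2] at h1
    exact h1
  have a2 : (((hk hq n e f k k')⁻¹ : GG) : MM) *ᵥ e = k • e := by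
    have h1 := Parab.inv_mulVec_mulVec (hk hq n e f k k') (k • e)
    rw [a1] at h1
    exact h1
  have a3 : ((EU n q e b t : GG) : MM) *ᵥ e = e := by
    rw [hEv, B.ee, heb]
    module
  have a4 : (((EU n q e b t)⁻¹ : GG) : MM) *ᵥ e = e := by
    have h1 := Parab.inv_mulVec_mulVec (EU n q e b t) e
    rw [a3] at h1
    exact h1
  -- the four maps on `f`
  have b1 : ((hk hq n e f k k' : GG) : MM) *ᵥ (k' • f) = f := by
    have h1 := hk_apply hq B hkk 0 k' z0 z0'
    have e1 : (0 : F) • e + k' • f + 0 = k' • f := by module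
    have e2 : (k' * 0) • e + (k * k') • f + 0 = f := by
      rw [hkk]
      module
    rw [e1, e2] at h1
    exact h1
  have b2 : (((hk hq n e f k k')⁻¹ : GG) : MM) *ᵥ f = k' • f := by
    have h1 := Parab.inv_mulVec_mulVec (hk hq n e f k k') (k' • f)
    rw [b1] at h1
    exact h1
  have b3 : ((EU n q e b t : GG) : MM) *ᵥ (f - b + frob hq t • e) = f := by
    rw [hEv]
    simp only [h_add_left, h_sub_left, h_smul_left, B.ee, B.fe, hbe, heb, hfb, mul_zero,
      add_zero, sub_zero, zero_sub]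
    have e1 : f - b + frob hq t • e + (1 : F) • b - (-(hh b b)) • e + (t * 1) • e =
        f + (t + frob hq t + hh b b) • e := by module
    rw [e1, ht', zero_smul, add_zero]
  have b4 : (((EU n q e b t)⁻¹ : GG) : MM) *ᵥ f = f - b + frob hq t • e := by
    have h1 := Parab.inv_mulVec_mulVec (EU n q e b t) (f - b + frob hq t • e)
    rw [b3] at h1
    exact h1
  have b5 : ((hk hq n e f k k' : GG) : MM) *ᵥ (k' • (f - b + frob hq t • e)) =
      (k' * k' * frob hq t) • e + f + (-(k' • b)) := by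
    have hpe : hh (-(k' • b)) e = 0 := by rw [h_neg_left, h_smul_left, hbe, mul_zero, neg_zero]
    have hpf : hh (-(k' • b)) f = 0 := by rw [h_neg_left, h_smul_left, hbf, mul_zero, neg_zero]
    have h1 := hk_apply hq B hkk (k' * frob hq t) k' hpe hpf
    have e1 : (k' * frob hq t) • e + k' • f + -(k' • b) = k' • (f - b + frob hq t • e) := by
      module
    have e2 : (k' * (k' * frob hq t)) • e + (k * k') • f + -(k' • b) =
        (k' * k' * frob hq t) • e + f + (-(k' • b)) := by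
      rw [hkk]
      module
    rw [e1, e2] at h1
    exact h1
  have b6 : ((EU n q e b t : GG) : MM) *ᵥ ((k' * k' * frob hq t) • e + f + (-(k' • b))) =
      f + (1 - k') • b + (k' * k' * frob hq t + k' * hh b b + t) • e := by
    rw [hEv]
    simp only [h_add_left, h_neg_left, h_smul_left, B.ee, B.fe, hbe, heb, hfb, mul_zero,
      add_zero, zero_add, neg_zero]
    module
  refine ⟨EU n q e b t * hk hq n e f k k' * (EU n q e b t)⁻¹ * (hk hq n e f k k')⁻¹,
    (TT hq n).mul_mem (TT_conj hq hE hH) ((TT hq n).inv_mem hH), ?_,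
    ⟨k' * k' * frob hq t + k' * hh b b + t, ?_⟩⟩
  · simp only [Units.val_mul, ← Matrix.mulVec_mulVec]
    rw [a2, Matrix.mulVec_smul, a4, a1, a3]
  · simp only [Units.val_mul, ← Matrix.mulVec_mulVec]
    rw [b2, Matrix.mulVec_smul, b4, b5, b6]

/-- Transitivity of the part of the transvection group fixing `e` on the isotropic vectors
`f'` with `h(f', e) = 1`. -/
theorem Qe_trans (hq : QF F q) {e f : VV} (B : Hyp2 q e f) {k k' : F} (hkk : k * k' = 1)
    (hfk : frob hq k = k) (hk1 : k' ≠ 1) {f' : VV} (hf'f' : hh f' f' = 0) (hf'e : hh f' e = 1) :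
    ∃ τ ∈ TT hq n, ((τ : GG) : MM) *ᵥ e = e ∧ ((τ : GG) : MM) *ᵥ f = f' := by
  obtain ⟨α, β, p, hp, rfl⟩ := decomp2 hq B f'
  obtain ⟨hpe, hpf⟩ := (mem_perp_H2 hq e f p).1 hp
  have hep := h_symm0 hq hpe
  have hfp := h_symm0 hq hpf
  have hβ : β = 1 := by
    rw [h_add_left, h_add_left, h_smul_left, h_smul_left, B.ee, B.fe, hpe] at hf'e
    linear_combination hf'e
  subst hβ
  have h1k : (1 : F) - k' ≠ 0 := sub_ne_zero.2 (Ne.symm hk1)
  have hbe : hh ((1 - k')⁻¹ • p) e = 0 := by rw [h_smul_left, hpe, mul_zero]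
  have hbf : hh ((1 - k')⁻¹ • p) f = 0 := by rw [h_smul_left, hpf, mul_zero]
  obtain ⟨τ₀, hτ₀, hτ₀e, κ, hτ₀f⟩ := Qe_mem hq B hkk hfk hbe hbf
  rw [smul_smul, mul_inv_cancel₀ h1k, one_smul] at hτ₀f
  have hgu : τ₀ ∈ Cfsg.GU n F q := (Subgroup.mem_inf.1 (TT_le hq hτ₀)).1
  have hiso : hh (f + p + κ • e) (f + p + κ • e) = 0 := by
    rw [← hτ₀f, h_map hgu, B.ff]
  have n1 : ∀ κ' : F, hh (f + p + κ' • e) (f + p + κ' • e) = κ' + frob hq κ' + hh p p := by
    intro κ'
    simp only [h_add_left, h_add_right hq, h_smul_left, h_smul_right hq, B.ee, B.ff, B.ef, B.fe,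
      hpe, hpf, hep, hfp, mul_zero, mul_one, add_zero, zero_add]
    ring
  have e1 : α • e + (1 : F) • f + p = f + p + α • e := by module
  rw [e1] at hf'f' ⊢
  rw [n1] at hiso hf'f'
  have hc : frob hq (α - κ) = -(α - κ) := by
    rw [map_sub]
    linear_combination hf'f' - hiso
  refine ⟨tvU n q e (α - κ) * τ₀, (TT hq n).mul_mem (TT_mem hq e _ B.ee hc) hτ₀, ?_, ?_⟩
  · rw [Units.val_mul, ← Matrix.mulVec_mulVec, hτ₀e, tvU_mulVec _ B.ee, B.ee, mul_zero,
      zero_smul, add_zero]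
  · rw [Units.val_mul, ← Matrix.mulVec_mulVec, hτ₀f, tvU_mulVec _ B.ee]
    simp only [h_add_left, h_smul_left, B.ee, B.fe, hpe, mul_zero, add_zero, mul_one]
    module

/-! ## The torus -/

theorem torus_e [Finite F] (hq : QF F q) (hn : 3 ≤ n) {e f : VV} (B : Hyp2 q e f) {μ : F}
    (hμ : μ ≠ 0) : ∃ τ ∈ TT hq n, ((τ : GG) : MM) *ᵥ e = μ • e := by
  have hs0 := skew0_ne hq
  have hsf := skew0_frob hq
  have hfμ : frob hq μ ≠ 0 := (map_ne_zero (frob hq)).2 hμ
  have hdim : Module.finrank F (H2 e f) < n := by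
    unfold H2
    have hb : Module.finrank F (⊥ : Submodule F VV) = 0 := finrank_bot F (Fin n → F)
    have h1 := finrank_ext_le (⊥ : Submodule F VV) e
    have h2 := finrank_ext_le ((⊥ : Submodule F VV) ⊔ Submodule.span F {e}) f
    omega
  obtain ⟨a, ha⟩ : ∃ a : F, a = skew0 hq / frob hq μ := ⟨_, rfl⟩
  obtain ⟨y, hy, hyy⟩ := exists_norm_vec hq (B.nd hq) hdim (-(a + frob hq a)) (by
    rw [map_neg, map_add, frob_frob]
    ring)
  obtain ⟨hye, hyf⟩ := (mem_perp_H2 hq e f y).1 hy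
  have hey := h_symm0 hq hye
  have hfy := h_symm0 hq hyf
  have pb : ∀ x : VV, x ∈ perp q (⊥ : Submodule F VV) := mem_perp_bot hq
  -- the three vectors
  have i1 : hh (skew0 hq • f) (skew0 hq • f) = 0 := by
    rw [h_smul_left, h_smul_right hq, B.ff, mul_zero, mul_zero]
  have i2 : hh (a • f + y + e) (a • f + y + e) = 0 := by
    simp only [h_add_left, h_add_right hq, h_smul_left, h_smul_right hq, B.ee, B.ff, B.ef, B.fe,
      hye, hyf, hey, hfy, hyy, mul_zero, mul_one, add_zero, zero_add]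
    ring
  have i3 : hh (μ • e) (μ • e) = 0 := by
    rw [h_smul_left, h_smul_right hq, B.ee, mul_zero, mul_zero]
  have p1 : hh e (skew0 hq • f) = -(skew0 hq) := by
    rw [h_smul_right hq, B.ef, mul_one, hsf]
  have p2 : hh (skew0 hq • f) (a • f + y + e) = skew0 hq := by
    simp only [h_add_right hq, h_smul_left, h_smul_right hq, B.ff, B.fe, hfy, mul_zero, mul_one,
      add_zero, zero_add]
  have p3 : hh (a • f + y + e) (μ • e) = skew0 hq := by
    simp only [h_add_left, h_smul_left, h_smul_right hq, B.ee, B.fe, hye, mul_zero, mul_one,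
      add_zero]
    rw [ha, mul_div_cancel₀ _ hfμ]
  have m1 : Mv hq ⊥ e (skew0 hq • f) := one_step hq (pb _) (pb _) B.ee i1
    (by rw [p1]; exact neg_ne_zero.2 hs0) (by rw [p1, map_neg, hsf])
  have m2 : Mv hq ⊥ (skew0 hq • f) (a • f + y + e) := one_step hq (pb _) (pb _) i1 i2
    (by rw [p2]; exact hs0) (by rw [p2]; exact hsf)
  have m3 : Mv hq ⊥ (a • f + y + e) (μ • e) := one_step hq (pb _) (pb _) i2 i3
    (by rw [p3]; exact hs0) (by rw [p3]; exact hsf)
  obtain ⟨τ, hτ, -, hτe⟩ := (m1.trans hq m2).trans hq m3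
  exact ⟨τ, hτ, hτe⟩

/-! ## Dimension three -/

/-- An element of `SU_3` fixing a hyperbolic pair is trivial. -/
theorem eq_one_of_fix3 (hq : QF F q) (hn : n = 3) {e f : VV} (B : Hyp2 q e f) {g : GG}
    (hg : g ∈ Cfsg.GU n F q ⊓ Cfsg.Geo.specialLinear (Fin n) F)
    (hge : (g : MM) *ᵥ e = e) (hgf : (g : MM) *ᵥ f = f) : g = 1 := by
  have hgu := (Subgroup.mem_inf.1 hg).1
  have hdet : (g : MM).det = 1 := (Parab.mem_sl_iff g).1 (Subgroup.mem_inf.1 hg).2
  have hHnd := B.nd hq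
  have hPnd := ND_perp hq hHnd
  have hPH : perp q (H2 e f) ⊓ H2 e f = ⊥ := by
    rw [eq_bot_iff]
    intro x hx
    obtain ⟨h1, h2⟩ := Submodule.mem_inf.1 hx
    rw [Submodule.mem_bot]
    exact hHnd.inf_perp hq h2 h1
  have hfin : Module.finrank F ↥(perp q (H2 e f)) ≤ 1 := by
    have h1 := Submodule.finrank_sup_add_finrank_inf_eq (perp q (H2 e f)) (H2 e f)
    rw [hPH, finrank_bot, add_zero] at h1
    have h2 := B.finrank_ge hq
    have h3 : Module.finrank F VV = n := Module.finrank_fin_fun F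
    have h4 := Submodule.finrank_le (perp q (H2 e f) ⊔ H2 e f)
    omega
  obtain ⟨⟨z, hz⟩, hzall⟩ := finrank_le_one_iff.1 hfin
  have hzspan : ∀ p ∈ perp q (H2 e f), ∃ c : F, p = c • z := by
    intro p hp
    obtain ⟨c, hc⟩ := hzall ⟨p, hp⟩
    exact ⟨c, (congrArg Subtype.val hc).symm⟩
  obtain ⟨hze, hzf⟩ := (mem_perp_H2 hq e f z).1 hz
  have hez := h_symm0 hq hze
  have hfz := h_symm0 hq hzf
  have hgP : (g : MM) *ᵥ z ∈ perp q (H2 e f) := by
    rw [mem_perp_H2 hq]
    constructor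
    · have h1 := h_map hgu z e
      rw [hge] at h1
      rw [h1]
      exact hze
    · have h1 := h_map hgu z f
      rw [hgf] at h1
      rw [h1]
      exact hzf
  obtain ⟨ν, hν⟩ := hzspan _ hgP
  by_cases hz0 : z = 0
  · apply gl_ext
    intro v
    obtain ⟨α, β, p, hp, rfl⟩ := decomp2 hq B v
    obtain ⟨c, rfl⟩ := hzspan p hp
    rw [hz0, smul_zero, add_zero, Matrix.mulVec_add, Matrix.mulVec_smul, Matrix.mulVec_smul, hge,
      hgf, Units.val_one, Matrix.one_mulVec]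
  · have hzz : hh z z ≠ 0 := by
      intro h0
      apply hz0
      apply hPnd.inf_perp hq hz
      intro p hp
      obtain ⟨c, rfl⟩ := hzspan p hp
      rw [h_smul_right hq, h0, mul_zero]
    have hfzz : frob hq (hh z z) = hh z z := h_conj hq z z
    have hmat : (g : MM) =
        1 + Matrix.vecMulVec ((ν - 1) • z) (fun j => ((hh z z)⁻¹ • z) j ^ q) := by
      apply Matrix.toLin'.injective
      apply LinearMap.ext
      intro v
      rw [Matrix.toLin'_apply, Matrix.toLin'_apply]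
      obtain ⟨α, β, p, hp, rfl⟩ := decomp2 hq B v
      obtain ⟨c, rfl⟩ := hzspan p hp
      have hval : hh (α • e + β • f + c • z) ((hh z z)⁻¹ • z) = c := by
        simp only [h_add_left, h_smul_left, h_smul_right hq, map_inv₀, hfzz, hez, hfz, mul_zero,
          zero_add]
        field_simp
      rw [Parab.tmat_mulVec, dot_eq, hval]
      simp only [Matrix.mulVec_add, Matrix.mulVec_smul, hge, hgf, hν]
      module
    have hν1 : ν = 1 := by
      rw [hmat, Parab.tmat_det, dot_eq, h_smul_left, h_smul_right hq, map_inv₀, hfzz,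
        inv_mul_cancel₀ hzz, mul_one] at hdet
      linear_combination hdet
    apply gl_ext
    intro v
    obtain ⟨α, β, p, hp, rfl⟩ := decomp2 hq B v
    obtain ⟨c, rfl⟩ := hzspan p hp
    simp only [Matrix.mulVec_add, Matrix.mulVec_smul, hge, hgf, hν, hν1, one_smul, Units.val_one,
      Matrix.one_mulVec]

/-- **Generation in dimension three**: for `q > 2` the group `SU_3(q)` is generated by the
unitary transvections. -/
theorem su_le_tt3 [Finite F] (hq : QF F q) (hn : n = 3)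
    (hk : ∃ k : F, frob hq k = k ∧ k ≠ 0 ∧ k ≠ 1) :
    Cfsg.GU n F q ⊓ Cfsg.Geo.specialLinear (Fin n) F ≤ TT hq n := by
  obtain ⟨k, hfk, hk0, hk1⟩ := hk
  have hn2 : 2 ≤ n := by omega
  obtain ⟨e, f, B⟩ := exists_hyp2 hq hn2
  have hkk : k * k⁻¹ = 1 := mul_inv_cancel₀ hk0
  have hk'1 : k⁻¹ ≠ 1 := by
    intro h
    apply hk1
    rw [← inv_inv k, h, inv_one]
  intro g hg
  have hgu := (Subgroup.mem_inf.1 hg).1
  have hTle : TT hq n ≤ Cfsg.GU n F q ⊓ Cfsg.Geo.specialLinear (Fin n) F := TT_le hq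
  have he0 : e ≠ 0 := by
    rintro rfl
    have h1 := B.ef
    rw [h_zero_left] at h1
    exact zero_ne_one h1
  have hyy : hh ((g : MM) *ᵥ e) ((g : MM) *ᵥ e) = 0 := by
    rw [h_map hgu]
    exact B.ee
  have hy0 : (g : MM) *ᵥ e ≠ 0 := by
    intro h0
    have h1 := h_map hgu e f
    rw [h0, h_zero_left, B.ef] at h1
    exact zero_ne_one h1
  obtain ⟨t₁, ht₁, ⟨μ, hμ⟩, -⟩ := move2 hq (TT hq n) (fun a c ha hc => TT_mem hq a c ha hc) ⊥
    ((g : MM) *ᵥ e) e hyy B.ee (fun h => hy0 ((Submodule.mem_bot F).1 h))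
    (fun h => he0 ((Submodule.mem_bot F).1 h))
    (fun u hu => by rw [(Submodule.mem_bot F).1 hu]; exact h_zero_left _)
    (fun u hu => by rw [(Submodule.mem_bot F).1 hu]; exact h_zero_left _)
  have hμ0 : μ ≠ 0 := by
    rintro rfl
    rw [zero_smul] at hμ
    apply hy0
    apply Parab.gl_mulVec_inj t₁
    rw [hμ, Matrix.mulVec_zero]
  have hn3 : 3 ≤ n := by omega
  obtain ⟨τ, hτ, hτe⟩ := torus_e hq hn3 B (inv_ne_zero hμ0)
  have hg₂ : τ * t₁ * g ∈ Cfsg.GU n F q ⊓ Cfsg.Geo.specialLinear (Fin n) F :=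
    Subgroup.mul_mem _ (Subgroup.mul_mem _ (hTle hτ) (hTle ht₁)) hg
  have hg₂u := (Subgroup.mem_inf.1 hg₂).1
  have hg₂e : ((τ * t₁ * g : GG) : MM) *ᵥ e = e := by
    rw [Units.val_mul, Units.val_mul, ← Matrix.mulVec_mulVec, ← Matrix.mulVec_mulVec, hμ,
      Matrix.mulVec_smul, hτe, smul_smul, mul_inv_cancel₀ hμ0, one_smul]
  have hf'f' : hh (((τ * t₁ * g : GG) : MM) *ᵥ f) (((τ * t₁ * g : GG) : MM) *ᵥ f) = 0 := by
    rw [h_map hg₂u]
    exact B.ff
  have hf'e : hh (((τ * t₁ * g : GG) : MM) *ᵥ f) e = 1 := by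
    have h1 := h_map hg₂u f e
    rw [hg₂e, B.fe] at h1
    exact h1
  obtain ⟨τ', hτ', hτ'e, hτ'f⟩ := Qe_trans hq B hkk hfk hk'1 hf'f' hf'e
  have hg₃ : τ'⁻¹ * (τ * t₁ * g) ∈ Cfsg.GU n F q ⊓ Cfsg.Geo.specialLinear (Fin n) F :=
    Subgroup.mul_mem _ (Subgroup.inv_mem _ (hTle hτ')) hg₂
  have hg₃e : ((τ'⁻¹ * (τ * t₁ * g) : GG) : MM) *ᵥ e = e := by
    rw [Units.val_mul, ← Matrix.mulVec_mulVec, hg₂e]
    have h1 := Parab.inv_mulVec_mulVec τ' e
    rw [hτ'e] at h1
    exact h1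
  have hg₃f : ((τ'⁻¹ * (τ * t₁ * g) : GG) : MM) *ᵥ f = f := by
    rw [Units.val_mul, ← Matrix.mulVec_mulVec, ← hτ'f]
    exact Parab.inv_mulVec_mulVec τ' f
  have h1 := eq_one_of_fix3 hq hn B hg₃ hg₃e hg₃f
  have hmem : τ'⁻¹ * τ * t₁ ∈ TT hq n :=
    (TT hq n).mul_mem ((TT hq n).mul_mem ((TT hq n).inv_mem hτ') hτ) ht₁
  have hfinal : (τ'⁻¹ * τ * t₁) * g = 1 := by
    rw [← h1]
    group
  rw [eq_inv_of_mul_eq_one_right hfinal]
  exact (TT hq n).inv_mem hmem

/-- An element of the fixed field of `x ↦ x ^ q` other than `0` and `1`, for `q > 2`. -/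
theorem exists_fixed_ne [Fintype F] (hF : Fintype.card F = q ^ 2) (hq : QF F q) (hq2 : q ≠ 2) :
    ∃ k : F, frob hq k = k ∧ k ≠ 0 ∧ k ≠ 1 := by
  classical
  obtain ⟨g, hg⟩ := IsCyclic.exists_generator (α := Fˣ)
  have hord : orderOf g = q ^ 2 - 1 := by
    rw [orderOf_eq_card_of_forall_mem_zpowers hg, Nat.card_eq_fintype_card, Fintype.card_units,
      hF]
  have hq0 := hq.q0
  have hq1 : q ≠ 1 := by
    rintro rfl
    obtain ⟨η, hη⟩ := hq.ex
    exact hη (pow_one η)
  refine ⟨((g ^ (q + 1) : Fˣ) : F), ?_, Units.ne_zero _, ?_⟩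
  · rw [frob_apply, Units.val_pow_eq_pow_val, ← pow_mul]
    have e1 : (q + 1) * q = q ^ 2 + q := by ring
    rw [e1, pow_add, ← hF, FiniteField.pow_card, pow_succ']
  · intro h1
    have h2 : g ^ (q + 1) = 1 := Units.ext h1
    have h3 := orderOf_dvd_of_pow_eq_one h2
    rw [hord] at h3
    have h4 := Nat.le_of_dvd (by omega) h3
    have h5 : 3 ≤ q := by omega
    have h6 : 3 * q ≤ q ^ 2 := by nlinarith
    omega

/-- **Generation**: for `n ≥ 3`, `(n, q) ≠ (3, 2)`, the special unitary group is generated by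
the unitary transvections. -/
theorem su_le_tt_all [Fintype F] (hF : Fintype.card F = q ^ 2) (hq : QF F q) (hn : 3 ≤ n)
    (h32 : ¬ (n = 3 ∧ q = 2)) :
    Cfsg.GU n F q ⊓ Cfsg.Geo.specialLinear (Fin n) F ≤ TT hq n := by
  haveI : Finite F := Finite.of_fintype F
  by_cases h3 : n = 3
  · exact su_le_tt3 hq h3 (exists_fixed_ne hF hq (fun h => h32 ⟨h3, h⟩))
  · exact su_le_tt hq (by omega)

end Cfsg.Agent.Helper8.SUNd
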