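import Mathlib
import Cfsg.Prelude.Def_GeometricClasses
import Cfsg.Agent.S0781
import Cfsg.Agent.Helper8.SUGen3

/-!
# Normal subgroups of `SU_n(q)`

A normal subgroup of `SU_n(q)` (`n ≥ 3`, `(n, q) ≠ (3, 2)`) which moves some isotropic point
is the whole group; an element fixing every isotropic point is central.
-/

set_option autoImplicit false

namespace Cfsg.Agent.Helper8.SUNd

open Matrix Cfsg.Agent.Helper2 Cfsg.Agent.Helper8.SULag

variable {F : Type*} [Field F] {n q : ℕ}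

local notation "VV" => (Fin n → F)
local notation "MM" => Matrix (Fin n) (Fin n) F
local notation "GG" => Matrix.GeneralLinearGroup (Fin n) F
local notation "hh" => Cfsg.hermForm n F q

theorem QF.two_le (hq : QF F q) : 2 ≤ q := by
  have hq0 := hq.q0
  have hq1 : q ≠ 1 := by
    rintro rfl
    obtain ⟨η, hη⟩ := hq.ex
    exact hη (pow_one η)
  omega

/-- The transvections of `SU`. -/
def TS (hq : QF F q) (n : ℕ) : Set ↥(Cfsg.SU n F q) :=
  {A | ∃ (a : Fin n → F) (c : F), Cfsg.hermForm n F q a a = 0 ∧ frob hq c = -c ∧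
    suGL n F q A = tvU n q a c}

theorem closure_TS [Fintype F] (hF : Fintype.card F = q ^ 2) (hq : QF F q) (hn : 3 ≤ n)
    (h32 : ¬ (n = 3 ∧ q = 2)) : Subgroup.closure (TS hq n) = ⊤ := by
  apply closure_top_of hq (su_le_tt_all hF hq hn h32)
  intro a c ha hc
  obtain ⟨A, hA⟩ := exists_su (tvU n q a c)
    (Subgroup.mem_inf.2 ⟨tvU_mem_gu hq a c hc, tvU_mem_sl a c⟩)
  exact ⟨A, Subgroup.subset_closure ⟨a, c, ha, hc, hA⟩, hA⟩

/-! ## The orbit relation of a normal subgroup -/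

/-- `x` is mapped to a non-zero multiple of `y` by an element of `N`. -/
def Rel (N : Subgroup ↥(Cfsg.SU n F q)) (x y : Fin n → F) : Prop :=
  ∃ M ∈ N, ∃ μ : F, μ ≠ 0 ∧
    ((suGL n F q M : Matrix.GeneralLinearGroup (Fin n) F) : Matrix (Fin n) (Fin n) F) *ᵥ x =
      μ • y

theorem Rel.symm {N : Subgroup ↥(Cfsg.SU n F q)} {x y : VV} (h : Rel N x y) : Rel N y x := by
  obtain ⟨M, hM, μ, hμ, h1⟩ := h
  refine ⟨M⁻¹, N.inv_mem hM, μ⁻¹, inv_ne_zero hμ, ?_⟩
  rw [map_inv]
  have h2 := Parab.inv_mulVec_mulVec (suGL n F q M) x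
  rw [h1, Matrix.mulVec_smul] at h2
  rw [← h2, smul_smul, inv_mul_cancel₀ hμ, one_smul]

theorem Rel.trans {N : Subgroup ↥(Cfsg.SU n F q)} {x y z : VV} (h1 : Rel N x y)
    (h2 : Rel N y z) : Rel N x z := by
  obtain ⟨M, hM, μ, hμ, e1⟩ := h1
  obtain ⟨M', hM', μ', hμ', e2⟩ := h2
  refine ⟨M' * M, N.mul_mem hM' hM, μ * μ', mul_ne_zero hμ hμ', ?_⟩
  rw [map_mul, Units.val_mul, ← Matrix.mulVec_mulVec, e1, Matrix.mulVec_smul, e2, smul_smul]

theorem Rel.smul_right {N : Subgroup ↥(Cfsg.SU n F q)} {x y : VV} (h : Rel N x y) {c : F}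
    (hc : c ≠ 0) : Rel N x (c • y) := by
  obtain ⟨M, hM, μ, hμ, e1⟩ := h
  refine ⟨M, hM, μ * c⁻¹, mul_ne_zero hμ (inv_ne_zero hc), ?_⟩
  rw [e1, smul_smul, mul_assoc, inv_mul_cancel₀ hc, mul_one]

theorem Rel.of_smul_right {N : Subgroup ↥(Cfsg.SU n F q)} {x y : VV} {c : F}
    (h : Rel N x (c • y)) (hc : c ≠ 0) : Rel N x y := by
  have h1 := h.smul_right (inv_ne_zero hc)
  rw [smul_smul, inv_mul_cancel₀ hc, one_smul] at h1
  exact h1

theorem Rel.map {N : Subgroup ↥(Cfsg.SU n F q)} [hN : N.Normal] {x y : VV} (h : Rel N x y)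
    {g : GG} (hg : g ∈ Cfsg.GU n F q ⊓ Cfsg.Geo.specialLinear (Fin n) F) :
    Rel N ((g : MM) *ᵥ x) ((g : MM) *ᵥ y) := by
  obtain ⟨M, hM, μ, hμ, e1⟩ := h
  obtain ⟨A, hA⟩ := exists_su g hg
  refine ⟨A * M * A⁻¹, hN.conj_mem M hM A, μ, hμ, ?_⟩
  rw [map_mul, map_mul, map_inv, hA, Units.val_mul, Units.val_mul, ← Matrix.mulVec_mulVec,
    ← Matrix.mulVec_mulVec, Parab.inv_mulVec_mulVec, e1, Matrix.mulVec_smul]

theorem Rel.k1 (hq : QF F q) {N : Subgroup ↥(Cfsg.SU n F q)} [N.Normal] {x y z : VV}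
    (h : Rel N x y) (hxx : hh x x = 0) (hyy : hh y y = 0) (hzz : hh z z = 0)
    (hyx : hh y x ≠ 0) (hzx : hh z x ≠ 0) : Rel N x z := by
  have hy' : hh ((hh y x)⁻¹ • y) x = 1 := by rw [h_smul_left, inv_mul_cancel₀ hyx]
  have hz' : hh ((hh z x)⁻¹ • z) x = 1 := by rw [h_smul_left, inv_mul_cancel₀ hzx]
  have hy'y' : hh ((hh y x)⁻¹ • y) ((hh y x)⁻¹ • y) = 0 := by
    rw [h_smul_left, h_smul_right hq, hyy, mul_zero, mul_zero]
  have hz'z' : hh ((hh z x)⁻¹ • z) ((hh z x)⁻¹ • z) = 0 := by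
    rw [h_smul_left, h_smul_right hq, hzz, mul_zero, mul_zero]
  obtain ⟨E, hE, hEx, hEy⟩ := EU_move hq hxx hy' hz' hy'y' hz'z'
  have h1 := (h.smul_right (inv_ne_zero hyx)).map hE
  rw [hEx, hEy] at h1
  exact h1.of_smul_right (inv_ne_zero hzx)

theorem Rel.k2 (hq : QF F q) {N : Subgroup ↥(Cfsg.SU n F q)} [N.Normal] {x y z : VV}
    (h : Rel N x y) (hxx : hh x x = 0) (hyy : hh y y = 0) (hzz : hh z z = 0)
    (hyx : hh y x ≠ 0) (hx0 : x ≠ 0) (hz0 : z ≠ 0) : Rel N x z := by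
  by_cases hzx : hh z x = 0
  · obtain ⟨v, hvv, -, hxv, hzv⟩ := exists_iso_two hq ⊥ x z
      (fun h => hx0 ((Submodule.mem_bot F).1 h)) (fun h => hz0 ((Submodule.mem_bot F).1 h))
      (fun u hu => by rw [(Submodule.mem_bot F).1 hu]; exact h_zero_left _)
      (fun u hu => by rw [(Submodule.mem_bot F).1 hu]; exact h_zero_left _) hxx hzz
    have hvx : hh v x ≠ 0 := fun h0 => hxv (h_symm0 hq h0)
    have h1 : Rel N x v := h.k1 hq hxx hyy hvv hyx hvx
    exact h1.trans (h1.symm.k1 hq hvv hxx hzz hxv hzv)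
  · exact h.k1 hq hxx hyy hzz hyx hzx

/-- A normal subgroup moving an isotropic point is transitive on isotropic points. -/
theorem rel_all (hq : QF F q) {N : Subgroup ↥(Cfsg.SU n F q)} [N.Normal]
    {M₀ : ↥(Cfsg.SU n F q)} (hM₀ : M₀ ∈ N) {u : VV} (huu : hh u u = 0)
    (hnot : ∀ c : F, ((suGL n F q M₀ : GG) : MM) *ᵥ u ≠ c • u) :
    ∀ z : VV, hh z z = 0 → z ≠ 0 → Rel N u z := by
  obtain ⟨u', hu'⟩ : ∃ u' : VV, u' = ((suGL n F q M₀ : GG) : MM) *ᵥ u := ⟨_, rfl⟩
  rw [← hu'] at hnot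
  have hgu := (Subgroup.mem_inf.1 (suGL_mem M₀)).1
  have hu0 : u ≠ 0 := by
    rintro rfl
    apply hnot 0
    rw [hu', Matrix.mulVec_zero, smul_zero]
  have hu'u' : hh u' u' = 0 := by
    rw [hu', h_map hgu]
    exact huu
  have hu'0 : u' ≠ 0 := fun h => hnot 0 (by rw [h, zero_smul])
  have h0 : Rel N u u' := ⟨M₀, hM₀, 1, one_ne_zero, by rw [one_smul, hu']⟩
  intro z hzz hz0
  by_cases hb : hh u' u = 0
  · have hnotin : u' ∉ Submodule.span F {u} := by
      intro h
      obtain ⟨c, hc⟩ := Submodule.mem_span_singleton.1 h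
      exact hnot c hc.symm
    obtain ⟨v, hvv, hUv, hu'v⟩ := exists_iso_sep hq (Submodule.span F {u}) u' hnotin
      (fun x hx => by
        obtain ⟨c, rfl⟩ := Submodule.mem_span_singleton.1 hx
        rw [h_smul_left, h_symm0 hq hb, mul_zero]) hu'u'
    have huv : hh u v = 0 := hUv u (Submodule.mem_span_singleton_self u)
    have hvu' : hh v u' = 1 := by rw [← h_conj hq u' v, hu'v, map_one]
    have ht : tvU n q v (skew0 hq) ∈ Cfsg.GU n F q ⊓ Cfsg.Geo.specialLinear (Fin n) F :=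
      Subgroup.mem_inf.2 ⟨tvU_mem_gu hq v _ (skew0_frob hq), tvU_mem_sl v _⟩
    have h1 := h0.map ht
    rw [tvU_mulVec _ hvv, huv, mul_zero, zero_smul, add_zero, tvU_mulVec _ hvv, hu'v, mul_one]
      at h1
    have h2 : Rel N u' (u' + skew0 hq • v) := h0.symm.trans h1
    have hiso : hh (u' + skew0 hq • v) (u' + skew0 hq • v) = 0 := by
      simp only [h_add_left, h_add_right hq, h_smul_left, h_smul_right hq, hu'u', hvv, hu'v,
        hvu', skew0_frob hq, mul_zero, mul_one, add_zero, zero_add]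
      ring
    have hne : hh (u' + skew0 hq • v) u' ≠ 0 := by
      rw [h_add_left, h_smul_left, hu'u', hvu', zero_add, mul_one]
      exact skew0_ne hq
    exact h0.trans (h2.k2 hq hu'u' hiso hzz hne hu'0 hz0)
  · exact h0.k2 hq huu hu'u' hzz hb hu0 hz0

/-! ## The root subgroup -/

theorem tvU_add (e : VV) (he : hh e e = 0) (c d : F) :
    tvU n q e c * tvU n q e d = tvU n q e (c + d) := by
  apply gl_ext
  intro x
  rw [Units.val_mul, ← Matrix.mulVec_mulVec, tvU_mulVec _ he, tvU_mulVec _ he, tvU_mulVec _ he,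
    h_add_left, h_smul_left, he, mul_zero, add_zero]
  module

theorem tvU_zero (e : VV) (he : hh e e = 0) : tvU n q e 0 = 1 := by
  apply gl_ext
  intro x
  rw [tvU_mulVec _ he, zero_mul, zero_smul, add_zero, Units.val_one, Matrix.one_mulVec]

/-- The root subgroup of transvections with centre `e`. -/
def Xsub (hq : QF F q) (e : Fin n → F) (he : Cfsg.hermForm n F q e e = 0) :
    Subgroup ↥(Cfsg.SU n F q) where
  carrier := {A | ∃ c : F, frob hq c = -c ∧ suGL n F q A = tvU n q e c}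
  mul_mem' := by
    rintro A B ⟨c, hc, hA⟩ ⟨d, hd, hB⟩
    refine ⟨c + d, by rw [map_add, hc, hd]; ring, ?_⟩
    rw [map_mul, hA, hB, tvU_add e he]
  one_mem' := ⟨0, by rw [map_zero, neg_zero], by rw [map_one, tvU_zero e he]⟩
  inv_mem' := by
    rintro A ⟨c, hc, hA⟩
    refine ⟨-c, by rw [map_neg, hc], ?_⟩
    rw [map_inv, hA]
    apply inv_eq_of_mul_eq_one_right
    rw [tvU_add e he, add_neg_cancel, tvU_zero e he]

theorem Xsub_comm (hq : QF F q) (e : VV) (he : hh e e = 0) :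
    IsMulCommutative (Xsub hq e he) := by
  refine ⟨⟨?_⟩⟩
  rintro ⟨A, c, hc, hA⟩ ⟨B, d, hd, hB⟩
  apply Subtype.ext
  apply suGL_inj
  show suGL n F q (A * B) = suGL n F q (B * A)
  rw [map_mul, map_mul, hA, hB, tvU_add e he, tvU_add e he, add_comm]

/-- A normal subgroup of `SU_n(q)` moving an isotropic point is the whole group. -/
theorem normal_eq_top [Fintype F] (hF : Fintype.card F = q ^ 2) (hn : 3 ≤ n)
    (h32 : ¬ (n = 3 ∧ q = 2)) (N : Subgroup ↥(Cfsg.SU n F q)) [N.Normal]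
    {M₀ : ↥(Cfsg.SU n F q)} (hM₀ : M₀ ∈ N) {u : VV} (huu : hh u u = 0)
    (hnot : ∀ c : F, ((suGL n F q M₀ : GG) : MM) *ᵥ u ≠ c • u) : N = ⊤ := by
  have hq := qf_of_card hF
  have hrel := rel_all hq hM₀ huu hnot
  have hsup : N ⊔ Xsub hq u huu = ⊤ := by
    rw [eq_top_iff, ← closure_TS hF hq hn h32]
    apply (Subgroup.closure_le _).2
    rintro A ⟨w, c, hw, hc, hA⟩
    by_cases hw0 : w = 0
    · have hA1 : A = 1 := by
        apply suGL_inj
        rw [hA, map_one, hw0]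
        apply gl_ext
        intro x
        rw [tvU_mulVec _ (h_zero_left 0), smul_zero, add_zero, Units.val_one, Matrix.one_mulVec]
      rw [hA1]
      exact Subgroup.one_mem _
    · obtain ⟨M, hM, μ, hμ, e1⟩ := hrel w hw hw0
      have e2 : w = μ⁻¹ • (((suGL n F q M : GG) : MM) *ᵥ u) := by
        rw [e1, smul_smul, inv_mul_cancel₀ hμ, one_smul]
      have hMu := (Subgroup.mem_inf.1 (suGL_mem M)).1
      have hiso : hh (((suGL n F q M : GG) : MM) *ᵥ u) (((suGL n F q M : GG) : MM) *ᵥ u) = 0 := by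
        rw [h_map hMu]
        exact huu
      have e3 : tvU n q w c =
          suGL n F q M * tvU n q u (c * μ⁻¹ * frob hq μ⁻¹) * (suGL n F q M)⁻¹ := by
        rw [e2, tvU_smul hq _ _ hiso, tvU_conj _ hMu]
      have hc' : frob hq (c * μ⁻¹ * frob hq μ⁻¹) = -(c * μ⁻¹ * frob hq μ⁻¹) := by
        rw [map_mul, map_mul, frob_frob, hc]
        ring
      obtain ⟨B, hB⟩ := exists_su (tvU n q u (c * μ⁻¹ * frob hq μ⁻¹))
        (Subgroup.mem_inf.2 ⟨tvU_mem_gu hq u _ hc', tvU_mem_sl u _⟩)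
      have hBX : B ∈ Xsub hq u huu := ⟨_, hc', hB⟩
      have hAeq : A = M * B * M⁻¹ := by
        apply suGL_inj
        rw [hA, e3, map_mul, map_mul, map_inv, hB]
      rw [hAeq]
      exact Subgroup.mul_mem _ (Subgroup.mul_mem _ (Subgroup.mem_sup_left hM)
        (Subgroup.mem_sup_right hBX)) (Subgroup.inv_mem _ (Subgroup.mem_sup_left hM))
  have hcomm : commutator ↥(Cfsg.SU n F q) ≤ N :=
    Subgroup.Normal.commutator_le_of_self_sup_commutative_eq_top hsup (Xsub_comm hq u huu)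
  have hn' : 4 ≤ n ∨ (n = 3 ∧ 3 ≤ q) := by
    have h2 := QF.two_le hq
    by_cases h3 : n = 3
    · right
      refine ⟨h3, ?_⟩
      have h4 : q ≠ 2 := fun h => h32 ⟨h3, h⟩
      omega
    · left
      omega
  have hperf : commutator ↥(Cfsg.SU n F q) = ⊤ := by
    rw [eq_top_iff, ← closure_TS hF hq hn h32]
    apply (Subgroup.closure_le _).2
    rintro A ⟨w, c, hw, hc, hA⟩
    have hAm : ((A : Matrix.SpecialLinearGroup (Fin n) F) : MM) =
        Cfsg.unitaryTransvection n q w c := by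
      rw [← suGL_val, hA, tvU_val w hw]
    have h5 := Cfsg.Agent.S0781.result hF n hn' A w c hw hAm
    rw [commutator_eq_closure]
    exact Subgroup.subset_closure h5
  rw [eq_top_iff, ← hperf]
  exact hcomm

/-! ## Elements fixing all isotropic points -/

theorem central_of_iso_scalar [Finite F] (hq : QF F q) (hn : 2 ≤ n) (g : ↥(Cfsg.SU n F q))
    (h : ∀ u : VV, hh u u = 0 → ∃ c : F, ((suGL n F q g : GG) : MM) *ᵥ u = c • u) :
    g ∈ Subgroup.center ↥(Cfsg.SU n F q) := by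
  obtain ⟨e, f, B⟩ := exists_hyp2 hq hn
  obtain ⟨l, hl⟩ := h e B.ee
  have hs0 := skew0_ne hq
  have step : ∀ u v : VV, hh u u = 0 → hh v v = 0 → hh u v ≠ 0 → ∀ a b : F,
      ((suGL n F q g : GG) : MM) *ᵥ u = a • u → ((suGL n F q g : GG) : MM) *ᵥ v = b • v →
      a = b := by
    intro u v huu hvv huv a b hu hv
    have hvu : hh v u ≠ 0 := fun h0 => huv (h_symm0 hq h0)
    obtain ⟨c, hc⟩ : ∃ c : F, c = skew0 hq / hh v u := ⟨_, rfl⟩
    have hc0 : c ≠ 0 := by
      rw [hc]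
      exact div_ne_zero hs0 hvu
    have hcv : c * hh v u = skew0 hq := by rw [hc, div_mul_cancel₀ _ hvu]
    have hcu : frob hq c * hh u v = -(skew0 hq) := by
      rw [← h_conj hq v u, ← map_mul, hcv, skew0_frob]
    have hww : hh (u + c • v) (u + c • v) = 0 := by
      simp only [h_add_left, h_add_right hq, h_smul_left, h_smul_right hq, huu, hvv, mul_zero,
        add_zero, zero_add]
      linear_combination hcu + hcv
    obtain ⟨d, hd⟩ := h _ hww
    rw [Matrix.mulVec_add, Matrix.mulVec_smul, hu, hv] at hd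
    have h1 := congrArg (fun x => hh x v) hd
    have h2 := congrArg (fun x => hh x u) hd
    simp only [h_add_left, h_smul_left, huu, hvv, mul_zero, add_zero, zero_add] at h1 h2
    have e1 : a = d := mul_right_cancel₀ huv h1
    have e2 : b = d := by
      have h3 : (c * hh v u) * b = (c * hh v u) * d := by linear_combination h2
      exact mul_left_cancel₀ (mul_ne_zero hc0 hvu) h3
    rw [e1, e2]
  have all : ∀ u : VV, hh u u = 0 → ((suGL n F q g : GG) : MM) *ᵥ u = l • u := by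
    intro u huu
    by_cases hu0 : u = 0
    · rw [hu0, Matrix.mulVec_zero, smul_zero]
    obtain ⟨a, ha⟩ := h u huu
    have he0 : e ≠ 0 := by
      rintro rfl
      have h1 := B.ef
      rw [h_zero_left] at h1
      exact zero_ne_one h1
    by_cases hue : hh u e = 0
    · obtain ⟨v, hvv, -, huv, hev⟩ := exists_iso_two hq ⊥ u e
        (fun h => hu0 ((Submodule.mem_bot F).1 h)) (fun h => he0 ((Submodule.mem_bot F).1 h))
        (fun x hx => by rw [(Submodule.mem_bot F).1 hx]; exact h_zero_left _)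
        (fun x hx => by rw [(Submodule.mem_bot F).1 hx]; exact h_zero_left _) huu B.ee
      obtain ⟨b, hb⟩ := h v hvv
      have e1 : a = b := step u v huu hvv huv a b ha hb
      have e2 : l = b := step e v B.ee hvv hev l b hl hb
      rw [ha, e1, ← e2]
    · have e1 : a = l := step u e huu B.ee hue a l ha hl
      rw [ha, e1]
  have allv : ∀ v : VV, ((suGL n F q g : GG) : MM) *ᵥ v = l • v := by
    intro v
    obtain ⟨α, β, p, hp, rfl⟩ := decomp2 hq B v
    obtain ⟨hpe, hpf⟩ := (mem_perp_H2 hq e f p).1 hp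
    have hep := h_symm0 hq hpe
    have hfp := h_symm0 hq hpf
    obtain ⟨x, hx⟩ := exists_tr hq (-(hh p p)) (by rw [map_neg, h_conj hq])
    have hiso : hh (p + x • e + f) (p + x • e + f) = 0 := by
      simp only [h_add_left, h_add_right hq, h_smul_left, h_smul_right hq, B.ee, B.ff, B.ef, B.fe,
        hpe, hpf, hep, hfp, mul_zero, mul_one, add_zero, zero_add]
      linear_combination hx
    have e1 := all _ hiso
    have e2 := all e B.ee
    have e3 := all f B.ff
    have e4 : ((suGL n F q g : GG) : MM) *ᵥ p = l • p := by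
      have h5 : ((suGL n F q g : GG) : MM) *ᵥ (p + x • e + f) =
          ((suGL n F q g : GG) : MM) *ᵥ p + x • ((suGL n F q g : GG) : MM) *ᵥ e +
            ((suGL n F q g : GG) : MM) *ᵥ f := by
        rw [Matrix.mulVec_add, Matrix.mulVec_add, Matrix.mulVec_smul]
      rw [e1, e2, e3] at h5
      have h6 : ((suGL n F q g : GG) : MM) *ᵥ p = l • (p + x • e + f) - x • l • e - l • f := by
        rw [h5]
        abel
      rw [h6]
      module
    rw [Matrix.mulVec_add, Matrix.mulVec_add, Matrix.mulVec_smul, Matrix.mulVec_smul, e2, e3, e4]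
    module
  rw [Subgroup.mem_center_iff]
  intro x
  apply suGL_inj
  apply gl_ext
  intro v
  rw [map_mul, map_mul, Units.val_mul, Units.val_mul, ← Matrix.mulVec_mulVec,
    ← Matrix.mulVec_mulVec, allv, allv, Matrix.mulVec_smul]

theorem exists_not_central [Finite F] (hq : QF F q) (hn : 2 ≤ n) :
    ∃ g : ↥(Cfsg.SU n F q), g ∉ Subgroup.center ↥(Cfsg.SU n F q) := by
  obtain ⟨e, f, B⟩ := exists_hyp2 hq hn
  have hs0 := skew0_ne hq
  have hsf := skew0_frob hq
  obtain ⟨A, hA⟩ := exists_su (tvU n q e (skew0 hq))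
    (Subgroup.mem_inf.2 ⟨tvU_mem_gu hq e _ hsf, tvU_mem_sl e _⟩)
  obtain ⟨A', hA'⟩ := exists_su (tvU n q f (skew0 hq))
    (Subgroup.mem_inf.2 ⟨tvU_mem_gu hq f _ hsf, tvU_mem_sl f _⟩)
  refine ⟨A, fun hc => ?_⟩
  have h1 := Subgroup.mem_center_iff.1 hc A'
  have h2 := congrArg (fun x : ↥(Cfsg.SU n F q) => ((suGL n F q x : GG) : MM) *ᵥ e) h1
  simp only [map_mul, hA, hA', Units.val_mul, ← Matrix.mulVec_mulVec] at h2
  rw [tvU_mulVec _ B.ee, B.ee, mul_zero, zero_smul, add_zero, tvU_mulVec _ B.ff, B.ef, mul_one,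
    tvU_mulVec _ B.ee, h_add_left, h_smul_left, B.ee, B.fe, zero_add, mul_one] at h2
  have h3 : (skew0 hq * skew0 hq) • e = 0 := by
    have h4 : e + skew0 hq • f + (skew0 hq * skew0 hq) • e = e + skew0 hq • f + 0 := by
      rw [add_zero]
      exact h2.symm
    exact add_left_cancel h4
  rcases smul_eq_zero.1 h3 with h5 | h5
  · exact mul_ne_zero hs0 hs0 h5
  · have h6 := B.ef
    rw [h5, h_zero_left] at h6
    exact zero_ne_one h6

end Cfsg.Agent.Helper8.SUNd
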