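import Mathlib

/-!
# Heisenberg-type matrices over `ZMod 2` (helper8)

`Hm φ v = 1 + e₀ φᵀ + v e₁ᵀ` in degree `n + 2`, with its product formula, and index tools.
-/

set_option autoImplicit false

namespace Cfsg.Agent.Helper8.TV

open Matrix

variable {n : ℕ}

abbrev MM (n : ℕ) := Matrix (Fin (n + 2)) (Fin (n + 2)) (ZMod 2)

abbrev VV (n : ℕ) := Fin (n + 2) → ZMod 2

def e0 (n : ℕ) : VV n := Pi.single 0 1

def e1 (n : ℕ) : VV n := Pi.single 1 1

theorem cases3 (P : Fin (n + 2) → Prop) (h0 : P 0) (h1 : P 1)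
    (h2 : ∀ k : Fin n, P k.succ.succ) : ∀ i, P i := by
  intro i; exact Fin.cases h0 (fun i' => Fin.cases h1 h2 i') i

theorem sum3 (f : Fin (n + 2) → ZMod 2) :
    ∑ i, f i = f 0 + f 1 + ∑ k : Fin n, f k.succ.succ := by
  rw [Fin.sum_univ_succ, Fin.sum_univ_succ]
  exact (add_assoc _ _ _).symm

theorem ss_ne_zero (k : Fin n) : (k.succ.succ : Fin (n + 2)) ≠ 0 := Fin.succ_ne_zero _

theorem ss_ne_one (k : Fin n) : (k.succ.succ : Fin (n + 2)) ≠ 1 := by
  intro h; exact Fin.succ_ne_zero k (Fin.succ_injective _ h)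

theorem zero_ne_ss (k : Fin n) : (0 : Fin (n + 2)) ≠ k.succ.succ := fun h => ss_ne_zero k h.symm

theorem one_ne_ss (k : Fin n) : (1 : Fin (n + 2)) ≠ k.succ.succ := fun h => ss_ne_one k h.symm

theorem ss_inj {k l : Fin n} : (k.succ.succ : Fin (n + 2)) = l.succ.succ ↔ k = l := by
  constructor
  · intro h; exact Fin.succ_injective _ (Fin.succ_injective _ h)
  · intro h; rw [h]

theorem z2_cases (x : ZMod 2) : x = 0 ∨ x = 1 := by
  revert x; decide

theorem z2_ne_zero {x : ZMod 2} (h : x ≠ 0) : x = 1 := by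
  rcases z2_cases x with h' | h'
  · exact absurd h' h
  · exact h'

theorem z2_add_self (x : ZMod 2) : x + x = 0 := by
  revert x; decide

theorem vadd_self (v : VV n) : v + v = 0 := by
  funext i; exact z2_add_self _

theorem e0_zero : e0 n 0 = 1 := by simp [e0]

theorem e0_ne {i : Fin (n + 2)} (h : i ≠ 0) : e0 n i = 0 := by simp [e0, h]

theorem e1_one : e1 n 1 = 1 := by simp [e1]

theorem e1_ne {i : Fin (n + 2)} (h : i ≠ 1) : e1 n i = 0 := by simp [e1, h]

theorem e1_zero : e1 n 0 = 0 := e1_ne Fin.zero_ne_one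

theorem e0_one : e0 n 1 = 0 := e0_ne (Fin.zero_ne_one).symm

/-- The matrix `1 + e₀ φᵀ + v e₁ᵀ`. -/
def Hm (φ v : VV n) : MM n := 1 + vecMulVec (e0 n) φ + vecMulVec v (e1 n)

theorem Hm_apply (φ v : VV n) (i j : Fin (n + 2)) :
    Hm φ v i j = (if i = j then 1 else 0) + (if i = 0 then φ j else 0)
      + (if j = 1 then v i else 0) := by
  unfold Hm
  rw [Matrix.add_apply, Matrix.add_apply, Matrix.one_apply, vecMulVec_apply, vecMulVec_apply]
  congr 1
  · congr 1
    by_cases h : i = 0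
    · rw [if_pos h, h, e0_zero, one_mul]
    · rw [if_neg h, e0_ne h, zero_mul]
  · by_cases h : j = 1
    · rw [if_pos h, h, e1_one, mul_one]
    · rw [if_neg h, e1_ne h, mul_zero]

theorem Hm_zero : Hm (0 : VV n) 0 = 1 := by
  ext i j
  rw [Hm_apply, Matrix.one_apply]
  simp

theorem Hm_mul (φ v φ' v' : VV n) (h0 : φ 0 = 0) (h1 : v' 1 = 0) :
    Hm φ v * Hm φ' v' = Hm (φ + φ' + (φ ⬝ᵥ v') • e1 n) (v + v') := by
  have d1 : φ ⬝ᵥ e0 n = 0 := by rw [e0, dotProduct_single_one]; exact h0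
  have d2 : e1 n ⬝ᵥ e0 n = 0 := by rw [e0, dotProduct_single_one]; exact e1_zero
  have d3 : e1 n ⬝ᵥ v' = 0 := by rw [e1, single_one_dotProduct]; exact h1
  have z0 : ∀ (w : VV n), vecMulVec w (0 : VV n) = 0 := by
    intro w; ext i j; simp [vecMulVec_apply]
  unfold Hm
  simp only [mul_add, add_mul, mul_one, one_mul, vecMulVec_mul_vecMulVec, d1, d2, d3, zero_smul,
    vecMulVec_smul, vecMulVec_add, add_vecMulVec, z0]
  abel

theorem Hm_01 (φ v : VV n) : Hm φ v 0 1 = φ 1 + v 0 := by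
  rw [Hm_apply]; simp

theorem Hm_0ss (φ v : VV n) (k : Fin n) : Hm φ v 0 k.succ.succ = φ k.succ.succ := by
  rw [Hm_apply, if_neg (zero_ne_ss k), if_pos rfl, if_neg (ss_ne_one k)]; simp

theorem Hm_ss1 (φ v : VV n) (k : Fin n) : Hm φ v k.succ.succ 1 = v k.succ.succ := by
  rw [Hm_apply, if_neg (ss_ne_one k), if_neg (ss_ne_zero k), if_pos rfl]; simp

theorem Hm_ssss (φ v : VV n) (k l : Fin n) :
    Hm φ v k.succ.succ l.succ.succ = if k = l then 1 else 0 := by
  rw [Hm_apply, if_neg (ss_ne_zero k), if_neg (ss_ne_one l)]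
  by_cases h : k = l
  · rw [if_pos h, if_pos (by rw [h])]; simp
  · rw [if_neg h, if_neg (fun h' => h (ss_inj.mp h'))]; simp

/-- the transvection is `Hm e₁ 0`. -/
theorem transv_eq : Matrix.transvection (0 : Fin (n + 2)) 1 (1 : ZMod 2) = Hm (e1 n) 0 := by
  ext i j
  rw [Hm_apply, Matrix.transvection, Matrix.add_apply, Matrix.one_apply, Matrix.single_apply]
  by_cases hi : i = 0
  · by_cases hj : j = 1
    · subst hi; subst hj
      simp [e1_one]
    · subst hi
      simp [hj, e1_ne hj, Ne.symm hj]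
  · simp [hi, Ne.symm hi]

/-- parameters are read off from the entries. -/
theorem Hm_inj {φ v φ' v' : VV n} (hφ : φ 0 = 0) (hv0 : v 0 = 0) (hv1 : v 1 = 0)
    (hφ' : φ' 0 = 0) (hv0' : v' 0 = 0) (hv1' : v' 1 = 0) (h : Hm φ v = Hm φ' v') :
    φ = φ' ∧ v = v' := by
  constructor
  · funext j
    revert j
    apply cases3
    · rw [hφ, hφ']
    · have := congrFun (congrFun h 0) 1
      rw [Hm_01, Hm_01, hv0, hv0', add_zero, add_zero] at this
      exact this
    · intro k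
      have := congrFun (congrFun h 0) k.succ.succ
      rw [Hm_0ss, Hm_0ss] at this
      exact this
  · funext i
    revert i
    apply cases3
    · rw [hv0, hv0']
    · rw [hv1, hv1']
    · intro k
      have := congrFun (congrFun h k.succ.succ) 1
      rw [Hm_ss1, Hm_ss1] at this
      exact this

/-- determinant of an admissible `Hm`. -/
theorem Hm_det (φ v : VV n) (h0 : φ 0 = 0) (h1 : v 1 = 0) : (Hm φ v).det = 1 := by
  have hprod : Hm φ v * Hm (φ + (φ ⬝ᵥ v) • e1 n) v = 1 := by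
    rw [Hm_mul φ v _ v h0 h1, vadd_self]
    have : φ + (φ + (φ ⬝ᵥ v) • e1 n) + (φ ⬝ᵥ v) • e1 n = 0 := by
      have e : φ + (φ + (φ ⬝ᵥ v) • e1 n) + (φ ⬝ᵥ v) • e1 n
          = (φ + φ) + ((φ ⬝ᵥ v) • e1 n + (φ ⬝ᵥ v) • e1 n) := by abel
      rw [e, vadd_self, vadd_self, add_zero]
    rw [this, Hm_zero]
  have hd := congrArg Matrix.det hprod
  rw [Matrix.det_mul, Matrix.det_one] at hd
  apply z2_ne_zero
  intro h
  rw [h, zero_mul] at hd
  exact zero_ne_one hd

end Cfsg.Agent.Helper8.TV
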