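import Mathlib
import Cfsg.Agent.Helper8.TV1

/-!
# `O₂(SL_n(2)) = 1` for `n ≥ 2` (helper8)
-/

set_option autoImplicit false

namespace Cfsg.Agent.Helper8.TV

open Matrix

theorem transv_mulVec {n : ℕ} (j i : Fin n) (u : Fin n → ZMod 2) :
    Matrix.transvection j i (1 : ZMod 2) *ᵥ u = u + Pi.single j (u i) := by
  rw [Matrix.transvection, Matrix.add_mulVec, Matrix.one_mulVec, Matrix.single_mulVec, one_mul]
  rfl

theorem O2_trivial (n : ℕ) (hn : 2 ≤ n)
    (N : Subgroup (Matrix.SpecialLinearGroup (Fin n) (ZMod 2)))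
    (hN : N.Normal) (hp : IsPGroup 2 N) : N = ⊥ := by
  classical
  letI act : MulAction N (Fin n → ZMod 2) :=
    { smul := fun h v => (h.1.1 : Matrix (Fin n) (Fin n) (ZMod 2)) *ᵥ v
      one_smul := fun v => Matrix.one_mulVec v
      mul_smul := fun a b v => (Matrix.mulVec_mulVec v a.1.1 b.1.1).symm }
  have hsm : ∀ (h : N) (v : Fin n → ZMod 2), h • v = h.1.1 *ᵥ v := fun _ _ => rfl
  haveI : Fact (Nat.Prime 2) := ⟨Nat.prime_two⟩
  have hcard : 2 ∣ Nat.card (Fin n → ZMod 2) := by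
    have : Nat.card (Fin n → ZMod 2) = 2 ^ n := by simp
    rw [this]; exact dvd_pow_self 2 (by omega)
  have h0 : (0 : Fin n → ZMod 2) ∈ MulAction.fixedPoints N (Fin n → ZMod 2) := by
    intro h; rw [hsm]; exact Matrix.mulVec_zero _
  obtain ⟨v, hv, hv0⟩ :=
    hp.exists_fixed_point_of_prime_dvd_card_of_fixed_point (Fin n → ZMod 2) hcard h0
  have hvv : ∀ u : Fin n → ZMod 2, u + u = 0 := fun u => funext fun i => z2_add_self _
  let F : Set (Fin n → ZMod 2) := {u | ∀ h ∈ N, h.1 *ᵥ u = u}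
  have hvF : v ∈ F := fun h hh => hv ⟨h, hh⟩
  have hadd : ∀ u w, u ∈ F → w ∈ F → u + w ∈ F := by
    intro u w hu hw h hh
    rw [Matrix.mulVec_add, hu h hh, hw h hh]
  have hSL : ∀ (s : Matrix.SpecialLinearGroup (Fin n) (ZMod 2)) u, u ∈ F → s.1 *ᵥ u ∈ F := by
    intro s u hu h hh
    have hc : s⁻¹ * h * s ∈ N := by
      have := hN.conj_mem h hh s⁻¹
      rwa [inv_inv] at this
    have e2 : h.1 * s.1 = s.1 * (s⁻¹ * h * s).1 := by
      have : h * s = s * (s⁻¹ * h * s) := by group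
      exact congrArg Subtype.val this
    rw [Matrix.mulVec_mulVec, e2, ← Matrix.mulVec_mulVec, hu _ hc]
  obtain ⟨i, hi⟩ := Function.ne_iff.mp hv0
  have hvi : v i = 1 := z2_ne_zero (fun h => hi (by rw [h]; rfl))
  have hT : ∀ (j i' : Fin n), j ≠ i' → ∀ u, u ∈ F → u + Pi.single j (u i') ∈ F := by
    intro j i' hji u hu
    have := hSL ⟨Matrix.transvection j i' 1, Matrix.det_transvection_of_ne j i' hji 1⟩ u hu
    rw [transv_mulVec] at this
    exact this
  have hej : ∀ j : Fin n, j ≠ i → (Pi.single j 1 : Fin n → ZMod 2) ∈ F := by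
    intro j hj
    have h1 := hT j i hj v hvF
    rw [hvi] at h1
    have h2 := hadd _ _ h1 hvF
    have e : v + Pi.single j 1 + v = Pi.single j 1 := by
      rw [add_comm v, add_assoc, hvv, add_zero]
    rw [e] at h2
    exact h2
  obtain ⟨j0, hj0⟩ : ∃ j0 : Fin n, j0 ≠ i := by
    by_cases h : i.val = 0
    · exact ⟨⟨1, by omega⟩, fun e => by rw [← e] at h; simp at h⟩
    · exact ⟨⟨0, by omega⟩, fun e => h (by rw [← e])⟩
  have hei : (Pi.single i 1 : Fin n → ZMod 2) ∈ F := by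
    have h1 := hT i j0 (Ne.symm hj0) _ (hej j0 hj0)
    rw [Pi.single_eq_same] at h1
    have h2 := hadd _ _ h1 (hej j0 hj0)
    have e : (Pi.single j0 1 : Fin n → ZMod 2) + Pi.single i 1 + Pi.single j0 1
        = Pi.single i 1 := by
      rw [add_comm (Pi.single j0 1 : Fin n → ZMod 2), add_assoc, hvv, add_zero]
    rw [e] at h2
    exact h2
  have hall : ∀ m : Fin n, (Pi.single m 1 : Fin n → ZMod 2) ∈ F := by
    intro m
    by_cases hm : m = i
    · rw [hm]; exact hei
    · exact hej m hm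
  rw [Subgroup.eq_bot_iff_forall]
  intro h hh
  apply Subtype.ext
  ext a b
  have := congrFun (hall b h hh) a
  rw [Matrix.mulVec_single_one] at this
  rw [Matrix.SpecialLinearGroup.coe_one, Matrix.one_apply]
  have e : h.1 a b = (Pi.single b 1 : Fin n → ZMod 2) a := this
  rw [e, Pi.single_apply]

end Cfsg.Agent.Helper8.TV
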