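import Mathlib
import Cfsg.Agent.Helper8.TV1

/-!
# The centralizer of a transvection in `SL (n+2) 2`: projection and section (helper8)
-/

set_option autoImplicit false

namespace Cfsg.Agent.Helper8.TV

open Matrix

variable {n : ℕ}

abbrev GG (n : ℕ) := Matrix.SpecialLinearGroup (Fin (n + 2)) (ZMod 2)

abbrev SS (n : ℕ) := Matrix.SpecialLinearGroup (Fin n) (ZMod 2)

/-- SL element from admissible parameters. -/
def HmSL (φ v : VV n) (h0 : φ 0 = 0) (h1 : v 1 = 0) : GG n := ⟨Hm φ v, Hm_det φ v h0 h1⟩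

def zz (n : ℕ) : GG n := HmSL (e1 n) 0 e1_zero rfl

theorem zz_coe : ((zz n).1 : MM n) = Matrix.transvection 0 1 1 := transv_eq.symm

abbrev CC (n : ℕ) : Subgroup (GG n) := Subgroup.centralizer ({zz n} : Set (GG n))

theorem comm_key (M : MM n) :
    M * Hm (e1 n) 0 = Hm (e1 n) 0 * M ↔ ∀ i j, M i 0 * e1 n j = e0 n i * M 1 j := by
  have hH : Hm (e1 n) 0 = 1 + vecMulVec (e0 n) (e1 n) := by
    unfold Hm
    have : vecMulVec (0 : VV n) (e1 n) = 0 := by ext i j; simp [vecMulVec_apply]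
    rw [this, add_zero]
  have a : ∀ i, (M *ᵥ e0 n) i = M i 0 := by
    intro i; rw [e0, mulVec_single_one]; rfl
  have b : ∀ j, (e1 n ᵥ* M) j = M 1 j := by
    intro j; rw [e1, single_one_vecMul]; rfl
  rw [hH, mul_add, add_mul, mul_one, one_mul, mul_vecMulVec, vecMulVec_mul, add_right_inj]
  constructor
  · intro h i j
    have := congrFun (congrFun h i) j
    rw [vecMulVec_apply, vecMulVec_apply, a, b] at this
    exact this
  · intro h
    ext i j
    rw [vecMulVec_apply, vecMulVec_apply, a, b]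
    exact h i j

theorem memC_iff (g : GG n) : g ∈ CC n ↔ g.1 * Hm (e1 n) 0 = Hm (e1 n) 0 * g.1 := by
  rw [Subgroup.mem_centralizer_singleton_iff]
  constructor
  · intro h; exact congrArg Subtype.val h
  · intro h; exact Subtype.ext h

theorem C_col0 {g : GG n} (hg : g ∈ CC n) (i : Fin (n + 2)) (hi : i ≠ 0) : g.1 i 0 = 0 := by
  have h := (comm_key g.1).mp ((memC_iff g).mp hg) i 1
  rw [e1_one, mul_one, e0_ne hi, zero_mul] at h
  exact h

theorem C_row1 {g : GG n} (hg : g ∈ CC n) (j : Fin (n + 2)) (hj : j ≠ 1) : g.1 1 j = 0 := by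
  have h := (comm_key g.1).mp ((memC_iff g).mp hg) 0 j
  rw [e1_ne hj, mul_zero, e0_zero, one_mul] at h
  exact h.symm

theorem C_00 {g : GG n} (hg : g ∈ CC n) : g.1 0 0 = 1 := by
  apply z2_ne_zero
  intro h
  have hd : g.1.det = 0 := by
    apply Matrix.det_eq_zero_of_column_eq_zero 0
    intro i
    by_cases hi : i = 0
    · rw [hi]; exact h
    · exact C_col0 hg i hi
  rw [g.2] at hd
  exact one_ne_zero hd

theorem C_11 {g : GG n} (hg : g ∈ CC n) : g.1 1 1 = 1 := by
  have h := (comm_key g.1).mp ((memC_iff g).mp hg) 0 1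
  rw [e1_one, mul_one, e0_zero, one_mul, C_00 hg] at h
  exact h.symm

theorem memC_of_entries (g : GG n) (h1 : ∀ i, i ≠ 0 → g.1 i 0 = 0)
    (h2 : ∀ j, j ≠ 1 → g.1 1 j = 0) (h3 : g.1 0 0 = g.1 1 1) : g ∈ CC n := by
  rw [memC_iff, comm_key]
  intro i j
  by_cases hj : j = 1
  · rw [hj, e1_one, mul_one]
    by_cases hi : i = 0
    · rw [hi, e0_zero, one_mul]; exact h3
    · rw [h1 i hi, e0_ne hi, zero_mul]
  · rw [e1_ne hj, mul_zero, h2 j hj, mul_zero]

theorem HmSL_memC (φ v : VV n) (h0 : φ 0 = 0) (h1 : v 1 = 0) : HmSL φ v h0 h1 ∈ CC n := by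
  rw [memC_iff]
  show Hm φ v * Hm (e1 n) 0 = Hm (e1 n) 0 * Hm φ v
  rw [Hm_mul φ v (e1 n) 0 h0 rfl, Hm_mul (e1 n) 0 φ v e1_zero h1]
  have d : e1 n ⬝ᵥ v = 0 := by rw [e1, single_one_dotProduct]; exact h1
  rw [d, dotProduct_zero, zero_smul, add_zero, add_zero, add_zero, zero_add, add_comm φ (e1 n)]

/-- The lower right block. -/
def sub (M : MM n) : Matrix (Fin n) (Fin n) (ZMod 2) := fun k l => M k.succ.succ l.succ.succ

theorem sub_mul (M M' : MM n) (h1 : ∀ i, i ≠ 0 → M i 0 = 0) (h2 : ∀ j, j ≠ 1 → M' 1 j = 0) :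
    sub (M * M') = sub M * sub M' := by
  ext k l
  show (M * M') k.succ.succ l.succ.succ = (sub M * sub M') k l
  rw [Matrix.mul_apply, Matrix.mul_apply, sum3, h1 _ (ss_ne_zero k), h2 _ (ss_ne_one l),
    zero_mul, mul_zero, add_zero, zero_add]
  rfl

theorem sub_one : sub (1 : MM n) = 1 := by
  ext k l
  show (1 : MM n) k.succ.succ l.succ.succ = (1 : Matrix (Fin n) (Fin n) (ZMod 2)) k l
  rw [Matrix.one_apply, Matrix.one_apply]
  by_cases h : k = l
  · rw [if_pos h, if_pos (by rw [h])]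
  · rw [if_neg h, if_neg (fun h' => h (ss_inj.mp h'))]

def pi0 (n : ℕ) : ↥(CC n) →* Matrix (Fin n) (Fin n) (ZMod 2) where
  toFun g := sub g.1.1
  map_one' := sub_one
  map_mul' g h := sub_mul _ _ (fun i hi => C_col0 g.2 i hi) (fun j hj => C_row1 h.2 j hj)

theorem pi0_det (g : ↥(CC n)) : (pi0 n g).det = 1 := by
  have h : pi0 n g * pi0 n g⁻¹ = 1 := by rw [← map_mul, mul_inv_cancel, map_one]
  have hd := congrArg Matrix.det h
  rw [Matrix.det_mul, Matrix.det_one] at hd
  apply z2_ne_zero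
  intro h0
  rw [h0, zero_mul] at hd
  exact zero_ne_one hd

def piSL (n : ℕ) : ↥(CC n) →* SS n where
  toFun g := ⟨pi0 n g, pi0_det g⟩
  map_one' := Subtype.ext (map_one (pi0 n))
  map_mul' g h := Subtype.ext (map_mul (pi0 n) g h)

/-- The block matrix `diag(1, 1, A)`. -/
def Bm (A : Matrix (Fin n) (Fin n) (ZMod 2)) : MM n := fun i j =>
  Fin.cases (motive := fun _ => ZMod 2) (Fin.cases (motive := fun _ => ZMod 2) 1 (fun _ => 0) j)
    (fun i' => Fin.cases (motive := fun _ => ZMod 2)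
      (Fin.cases (motive := fun _ => ZMod 2) 0
        (fun j' => Fin.cases (motive := fun _ => ZMod 2) 1 (fun _ => 0) j') j)
      (fun i'' => Fin.cases (motive := fun _ => ZMod 2) 0
        (fun j' => Fin.cases (motive := fun _ => ZMod 2) 0 (fun j'' => A i'' j'') j') j) i') i

theorem Bm_0 (A : Matrix (Fin n) (Fin n) (ZMod 2)) (j : Fin (n + 2)) :
    Bm A 0 j = if j = 0 then 1 else 0 := by
  revert j
  apply cases3
  · rfl
  · rw [if_neg (Fin.zero_ne_one).symm]; rfl
  · intro k; rw [if_neg (ss_ne_zero k)]; rfl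

theorem Bm_1 (A : Matrix (Fin n) (Fin n) (ZMod 2)) (j : Fin (n + 2)) :
    Bm A 1 j = if j = 1 then 1 else 0 := by
  revert j
  apply cases3
  · rw [if_neg Fin.zero_ne_one]; rfl
  · rfl
  · intro k; rw [if_neg (ss_ne_one k)]; rfl

theorem Bm_ss0 (A : Matrix (Fin n) (Fin n) (ZMod 2)) (k : Fin n) : Bm A k.succ.succ 0 = 0 := rfl

theorem Bm_ss1 (A : Matrix (Fin n) (Fin n) (ZMod 2)) (k : Fin n) : Bm A k.succ.succ 1 = 0 := rfl

theorem Bm_ssss (A : Matrix (Fin n) (Fin n) (ZMod 2)) (k l : Fin n) :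
    Bm A k.succ.succ l.succ.succ = A k l := rfl

theorem Bm_mul (A A' : Matrix (Fin n) (Fin n) (ZMod 2)) : Bm A * Bm A' = Bm (A * A') := by
  ext i j
  rw [Matrix.mul_apply, sum3]
  revert i
  apply cases3
  · rw [Bm_0 A 0, Bm_0 A 1, Bm_0 (A * A') j, if_pos rfl, if_neg (Fin.zero_ne_one).symm, one_mul,
      zero_mul, add_zero, Bm_0 A' j]
    have : ∑ k : Fin n, Bm A 0 k.succ.succ * Bm A' k.succ.succ j = 0 := by
      apply Finset.sum_eq_zero
      intro k _
      rw [Bm_0, if_neg (ss_ne_zero k), zero_mul]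
    rw [this, add_zero]
  · rw [Bm_1 A 0, Bm_1 A 1, Bm_1 (A * A') j, if_pos rfl, if_neg Fin.zero_ne_one, one_mul,
      zero_mul, zero_add, Bm_1 A' j]
    have : ∑ k : Fin n, Bm A 1 k.succ.succ * Bm A' k.succ.succ j = 0 := by
      apply Finset.sum_eq_zero
      intro k _
      rw [Bm_1, if_neg (ss_ne_one k), zero_mul]
    rw [this, add_zero]
  · intro k
    rw [Bm_ss0, Bm_ss1, zero_mul, zero_mul, zero_add, zero_add]
    revert j
    apply cases3
    · rw [Bm_ss0]
      apply Finset.sum_eq_zero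
      intro m _
      rw [Bm_ss0, mul_zero]
    · rw [Bm_ss1]
      apply Finset.sum_eq_zero
      intro m _
      rw [Bm_ss1, mul_zero]
    · intro l
      rw [Bm_ssss, Matrix.mul_apply]
      rfl

theorem Bm_one : Bm (1 : Matrix (Fin n) (Fin n) (ZMod 2)) = 1 := by
  ext i j
  revert i
  apply cases3
  · rw [Bm_0, Matrix.one_apply]
    by_cases h : j = 0
    · rw [if_pos h, if_pos h.symm]
    · rw [if_neg h, if_neg (fun h' => h h'.symm)]
  · rw [Bm_1, Matrix.one_apply]
    by_cases h : j = 1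
    · rw [if_pos h, if_pos h.symm]
    · rw [if_neg h, if_neg (fun h' => h h'.symm)]
  · intro k
    revert j
    apply cases3
    · rw [Bm_ss0, Matrix.one_apply, if_neg (ss_ne_zero k)]
    · rw [Bm_ss1, Matrix.one_apply, if_neg (ss_ne_one k)]
    · intro l
      rw [Bm_ssss, Matrix.one_apply, Matrix.one_apply]
      by_cases h : k = l
      · rw [if_pos h, if_pos (by rw [h])]
      · rw [if_neg h, if_neg (fun h' => h (ss_inj.mp h'))]

theorem Bm_det (A : SS n) : (Bm A.1).det = 1 := by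
  have h : Bm A.1 * Bm (A⁻¹).1 = 1 := by
    rw [Bm_mul]
    have : A.1 * (A⁻¹).1 = 1 := congrArg Subtype.val (mul_inv_cancel A)
    rw [this, Bm_one]
  have hd := congrArg Matrix.det h
  rw [Matrix.det_mul, Matrix.det_one] at hd
  apply z2_ne_zero
  intro h0
  rw [h0, zero_mul] at hd
  exact zero_ne_one hd

def sigmaG (n : ℕ) : SS n →* GG n where
  toFun A := ⟨Bm A.1, Bm_det A⟩
  map_one' := Subtype.ext Bm_one
  map_mul' A B := Subtype.ext (Bm_mul A.1 B.1).symm

theorem sigma_mem (A : SS n) : sigmaG n A ∈ CC n := by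
  apply memC_of_entries
  · apply cases3
    · intro h; exact absurd rfl h
    · intro _
      show Bm A.1 1 0 = 0
      rw [Bm_1, if_neg Fin.zero_ne_one]
    · intro k _
      exact Bm_ss0 A.1 k
  · intro j hj
    show Bm A.1 1 j = 0
    rw [Bm_1, if_neg hj]
  · show Bm A.1 0 0 = Bm A.1 1 1
    rw [Bm_0, Bm_1, if_pos rfl, if_pos rfl]

def sigmaC (n : ℕ) : SS n →* ↥(CC n) := (sigmaG n).codRestrict (CC n) sigma_mem

theorem pi_sigma (A : SS n) : piSL n (sigmaC n A) = A := by
  apply Subtype.ext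
  ext k l
  exact Bm_ssss A.1 k l

theorem sigmaC_coe (A : SS n) : ((sigmaC n A : ↥(CC n)) : GG n) = sigmaG n A := rfl

theorem piSL_surj : Function.Surjective (piSL n) := fun A => ⟨sigmaC n A, pi_sigma A⟩

theorem ker_iff (g : ↥(CC n)) : g ∈ (piSL n).ker ↔
    ∃ φ v : VV n, φ 0 = 0 ∧ v 0 = 0 ∧ v 1 = 0 ∧ g.1.1 = Hm φ v := by
  rw [MonoidHom.mem_ker]
  constructor
  · intro h
    have hs : ∀ k l : Fin n, g.1.1 k.succ.succ l.succ.succ = if k = l then 1 else 0 := by
      intro k l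
      have := congrFun (congrFun (congrArg Subtype.val h) k) l
      rw [← Matrix.one_apply]
      exact this
    refine ⟨fun j => if j = 0 then 0 else g.1.1 0 j,
      fun i => if i = 0 then 0 else if i = 1 then 0 else g.1.1 i 1, if_pos rfl, if_pos rfl, ?_, ?_⟩
    · show (if (1 : Fin (n + 2)) = 0 then (0 : ZMod 2) else if (1 : Fin (n + 2)) = 1 then 0
        else g.1.1 1 1) = 0
      rw [if_neg (Fin.zero_ne_one).symm, if_pos rfl]
    · ext i j
      rw [Hm_apply]
      revert i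
      apply cases3
      · rw [if_pos rfl]
        revert j
        apply cases3
        · rw [if_pos rfl, if_pos rfl, if_neg Fin.zero_ne_one, add_zero, add_zero]
          exact C_00 g.2
        · rw [if_neg Fin.zero_ne_one, if_neg (Fin.zero_ne_one).symm, if_pos rfl, if_pos rfl,
            zero_add, add_zero]
        · intro l
          rw [if_neg (zero_ne_ss l), if_neg (ss_ne_zero l), if_neg (ss_ne_one l), zero_add,
            add_zero]
      · rw [if_neg (Fin.zero_ne_one).symm]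
        revert j
        apply cases3
        · rw [if_neg (Fin.zero_ne_one).symm, if_neg Fin.zero_ne_one, add_zero, add_zero]
          exact C_row1 g.2 0 Fin.zero_ne_one
        · rw [if_pos rfl, if_pos rfl, if_neg (Fin.zero_ne_one).symm, if_pos rfl, add_zero,
            add_zero]
          exact C_11 g.2
        · intro l
          rw [if_neg (one_ne_ss l), if_neg (ss_ne_one l), add_zero, add_zero]
          exact C_row1 g.2 _ (ss_ne_one l)
      · intro k
        rw [if_neg (ss_ne_zero k)]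
        revert j
        apply cases3
        · rw [if_neg (ss_ne_zero k), if_neg Fin.zero_ne_one, add_zero, add_zero]
          exact C_col0 g.2 _ (ss_ne_zero k)
        · rw [if_neg (ss_ne_one k), if_pos rfl, if_neg (ss_ne_zero k), if_neg (ss_ne_one k),
            zero_add, zero_add]
        · intro l
          rw [if_neg (ss_ne_one l), add_zero, add_zero, hs k l]
          by_cases h : k = l
          · rw [if_pos h, if_pos (by rw [h])]
          · rw [if_neg h, if_neg (fun h' => h (ss_inj.mp h'))]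
  · rintro ⟨φ, v, _, _, _, hg⟩
    apply Subtype.ext
    ext k l
    show g.1.1 k.succ.succ l.succ.succ = (1 : Matrix (Fin n) (Fin n) (ZMod 2)) k l
    rw [hg, Hm_ssss, Matrix.one_apply]

/-- The candidate for `O₂(C)`. -/
def Q0 (n : ℕ) : Subgroup (GG n) := (piSL n).ker.map (CC n).subtype

theorem memQ0 (g : GG n) : g ∈ Q0 n ↔
    ∃ φ v : VV n, φ 0 = 0 ∧ v 0 = 0 ∧ v 1 = 0 ∧ g.1 = Hm φ v := by
  constructor
  · rintro ⟨c, hc, rfl⟩
    exact (ker_iff c).mp hc
  · rintro ⟨φ, v, h0, hv0, hv1, hg⟩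
    have hC : g ∈ CC n := by
      have : g = HmSL φ v h0 hv1 := Subtype.ext hg
      rw [this]
      exact HmSL_memC φ v h0 hv1
    exact ⟨⟨g, hC⟩, (ker_iff _).mpr ⟨φ, v, h0, hv0, hv1, hg⟩, rfl⟩

theorem Q0_le_C : Q0 n ≤ CC n := by
  rintro g ⟨c, _, rfl⟩
  exact c.2

theorem HmSL_memQ0 (φ v : VV n) (h0 : φ 0 = 0) (hv0 : v 0 = 0) (h1 : v 1 = 0) :
    HmSL φ v h0 h1 ∈ Q0 n :=
  (memQ0 _).mpr ⟨φ, v, h0, hv0, h1, rfl⟩

end Cfsg.Agent.Helper8.TV
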