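import Mathlib
import Cfsg.Prelude.Def_MonsterType
import Cfsg.Agent.Helper8.TV2
import Cfsg.Agent.Helper14.XS

/-!
# `Q0` is extraspecial of order `2^(2n+1)` (helper8)
-/

set_option autoImplicit false

namespace Cfsg.Agent.Helper8.TV

open Matrix

variable {n : ℕ}

instance instFiniteGG : Finite (GG n) := (inferInstance : Finite {A : MM n // A.det = 1})

theorem zz_mem : zz n ∈ Q0 n := HmSL_memQ0 (e1 n) 0 e1_zero rfl rfl

theorem zz_val : (zz n).1 = Hm (e1 n) 0 := rfl

theorem zz_ne_one : zz n ≠ 1 := by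
  intro h
  have := congrFun (congrFun (congrArg Subtype.val h) 0) 1
  rw [zz_val, Hm_01, e1_one] at this
  have h2 : ((1 : GG n).1 : MM n) 0 1 = 0 := by
    rw [Matrix.SpecialLinearGroup.coe_one, Matrix.one_apply, if_neg Fin.zero_ne_one]
  rw [h2] at this
  simp at this

theorem z_mul (ψ u : VV n) (hu : u 1 = 0) : Hm (e1 n) 0 * Hm ψ u = Hm (ψ + e1 n) u := by
  rw [Hm_mul (e1 n) 0 ψ u e1_zero hu]
  have d : e1 n ⬝ᵥ u = 0 := by rw [e1, single_one_dotProduct]; exact hu
  rw [d, zero_smul, add_zero, zero_add, add_comm (e1 n) ψ]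

theorem zz_sq : zz n * zz n = 1 := by
  apply Subtype.ext
  show Hm (e1 n) 0 * Hm (e1 n) 0 = 1
  rw [z_mul _ _ rfl, vadd_self, Hm_zero]

theorem Hm_c (c : ZMod 2) : (c = 0 ∧ Hm (c • e1 n) 0 = 1) ∨ (c = 1 ∧ Hm (c • e1 n) 0 = Hm (e1 n) 0) := by
  rcases z2_cases c with h | h
  · left; refine ⟨h, ?_⟩; rw [h, zero_smul, Hm_zero]
  · right; refine ⟨h, ?_⟩; rw [h, one_smul]

theorem data_Q0 : Cfsg.Agent.Helper14.XS.Data (Q0 n) (zz n) := by
  refine ⟨zz_mem, zz_ne_one, zz_sq, ?_, ?_, ?_, ?_⟩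
  · intro x hx
    exact Subgroup.mem_centralizer_singleton_iff.mp (Q0_le_C hx)
  · intro a ha x hx
    obtain ⟨φ, v, h0, hv0, hv1, ha'⟩ := (memQ0 a).mp ha
    obtain ⟨φ', v', h0', hv0', hv1', hx'⟩ := (memQ0 x).mp hx
    have hax : (a * x).1 = Hm (φ + φ' + (φ ⬝ᵥ v') • e1 n) (v + v') := by
      show a.1 * x.1 = _
      rw [ha', hx', Hm_mul _ _ _ _ h0 hv1']
    have hxa : (x * a).1 = Hm (φ' + φ + (φ' ⬝ᵥ v) • e1 n) (v' + v) := by
      show x.1 * a.1 = _
      rw [ha', hx', Hm_mul _ _ _ _ h0' hv1]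
    by_cases hc : φ ⬝ᵥ v' = φ' ⬝ᵥ v
    · left
      have : a * x = x * a := by
        apply Subtype.ext
        rw [hax, hxa, hc, add_comm φ φ', add_comm v v']
      rw [this]; group
    · right
      have hc' : φ ⬝ᵥ v' = φ' ⬝ᵥ v + 1 := by
        rcases z2_cases (φ ⬝ᵥ v') with h1 | h1 <;> rcases z2_cases (φ' ⬝ᵥ v) with h2 | h2
        · exact absurd (h1.trans h2.symm) hc
        · rw [h1, h2]; decide
        · rw [h1, h2]; decide
        · exact absurd (h1.trans h2.symm) hc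
      have hvv : (v' + v) 1 = 0 := by rw [Pi.add_apply, hv1, hv1', add_zero]
      have : a * x = zz n * (x * a) := by
        apply Subtype.ext
        show (a * x).1 = (zz n).1 * (x * a).1
        rw [hax, hxa, zz_val, z_mul _ _ hvv, hc']
        congr 1
        · rw [add_smul, one_smul]; abel
        · exact add_comm _ _
      rw [this]; group
  · intro x hx
    obtain ⟨φ, v, h0, hv0, hv1, hx'⟩ := (memQ0 x).mp hx
    have hxx : (x * x).1 = Hm ((φ ⬝ᵥ v) • e1 n) 0 := by
      show x.1 * x.1 = _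
      rw [hx', Hm_mul _ _ _ _ h0 hv1, vadd_self, vadd_self, zero_add]
    rcases Hm_c (n := n) (φ ⬝ᵥ v) with ⟨_, h⟩ | ⟨_, h⟩
    · left; apply Subtype.ext; rw [hxx, h]; rfl
    · right; apply Subtype.ext; rw [hxx, h]; rfl
  · intro w hw hcen
    obtain ⟨φ, v, h0, hv0, hv1, hw'⟩ := (memQ0 w).mp hw
    have key : ∀ φ' v' : VV n, φ' 0 = 0 → v' 0 = 0 → v' 1 = 0 → φ' ⬝ᵥ v = φ ⬝ᵥ v' := by
      intro φ' v' h0' hv0' hv1'
      have h := hcen (HmSL φ' v' h0' hv1') (HmSL_memQ0 φ' v' h0' hv0' hv1')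
      have h' : Hm φ' v' * Hm φ v = Hm φ v * Hm φ' v' := by
        have := congrArg Subtype.val h
        rw [← hw']
        exact this
      rw [Hm_mul _ _ _ _ h0' hv1, Hm_mul _ _ _ _ h0 hv1'] at h'
      have h2 := congrFun (congrFun h' 0) 1
      rw [Hm_01, Hm_01] at h2
      simp only [Pi.add_apply, Pi.smul_apply, e1_one, smul_eq_mul, mul_one, hv0, hv0',
        add_zero] at h2
      rw [add_comm (φ' 1) (φ 1)] at h2
      exact add_left_cancel h2
    have hv : v = 0 := by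
      funext i
      revert i
      apply cases3
      · exact hv0
      · exact hv1
      · intro k
        have := key (Pi.single k.succ.succ 1) 0 (Pi.single_eq_of_ne (zero_ne_ss k) _) rfl rfl
        rw [single_one_dotProduct, dotProduct_zero] at this
        exact this
    have hφ : φ = (φ 1) • e1 n := by
      funext j
      revert j
      apply cases3
      · rw [Pi.smul_apply, e1_zero, smul_zero]; exact h0
      · rw [Pi.smul_apply, e1_one, smul_eq_mul, mul_one]
      · intro k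
        have := key 0 (Pi.single k.succ.succ 1) rfl (Pi.single_eq_of_ne (zero_ne_ss k) _)
          (Pi.single_eq_of_ne (one_ne_ss k) _)
        rw [zero_dotProduct, dotProduct_single_one] at this
        rw [← this, Pi.smul_apply, e1_ne (ss_ne_one k), smul_zero]
    rw [hv, hφ] at hw'
    rcases Hm_c (n := n) (φ 1) with ⟨_, h⟩ | ⟨_, h⟩
    · left; apply Subtype.ext; rw [hw', h]; rfl
    · right; apply Subtype.ext; rw [hw', h]; rfl

theorem nonab_Q0 (hn : 1 ≤ n) : ∃ a ∈ Q0 n, ∃ x ∈ Q0 n, a * x ≠ x * a := by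
  let k0 : Fin n := ⟨0, by omega⟩
  let s : VV n := Pi.single k0.succ.succ 1
  have s0 : s 0 = 0 := Pi.single_eq_of_ne (zero_ne_ss k0) _
  have s1 : s 1 = 0 := Pi.single_eq_of_ne (one_ne_ss k0) _
  refine ⟨HmSL s 0 s0 rfl, HmSL_memQ0 s 0 s0 rfl rfl, HmSL 0 s rfl s1,
    HmSL_memQ0 0 s rfl s0 s1, ?_⟩
  intro h
  have h' : Hm s 0 * Hm 0 s = Hm 0 s * Hm s 0 := congrArg Subtype.val h
  rw [Hm_mul _ _ _ _ s0 s1, Hm_mul _ _ _ _ rfl rfl] at h'
  have h2 := congrFun (congrFun h' 0) 1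
  rw [Hm_01, Hm_01] at h2
  have hss : s ⬝ᵥ s = 1 := by
    show s ⬝ᵥ Pi.single k0.succ.succ 1 = 1
    rw [dotProduct_single_one]
    exact Pi.single_eq_same _ _
  simp only [Pi.add_apply, Pi.smul_apply, e1_one, smul_eq_mul, mul_one, s0, s1, hss,
    add_zero, zero_add, Pi.zero_apply, dotProduct_zero, zero_mul] at h2
  exact one_ne_zero h2

theorem xs_Q0 (hn : 1 ≤ n) : Cfsg.IsExtraspecial 2 ↥(Q0 n) :=
  Cfsg.Agent.Helper14.XS.to_extraspecial (Q0 n) (zz n) data_Q0 (nonab_Q0 hn)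

/-- parameters for the cardinality. -/
def phiE (a : Fin (n + 1) → ZMod 2) : VV n := fun j => Fin.cases (motive := fun _ => ZMod 2) 0 a j

def vE (w : Fin n → ZMod 2) : VV n := fun i =>
  Fin.cases (motive := fun _ => ZMod 2) 0
    (fun i' => Fin.cases (motive := fun _ => ZMod 2) 0 w i') i

theorem phiE_zero (a : Fin (n + 1) → ZMod 2) : phiE a 0 = 0 := rfl

theorem phiE_succ (a : Fin (n + 1) → ZMod 2) (j : Fin (n + 1)) : phiE a j.succ = a j := rfl

theorem vE_zero (w : Fin n → ZMod 2) : vE w 0 = 0 := rfl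

theorem vE_one (w : Fin n → ZMod 2) : vE w 1 = 0 := rfl

theorem vE_ss (w : Fin n → ZMod 2) (k : Fin n) : vE w k.succ.succ = w k := rfl

theorem phiE_add (a b : Fin (n + 1) → ZMod 2) : phiE (a + b) = phiE a + phiE b := by
  funext j
  refine Fin.cases ?_ (fun j' => ?_) j
  · show (0 : ZMod 2) = 0 + 0
    rw [add_zero]
  · rfl

theorem phiE_zero' : phiE (0 : Fin (n + 1) → ZMod 2) = 0 := by
  funext j
  refine Fin.cases ?_ (fun j' => ?_) j
  · rfl
  · rfl

theorem card_Q0 : Nat.card ↥(Q0 n) = 2 ^ (2 * n + 1) := by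
  let f : ↥(Q0 n) → (Fin (n + 1) → ZMod 2) × (Fin n → ZMod 2) :=
    fun g => (fun j => g.1.1 0 j.succ, fun k => g.1.1 k.succ.succ 1)
  have hf : Function.Bijective f := by
    constructor
    · intro g g' hgg
      obtain ⟨φ, v, h0, hv0, hv1, hg⟩ := (memQ0 g.1).mp g.2
      obtain ⟨φ', v', h0', hv0', hv1', hg'⟩ := (memQ0 g'.1).mp g'.2
      have e1' : ∀ j : Fin (n + 1), g.1.1 0 j.succ = g'.1.1 0 j.succ :=
        fun j => congrFun (congrArg Prod.fst hgg) j
      have e2' : ∀ k : Fin n, g.1.1 k.succ.succ 1 = g'.1.1 k.succ.succ 1 :=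
        fun k => congrFun (congrArg Prod.snd hgg) k
      have hφ : φ = φ' := by
        funext j
        revert j
        apply cases3
        · rw [h0, h0']
        · have := e1' 0
          rw [hg, hg'] at this
          have t : Hm φ v 0 1 = Hm φ' v' 0 1 := this
          rw [Hm_01, Hm_01, hv0, hv0', add_zero, add_zero] at t
          exact t
        · intro k
          have := e1' k.succ
          rw [hg, hg', Hm_0ss, Hm_0ss] at this
          exact this
      have hv : v = v' := by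
        funext i
        revert i
        apply cases3
        · rw [hv0, hv0']
        · rw [hv1, hv1']
        · intro k
          have := e2' k
          rw [hg, hg', Hm_ss1, Hm_ss1] at this
          exact this
      apply Subtype.ext
      apply Subtype.ext
      rw [hg, hg', hφ, hv]
    · rintro ⟨a, w⟩
      refine ⟨⟨HmSL (phiE a) (vE w) (phiE_zero a) (vE_one w),
        HmSL_memQ0 _ _ (phiE_zero a) (vE_zero w) (vE_one w)⟩, ?_⟩
      apply Prod.ext
      · funext j
        show Hm (phiE a) (vE w) 0 j.succ = a j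
        rw [Hm_apply, if_neg (Fin.succ_ne_zero j).symm, if_pos rfl, phiE_succ, vE_zero, ite_self,
          zero_add, add_zero]
      · funext k
        show Hm (phiE a) (vE w) k.succ.succ 1 = w k
        rw [Hm_ss1, vE_ss]
  rw [Nat.card_eq_of_bijective f hf, Nat.card_prod]
  have h1 : Nat.card (Fin (n + 1) → ZMod 2) = 2 ^ (n + 1) := by simp
  have h2 : Nat.card (Fin n → ZMod 2) = 2 ^ n := by simp
  rw [h1, h2, ← pow_add]
  congr 1
  omega

/-- the elementary abelian subgroup. -/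
def etaE (n : ℕ) : Multiplicative (Fin (n + 1) → ZMod 2) →* GG n where
  toFun a := HmSL (phiE (Multiplicative.toAdd a)) 0 (phiE_zero _) rfl
  map_one' := by
    apply Subtype.ext
    show Hm (phiE (0 : Fin (n + 1) → ZMod 2)) 0 = 1
    rw [phiE_zero', Hm_zero]
  map_mul' a b := by
    apply Subtype.ext
    show Hm (phiE (Multiplicative.toAdd a + Multiplicative.toAdd b)) 0
      = Hm (phiE (Multiplicative.toAdd a)) 0 * Hm (phiE (Multiplicative.toAdd b)) 0
    rw [Hm_mul _ _ _ _ (phiE_zero _) rfl, dotProduct_zero, zero_smul, add_zero, add_zero,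
      phiE_add]

theorem etaE_inj : Function.Injective (etaE n) := by
  intro a b h
  have h' : Hm (phiE (Multiplicative.toAdd a)) 0 = Hm (phiE (Multiplicative.toAdd b)) 0 :=
    congrArg Subtype.val h
  have := (Hm_inj (phiE_zero _) rfl rfl (phiE_zero _) rfl rfl h').1
  apply Multiplicative.toAdd.injective
  funext j
  exact congrFun this j.succ

theorem etaE_sq (a : Multiplicative (Fin (n + 1) → ZMod 2)) : etaE n a * etaE n a = 1 := by
  apply Subtype.ext
  show Hm (phiE (Multiplicative.toAdd a)) 0 * Hm (phiE (Multiplicative.toAdd a)) 0 = 1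
  rw [Hm_mul _ _ _ _ (phiE_zero _) rfl, dotProduct_zero, zero_smul, add_zero, add_zero,
    vadd_self, Hm_zero]

theorem E_facts : (etaE n).range ≤ Q0 n ∧ Cfsg.IsElementaryAbelian 2 (etaE n).range ∧
    Nat.card ↥(etaE n).range = 2 ^ (n + 1) := by
  refine ⟨?_, ⟨?_, ?_⟩, ?_⟩
  · rintro _ ⟨a, rfl⟩
    exact HmSL_memQ0 _ _ (phiE_zero _) rfl rfl
  · refine ⟨⟨fun x y => ?_⟩⟩
    obtain ⟨a, ha⟩ := x.2
    obtain ⟨b, hb⟩ := y.2
    apply Subtype.ext
    show x.1 * y.1 = y.1 * x.1
    rw [← ha, ← hb, ← map_mul, ← map_mul, mul_comm]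
  · rintro _ ⟨a, rfl⟩
    rw [pow_two]
    exact etaE_sq a
  · rw [Nat.card_congr (MonoidHom.ofInjective etaE_inj).toEquiv.symm,
      Nat.card_congr Multiplicative.toAdd]
    simp

end Cfsg.Agent.Helper8.TV
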