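import Mathlib
import Cfsg.Prelude.Def_MonsterType
import Cfsg.Agent.Helper8.TV3
import Cfsg.Agent.Helper8.TV4
import Cfsg.Agent.S5422

/-!
# `Q0` is a large extraspecial subgroup; `O₂(C) = Q0`; the complement (helper8)
-/

set_option autoImplicit false

namespace Cfsg.Agent.Helper8.TV

open Matrix

variable {n : ℕ}

/-- The centre of `Q0` inside the ambient group. -/
abbrev Zm (n : ℕ) : Subgroup (GG n) := (Subgroup.center ↥(Q0 n)).map (Q0 n).subtype

theorem memZm (x : GG n) : x ∈ Zm n ↔ x = 1 ∨ x = zz n := by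
  obtain ⟨hzQ, hz1, hzz, hcen, hcomm, hsqr, hrad⟩ := data_Q0 (n := n)
  constructor
  · rintro ⟨c, hc, rfl⟩
    apply hrad c.1 c.2
    intro y hy
    have := (Subgroup.mem_center_iff.mp hc) ⟨y, hy⟩
    exact congrArg Subtype.val this
  · rintro (h | h)
    · rw [h]; exact Subgroup.one_mem _
    · rw [h]
      refine ⟨⟨zz n, hzQ⟩, Subgroup.mem_center_iff.mpr ?_, rfl⟩
      intro g
      apply Subtype.ext
      exact hcen g.1 g.2

theorem comm_entries (M : MM n) (φ' v' : VV n) (h : Hm φ' v' * M = M * Hm φ' v') (i j : Fin (n + 2)) :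
    e0 n i * (φ' ᵥ* M) j + v' i * M 1 j = M i 0 * φ' j + (M *ᵥ v') i * e1 n j := by
  have a : ∀ i, (M *ᵥ e0 n) i = M i 0 := by
    intro i; rw [e0, mulVec_single_one]; rfl
  have b : ∀ j, (e1 n ᵥ* M) j = M 1 j := by
    intro j; rw [e1, single_one_vecMul]; rfl
  unfold Hm at h
  rw [add_mul, add_mul, one_mul, mul_add, mul_add, mul_one, vecMulVec_mul, vecMulVec_mul,
    mul_vecMulVec, mul_vecMulVec, add_assoc, add_assoc, add_right_inj] at h
  have := congrFun (congrFun h i) j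
  rw [Matrix.add_apply, Matrix.add_apply, vecMulVec_apply, vecMulVec_apply, vecMulVec_apply,
    vecMulVec_apply, a, b] at this
  exact this

theorem cent_Q0 : Subgroup.centralizer ((Q0 n : Subgroup (GG n)) : Set (GG n)) = Zm n := by
  obtain ⟨hzQ, hz1, hzz, hcen, hcomm, hsqr, hrad⟩ := data_Q0 (n := n)
  ext g
  rw [memZm, Subgroup.mem_centralizer_iff]
  constructor
  · intro hg
    have hcm : ∀ φ' v' : VV n, φ' 0 = 0 → v' 0 = 0 → v' 1 = 0 →
        Hm φ' v' * g.1 = g.1 * Hm φ' v' := by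
      intro φ' v' h0' hv0' hv1'
      exact congrArg Subtype.val (hg (HmSL φ' v' h0' hv1') (HmSL_memQ0 φ' v' h0' hv0' hv1'))
    have R1 : ∀ j0 : Fin (n + 2), j0 ≠ 0 → ∀ j, g.1 j0 j = g.1 0 0 * (if j = j0 then 1 else 0) := by
      intro j0 hj0 j
      have := comm_entries g.1 (Pi.single j0 1) 0
        (hcm (Pi.single j0 1) 0 (Pi.single_eq_of_ne (Ne.symm hj0) _) rfl rfl) 0 j
      rw [e0_zero, one_mul, single_one_vecMul, Pi.zero_apply, zero_mul, add_zero,
        Matrix.mulVec_zero, Pi.zero_apply, zero_mul, add_zero, Pi.single_apply] at this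
      exact this
    have R2 : ∀ k : Fin n, g.1 0 k.succ.succ = 0 := by
      intro k
      have := comm_entries g.1 0 (Pi.single k.succ.succ 1)
        (hcm 0 (Pi.single k.succ.succ 1) rfl (Pi.single_eq_of_ne (zero_ne_ss k) _)
          (Pi.single_eq_of_ne (one_ne_ss k) _)) 0 1
      have hA : ((0 : VV n) ᵥ* g.1) = 0 := Matrix.zero_vecMul _
      have hB : (g.1 *ᵥ (Pi.single k.succ.succ 1 : VV n)) 0 = g.1 0 k.succ.succ := by
        rw [mulVec_single_one]; rfl
      have hC : (Pi.single k.succ.succ 1 : VV n) 0 = 0 := Pi.single_eq_of_ne (zero_ne_ss k) _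
      rw [hA, hB, hC, e1_one] at this
      simp only [Pi.zero_apply, mul_zero, zero_mul, add_zero, zero_add, mul_one] at this
      exact this.symm
    have h00 : g.1 0 0 = 1 := by
      apply z2_ne_zero
      intro h
      have hd : g.1.det = 0 := by
        apply Matrix.det_eq_zero_of_row_eq_zero 1
        intro j
        rw [R1 1 (Fin.zero_ne_one).symm j, h, zero_mul]
      rw [g.2] at hd
      exact one_ne_zero hd
    have hform : g.1 = Hm ((g.1 0 1) • e1 n) 0 := by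
      ext i j
      rw [Hm_apply]
      by_cases hi : i = 0
      · rw [hi, if_pos rfl]
        revert j
        apply cases3
        · rw [if_pos rfl, if_neg Fin.zero_ne_one, add_zero, Pi.smul_apply, e1_zero, smul_zero,
            add_zero]
          exact h00
        · rw [if_neg Fin.zero_ne_one, if_pos rfl, Pi.smul_apply, e1_one, smul_eq_mul, mul_one,
            zero_add, Pi.zero_apply, add_zero]
        · intro k
          rw [if_neg (zero_ne_ss k), if_neg (ss_ne_one k), Pi.smul_apply, e1_ne (ss_ne_one k),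
            smul_zero, add_zero, add_zero]
          exact R2 k
      · rw [R1 i hi j, h00, one_mul, if_neg hi, Pi.zero_apply, ite_self, add_zero, add_zero]
        by_cases hji : j = i
        · rw [if_pos hji, if_pos hji.symm]
        · rw [if_neg hji, if_neg (fun h => hji h.symm)]
    rcases Hm_c (n := n) (g.1 0 1) with ⟨_, h⟩ | ⟨_, h⟩
    · left; apply Subtype.ext; rw [hform, h]; rfl
    · right; apply Subtype.ext; rw [hform, h]; rfl
  · rintro (h | h)
    · intro y _; rw [h, mul_one, one_mul]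
    · intro y hy; rw [h]; exact hcen y hy

theorem norm_Q0 (x : GG n) (hx : x ∈ CC n) :
    x ∈ Subgroup.normalizer ((Q0 n : Subgroup (GG n)) : Set (GG n)) := by
  have hk : ((piSL n).ker).Normal := MonoidHom.normal_ker _
  have key : ∀ (X : ↥(CC n)) (h : GG n), h ∈ Q0 n → (X : GG n) * h * (X : GG n)⁻¹ ∈ Q0 n := by
    intro X h hh
    obtain ⟨c, hc, hch⟩ := Subgroup.mem_map.mp hh
    have hc' : X * c * X⁻¹ ∈ (piSL n).ker := hk.conj_mem c hc X
    refine Subgroup.mem_map.mpr ⟨X * c * X⁻¹, hc', ?_⟩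
    rw [← hch, map_mul, map_mul, map_inv]
    rfl
  rw [Subgroup.mem_normalizer_iff]
  intro h
  constructor
  · intro hh
    exact key ⟨x, hx⟩ h hh
  · intro hh
    have h3 := key (⟨x, hx⟩⁻¹ : ↥(CC n)) _ hh
    have e0' : ((⟨x, hx⟩⁻¹ : ↥(CC n)) : GG n) = x⁻¹ := Subgroup.coe_inv (CC n) ⟨x, hx⟩
    rw [e0'] at h3
    have e : x⁻¹ * (x * h * x⁻¹) * x⁻¹⁻¹ = h := by group
    rw [e] at h3
    exact h3

theorem hL3_Q0 : Subgroup.centralizer ((Zm n : Subgroup (GG n)) : Set (GG n))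
    ≤ Subgroup.normalizer ((Q0 n : Subgroup (GG n)) : Set (GG n)) := by
  intro x hx
  apply norm_Q0
  rw [Subgroup.mem_centralizer_singleton_iff]
  exact (Subgroup.mem_centralizer_iff.mp hx (zz n) ((memZm _).mpr (Or.inr rfl))).symm

theorem mat_add_self (X : MM n) : X + X = 0 := by
  ext i j; exact z2_add_self _

theorem large_Q0 (hn : 2 ≤ n) : Cfsg.IsLargeExtraspecial (Q0 n) := by
  let k0 : Fin n := ⟨0, by omega⟩
  let s : VV n := Pi.single k0.succ.succ 1
  have s0 : s 0 = 0 := Pi.single_eq_of_ne (zero_ne_ss k0) _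
  have s1 : s 1 = 0 := Pi.single_eq_of_ne (one_ne_ss k0) _
  have hy0 : (e1 n + s) 0 = 0 := by rw [Pi.add_apply, e1_zero, s0, add_zero]
  let y : GG n := HmSL (e1 n + s) 0 hy0 rfl
  let g0 : GG n := ⟨Matrix.transvection 1 k0.succ.succ 1,
    Matrix.det_transvection_of_ne _ _ (one_ne_ss k0) 1⟩
  have hT : (g0.1 : MM n) = 1 + vecMulVec (e1 n) s := by
    show Matrix.transvection 1 k0.succ.succ 1 = 1 + vecMulVec (e1 n) s
    rw [Matrix.transvection]
    congr 1
    ext i j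
    rw [Matrix.single_apply, vecMulVec_apply]
    show _ = e1 n i * (Pi.single k0.succ.succ 1 : VV n) j
    rw [e1, Pi.single_apply, Pi.single_apply]
    by_cases hi : i = 1
    · by_cases hj : j = k0.succ.succ
      · rw [if_pos ⟨hi.symm, hj.symm⟩, if_pos hi, if_pos hj, mul_one]
      · rw [if_neg (fun h => hj h.2.symm), if_neg hj, mul_zero]
    · rw [if_neg (fun h => hi h.1.symm), if_neg hi, zero_mul]
  have z0 : ∀ (w : VV n), vecMulVec (0 : VV n) w = 0 := by
    intro w; ext i j; simp [vecMulVec_apply]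
  have hmat : g0.1 * Hm (e1 n) 0 = Hm (e1 n + s) 0 * g0.1 := by
    have d1 : s ⬝ᵥ e0 n = 0 := by rw [e0, dotProduct_single_one]; exact s0
    have d3 : e1 n ⬝ᵥ e1 n = 1 := by
      show e1 n ⬝ᵥ Pi.single 1 1 = 1
      rw [dotProduct_single_one, e1_one]
    have d4 : s ⬝ᵥ e1 n = 0 := by
      show s ⬝ᵥ Pi.single 1 1 = 0
      rw [dotProduct_single_one, s1]
    have z0' : ∀ (w : VV n), vecMulVec w (0 : VV n) = 0 := by
      intro w; ext i j; simp [vecMulVec_apply]
    rw [hT]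
    unfold Hm
    simp only [mul_add, add_mul, mul_one, one_mul, vecMulVec_mul_vecMulVec, d1, d3, d4, zero_smul,
      one_smul, vecMulVec_smul, vecMulVec_add, z0, z0', add_zero]
    have key : vecMulVec (e0 n) s + vecMulVec (e0 n) s = 0 := mat_add_self _
    refine sub_eq_zero.mp ?_
    calc _ = -(vecMulVec (e0 n) s + vecMulVec (e0 n) s) := by abel
      _ = 0 := by rw [key, neg_zero]
  have hconj : g0 * zz n * g0⁻¹ = y := by
    have : g0 * zz n = y * g0 := Subtype.ext hmat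
    rw [this]; group
  have hy1 : y ≠ 1 := by
    intro h
    have := congrFun (congrFun (congrArg Subtype.val h) 0) k0.succ.succ
    have t : Hm (e1 n + s) 0 0 k0.succ.succ = (1 : MM n) 0 k0.succ.succ := this
    rw [Hm_0ss, Matrix.one_apply, if_neg (zero_ne_ss k0), Pi.add_apply, e1_ne (ss_ne_one k0),
      zero_add] at t
    have : s k0.succ.succ = 1 := Pi.single_eq_same _ _
    rw [this] at t
    exact one_ne_zero t
  have hyz : y ≠ zz n := by
    intro h
    have := congrFun (congrFun (congrArg Subtype.val h) 0) k0.succ.succ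
    have t : Hm (e1 n + s) 0 0 k0.succ.succ = Hm (e1 n) 0 0 k0.succ.succ := this
    rw [Hm_0ss, Hm_0ss, Pi.add_apply, e1_ne (ss_ne_one k0), zero_add] at t
    have : s k0.succ.succ = 1 := Pi.single_eq_same _ _
    rw [this] at t
    exact one_ne_zero t
  have hyQ : y ∈ Q0 n := HmSL_memQ0 _ _ hy0 rfl rfl
  have hg : g0 ∉ Subgroup.normalizer ((Zm n : Subgroup (GG n)) : Set (GG n)) := by
    intro h
    rw [Subgroup.mem_normalizer_iff] at h
    have := (h (zz n)).mp ((memZm _).mpr (Or.inr rfl))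
    rw [hconj, memZm] at this
    rcases this with h1 | h1
    · exact hy1 h1
    · exact hyz h1
  have hZg : (Zm n).map (MulAut.conj g0).toMonoidHom ≤ Q0 n := by
    rintro _ ⟨x, hx, rfl⟩
    rcases (memZm x).mp hx with h | h
    · rw [h, map_one]; exact Subgroup.one_mem _
    · rw [h]
      show g0 * zz n * g0⁻¹ ∈ Q0 n
      rw [hconj]; exact hyQ
  exact (Cfsg.Agent.S5422.result (Q0 n) (xs_Q0 (by omega)) cent_Q0 hL3_Q0 n hn card_Q0 g0 hg hZg).2.2

theorem ker_pgroup : IsPGroup 2 ↥(piSL n).ker := by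
  obtain ⟨hzQ, hz1, hzz, hcen, hcomm, hsqr, hrad⟩ := data_Q0 (n := n)
  intro x
  refine ⟨2, ?_⟩
  have hxQ : (x.1.1 : GG n) ∈ Q0 n := ⟨x.1, x.2, rfl⟩
  have h4 : (x.1.1 : GG n) ^ (2 ^ 2) = 1 := by
    have e : (x.1.1 : GG n) ^ (2 ^ 2) = (x.1.1 * x.1.1) * (x.1.1 * x.1.1) := by
      show (x.1.1 : GG n) ^ 4 = _
      rw [pow_succ, pow_succ, pow_succ, pow_one]; group
    rw [e]
    rcases hsqr _ hxQ with h | h
    · rw [h, one_mul]
    · rw [h]; exact hzz
  apply Subtype.ext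
  apply Subtype.ext
  exact_mod_cast h4

theorem pCore_eq (hn : 2 ≤ n) :
    (Cfsg.pCore 2 ↥(CC n)).map (CC n).subtype = Q0 n := by
  have h : Cfsg.pCore 2 ↥(CC n) = (piSL n).ker := by
    apply le_antisymm
    · unfold Cfsg.pCore
      apply sSup_le
      rintro N ⟨hNn, hNp⟩
      have := O2_trivial n hn (N.map (piSL n)) (hNn.map _ piSL_surj) (hNp.map _)
      exact (Subgroup.map_eq_bot_iff N).mp this
    · unfold Cfsg.pCore
      apply le_sSup
      exact ⟨MonoidHom.normal_ker _, ker_pgroup⟩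
  rw [h]
  rfl

theorem sigma_inj : Function.Injective (sigmaG n) := by
  intro A B h
  have : sigmaC n A = sigmaC n B := Subtype.ext h
  rw [← pi_sigma A, ← pi_sigma B, this]

theorem compl_Q0 : ∃ K : Subgroup (GG n), K ≤ CC n ∧ Q0 n ⊓ K = ⊥ ∧ Q0 n ⊔ K = CC n ∧
    Nonempty (↥K ≃* SS n) := by
  have hK : (sigmaG n).range ≤ CC n := by
    rintro _ ⟨A, rfl⟩
    exact sigma_mem A
  refine ⟨(sigmaG n).range, hK, ?_, ?_, ⟨(MonoidHom.ofInjective sigma_inj).symm⟩⟩
  · rw [Subgroup.eq_bot_iff_forall]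
    rintro x ⟨hq, A, rfl⟩
    obtain ⟨c, hc, hcA⟩ := hq
    have hcA' : c = sigmaC n A := Subtype.ext hcA
    have hc' : piSL n (sigmaC n A) = 1 := by
      rw [← hcA']; exact MonoidHom.mem_ker.mp hc
    rw [pi_sigma] at hc'
    rw [hc', map_one]
  · apply le_antisymm (sup_le Q0_le_C hK)
    intro c hc
    have hker : (⟨c, hc⟩ : ↥(CC n)) * (sigmaC n (piSL n ⟨c, hc⟩))⁻¹ ∈ (piSL n).ker := by
      rw [MonoidHom.mem_ker, map_mul, map_inv, pi_sigma, mul_inv_cancel]
    have e : c = (((⟨c, hc⟩ : ↥(CC n)) * (sigmaC n (piSL n ⟨c, hc⟩))⁻¹ : ↥(CC n)) : GG n)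
        * sigmaG n (piSL n ⟨c, hc⟩) := by
      show c = c * (sigmaG n (piSL n ⟨c, hc⟩))⁻¹ * sigmaG n (piSL n ⟨c, hc⟩)
      group
    rw [e]
    exact Subgroup.mul_mem_sup ⟨_, hker, rfl⟩ ⟨_, rfl⟩

theorem main (hn : 2 ≤ n) (Q : Subgroup (GG n))
    (hQ : Q = (Cfsg.pCore 2 ↥(CC n)).map (CC n).subtype) :
    Cfsg.IsExtraspecial 2 ↥Q ∧ Nat.card ↥Q = 2 ^ (2 * n + 1) ∧
    (∃ E : Subgroup (GG n), E ≤ Q ∧ Cfsg.IsElementaryAbelian 2 E ∧ Nat.card ↥E = 2 ^ (n + 1)) ∧
    Cfsg.IsLargeExtraspecial Q ∧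
    ∃ K : Subgroup (GG n), K ≤ CC n ∧ Q ⊓ K = ⊥ ∧ Q ⊔ K = CC n ∧ Nonempty (↥K ≃* SS n) := by
  rw [pCore_eq hn] at hQ
  subst hQ
  exact ⟨xs_Q0 (by omega), card_Q0, ⟨(etaE n).range, E_facts⟩, large_Q0 hn, compl_Q0⟩

end Cfsg.Agent.Helper8.TV
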