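import Mathlib
import Cfsg.Agent.Helper8.TV5

/-!
# The parabolic `[[1, r], [0, B]]` inside `SL (n+2) 2` (helper8)
-/

set_option autoImplicit false

namespace Cfsg.Agent.Helper8.TV

open Matrix

variable {n : ℕ}

abbrev M1 (n : ℕ) := Matrix (Fin (n + 1)) (Fin (n + 1)) (ZMod 2)

/-- The block matrix `diag(1, B)`. -/
def Bm1 (B : M1 n) : MM n := fun i j =>
  Fin.cases (motive := fun _ => ZMod 2) (Fin.cases (motive := fun _ => ZMod 2) 1 (fun _ => 0) j)
    (fun i' => Fin.cases (motive := fun _ => ZMod 2) 0 (fun j' => B i' j') j) i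

theorem Bm1_00 (B : M1 n) : Bm1 B 0 0 = 1 := rfl

theorem Bm1_0s (B : M1 n) (j : Fin (n + 1)) : Bm1 B 0 j.succ = 0 := rfl

theorem Bm1_s0 (B : M1 n) (i : Fin (n + 1)) : Bm1 B i.succ 0 = 0 := rfl

theorem Bm1_ss (B : M1 n) (i j : Fin (n + 1)) : Bm1 B i.succ j.succ = B i j := rfl

theorem sum1 (f : Fin (n + 2) → ZMod 2) : ∑ i, f i = f 0 + ∑ k : Fin (n + 1), f k.succ :=
  Fin.sum_univ_succ f

theorem Bm1_mul (B B' : M1 n) : Bm1 B * Bm1 B' = Bm1 (B * B') := by
  ext i j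
  rw [Matrix.mul_apply, sum1]
  refine Fin.cases ?_ (fun i' => ?_) i
  · refine Fin.cases ?_ (fun j' => ?_) j
    · rw [Bm1_00 B, Bm1_00 B', Bm1_00 (B * B'), one_mul]
      have : ∑ k : Fin (n + 1), Bm1 B 0 k.succ * Bm1 B' k.succ 0 = 0 :=
        Finset.sum_eq_zero (fun k _ => by rw [Bm1_0s, zero_mul])
      rw [this, add_zero]
    · rw [Bm1_00 B, Bm1_0s B', Bm1_0s (B * B'), mul_zero, zero_add]
      exact Finset.sum_eq_zero (fun k _ => by rw [Bm1_0s, zero_mul])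
  · refine Fin.cases ?_ (fun j' => ?_) j
    · rw [Bm1_s0 B, zero_mul, zero_add, Bm1_s0 (B * B')]
      exact Finset.sum_eq_zero (fun k _ => by rw [Bm1_s0 B', mul_zero])
    · rw [Bm1_s0 B, zero_mul, zero_add, Bm1_ss (B * B'), Matrix.mul_apply]
      rfl

theorem Bm1_one : Bm1 (1 : M1 n) = 1 := by
  ext i j
  refine Fin.cases ?_ (fun i' => ?_) i
  · refine Fin.cases ?_ (fun j' => ?_) j
    · rw [Bm1_00, Matrix.one_apply, if_pos rfl]
    · rw [Bm1_0s, Matrix.one_apply, if_neg (Fin.succ_ne_zero j').symm]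
  · refine Fin.cases ?_ (fun j' => ?_) j
    · rw [Bm1_s0, Matrix.one_apply, if_neg (Fin.succ_ne_zero i')]
    · rw [Bm1_ss, Matrix.one_apply, Matrix.one_apply]
      by_cases h : i' = j'
      · rw [if_pos h, if_pos (by rw [h])]
      · rw [if_neg h, if_neg (fun h' => h (Fin.succ_injective _ h'))]

def Bm1Hom (n : ℕ) : M1 n →* MM n where
  toFun := Bm1
  map_one' := Bm1_one
  map_mul' a b := (Bm1_mul a b).symm

/-- The lower right `(n+1) × (n+1)` block. -/
def sub1 (M : MM n) : M1 n := fun i j => M i.succ j.succ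

theorem sub1_mul (M M' : MM n) (h : ∀ i : Fin (n + 1), M i.succ 0 = 0) :
    sub1 (M * M') = sub1 M * sub1 M' := by
  ext i j
  show (M * M') i.succ j.succ = (sub1 M * sub1 M') i j
  rw [Matrix.mul_apply, Matrix.mul_apply, sum1, h, zero_mul, zero_add]
  rfl

theorem sub1_one : sub1 (1 : MM n) = 1 := by
  ext i j
  show (1 : MM n) i.succ j.succ = (1 : M1 n) i j
  rw [Matrix.one_apply, Matrix.one_apply]
  by_cases h : i = j
  · rw [if_pos h, if_pos (by rw [h])]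
  · rw [if_neg h, if_neg (fun h' => h (Fin.succ_injective _ h'))]

theorem sub1_Bm1 (B : M1 n) : sub1 (Bm1 B) = B := rfl

theorem Hm_s0 (φ : VV n) (i : Fin (n + 1)) : Hm φ 0 i.succ 0 = 0 := by
  rw [Hm_apply, if_neg (Fin.succ_ne_zero i), if_neg (Fin.succ_ne_zero i), if_neg Fin.zero_ne_one]
  simp

theorem sub1_Hm (φ : VV n) : sub1 (Hm φ 0) = 1 := by
  ext i j
  show Hm φ 0 i.succ j.succ = (1 : M1 n) i j
  rw [Hm_apply, if_neg (Fin.succ_ne_zero i), Pi.zero_apply, ite_self, add_zero, add_zero,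
    Matrix.one_apply]
  by_cases h : i = j
  · rw [if_pos h, if_pos (by rw [h])]
  · rw [if_neg h, if_neg (fun h' => h (Fin.succ_injective _ h'))]

theorem Hm_eq (φ : VV n) : Hm φ 0 = 1 + vecMulVec (e0 n) φ := by
  unfold Hm
  have : vecMulVec (0 : VV n) (e1 n) = 0 := by ext i j; simp [vecMulVec_apply]
  rw [this, add_zero]

theorem Bm1_Hm (B : M1 n) (a a' : Fin (n + 1) → ZMod 2) (h : a = a' ᵥ* B) :
    Bm1 B * Hm (phiE a) 0 = Hm (phiE a') 0 * Bm1 B := by
  rw [Hm_eq, Hm_eq, mul_add, add_mul, mul_one, one_mul, mul_vecMulVec, vecMulVec_mul]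
  have c0 : Bm1 B *ᵥ e0 n = e0 n := by
    rw [e0, mulVec_single_one]
    funext i
    show Bm1 B i 0 = (Pi.single 0 1 : VV n) i
    refine Fin.cases ?_ (fun i' => ?_) i
    · rw [Bm1_00, Pi.single_eq_same]
    · rw [Bm1_s0, Pi.single_eq_of_ne (Fin.succ_ne_zero i')]
  have r0 : phiE a' ᵥ* Bm1 B = phiE a := by
    funext j
    show ∑ i, phiE a' i * Bm1 B i j = phiE a j
    rw [sum1]
    refine Fin.cases ?_ (fun j' => ?_) j
    · rw [phiE_zero, zero_mul, zero_add, phiE_zero]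
      exact Finset.sum_eq_zero (fun k _ => by rw [Bm1_s0, mul_zero])
    · rw [phiE_zero, zero_mul, zero_add, phiE_succ, h]
      rfl
  rw [c0, r0]

/-- Elements of the centralizer are `[[1, r], [0, B]]`. -/
theorem C_decomp (c : GG n) (hc : c ∈ CC n) :
    ∃ (a : Fin (n + 1) → ZMod 2) (B B' : M1 n), B * B' = 1 ∧ B' * B = 1 ∧
      c.1 = Hm (phiE a) 0 * Bm1 B := by
  have hc' : c⁻¹ ∈ CC n := inv_mem hc
  have hcol : ∀ i : Fin (n + 1), c.1 i.succ 0 = 0 := fun i => C_col0 hc _ (Fin.succ_ne_zero i)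
  have hcol' : ∀ i : Fin (n + 1), (c⁻¹).1 i.succ 0 = 0 :=
    fun i => C_col0 hc' _ (Fin.succ_ne_zero i)
  have h1 : sub1 c.1 * sub1 (c⁻¹).1 = 1 := by
    rw [← sub1_mul _ _ hcol]
    have : c.1 * (c⁻¹).1 = 1 := congrArg Subtype.val (mul_inv_cancel c)
    rw [this, sub1_one]
  have h2 : sub1 (c⁻¹).1 * sub1 c.1 = 1 := by
    rw [← sub1_mul _ _ hcol']
    have : (c⁻¹).1 * c.1 = 1 := congrArg Subtype.val (inv_mul_cancel c)
    rw [this, sub1_one]
  have ht0 : ∀ i, (c.1 * Bm1 (sub1 (c⁻¹).1)) i 0 = c.1 i 0 := by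
    intro i
    rw [Matrix.mul_apply, sum1, Bm1_00, mul_one]
    have : ∑ k : Fin (n + 1), c.1 i k.succ * Bm1 (sub1 (c⁻¹).1) k.succ 0 = 0 :=
      Finset.sum_eq_zero (fun k _ => by rw [Bm1_s0, mul_zero])
    rw [this, add_zero]
  have hts : sub1 (c.1 * Bm1 (sub1 (c⁻¹).1)) = 1 := by
    rw [sub1_mul _ _ hcol, sub1_Bm1, h1]
  refine ⟨fun j => (c.1 * Bm1 (sub1 (c⁻¹).1)) 0 j.succ, sub1 c.1, sub1 (c⁻¹).1, h1, h2, ?_⟩
  have ht : c.1 * Bm1 (sub1 (c⁻¹).1)
      = Hm (phiE (fun j => (c.1 * Bm1 (sub1 (c⁻¹).1)) 0 j.succ)) 0 := by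
    ext i j
    rw [Hm_apply]
    refine Fin.cases ?_ (fun i' => ?_) i
    · refine Fin.cases ?_ (fun j' => ?_) j
      · rw [ht0, C_00 hc, if_pos rfl, if_pos rfl, phiE_zero, if_neg Fin.zero_ne_one, add_zero,
          add_zero]
      · rw [if_neg (Fin.succ_ne_zero j').symm, if_pos rfl, phiE_succ, Pi.zero_apply, ite_self,
          zero_add, add_zero]
    · refine Fin.cases ?_ (fun j' => ?_) j
      · rw [ht0, hcol, if_neg (Fin.succ_ne_zero i'), if_neg (Fin.succ_ne_zero i'),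
          if_neg Fin.zero_ne_one, add_zero, add_zero]
      · have := congrFun (congrFun hts i') j'
        have t : (c.1 * Bm1 (sub1 (c⁻¹).1)) i'.succ j'.succ = (1 : M1 n) i' j' := this
        rw [t, if_neg (Fin.succ_ne_zero i'), Pi.zero_apply, ite_self, add_zero, add_zero,
          Matrix.one_apply]
        by_cases h : i' = j'
        · rw [if_pos h, if_pos (by rw [h])]
        · rw [if_neg h, if_neg (fun h' => h (Fin.succ_injective _ h'))]
  rw [← ht, Matrix.mul_assoc, Bm1_mul, h2, Bm1_one, mul_one]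

theorem O2_trivial' (n : ℕ) (hn : 1 ≤ n) (N : Subgroup (SS n)) (hN : N.Normal)
    (hp : IsPGroup 2 N) : N = ⊥ := by
  rcases Nat.lt_or_ge n 2 with h | h
  · have h1 : n = 1 := by omega
    subst h1
    rw [Subgroup.eq_bot_iff_forall]
    intro x _
    apply Subtype.ext
    ext i j
    have hd := x.2
    rw [Matrix.det_unique] at hd
    rw [Subsingleton.elim i default, Subsingleton.elim j default,
      Matrix.SpecialLinearGroup.coe_one, Matrix.one_apply_eq]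
    exact hd
  · exact O2_trivial n h N hN hp

theorem pCore_eq' (hn : 1 ≤ n) :
    (Cfsg.pCore 2 ↥(CC n)).map (CC n).subtype = Q0 n := by
  have h : Cfsg.pCore 2 ↥(CC n) = (piSL n).ker := by
    apply le_antisymm
    · unfold Cfsg.pCore
      apply sSup_le
      rintro N ⟨hNn, hNp⟩
      have := O2_trivial' n hn (N.map (piSL n)) (hNn.map _ piSL_surj) (hNp.map _)
      exact (Subgroup.map_eq_bot_iff N).mp this
    · unfold Cfsg.pCore
      apply le_sSup
      exact ⟨MonoidHom.normal_ker _, ker_pgroup⟩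
  rw [h]
  rfl

theorem K0_le : (sigmaG n).range ≤ CC n := by
  rintro _ ⟨A, rfl⟩
  exact sigma_mem A

theorem K0_inf : Q0 n ⊓ (sigmaG n).range = ⊥ := by
  rw [Subgroup.eq_bot_iff_forall]
  rintro x ⟨hq, A, rfl⟩
  obtain ⟨c, hc, hcA⟩ := hq
  have hcA' : c = sigmaC n A := Subtype.ext hcA
  have hc' : piSL n (sigmaC n A) = 1 := by
    rw [← hcA']; exact MonoidHom.mem_ker.mp hc
  rw [pi_sigma] at hc'
  rw [hc', map_one]

theorem C_split (c : GG n) (hc : c ∈ CC n) :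
    ∃ q ∈ Q0 n, ∃ k ∈ (sigmaG n).range, c = q * k := by
  have hker : (⟨c, hc⟩ : ↥(CC n)) * (sigmaC n (piSL n ⟨c, hc⟩))⁻¹ ∈ (piSL n).ker := by
    rw [MonoidHom.mem_ker, map_mul, map_inv, pi_sigma, mul_inv_cancel]
  refine ⟨_, ⟨_, hker, rfl⟩, sigmaG n (piSL n ⟨c, hc⟩), ⟨_, rfl⟩, ?_⟩
  show c = c * (sigmaG n (piSL n ⟨c, hc⟩))⁻¹ * sigmaG n (piSL n ⟨c, hc⟩)
  group

/-- over `ZMod 2` the special and general linear groups coincide. -/
noncomputable def slEquivGL (n : ℕ) : SS n ≃* Matrix.GeneralLinearGroup (Fin n) (ZMod 2) :=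
  MulEquiv.ofBijective (Matrix.SpecialLinearGroup.toGL (n := Fin n) (R := ZMod 2)) (by
    constructor
    · intro A B h
      apply Subtype.ext
      have := congrArg (fun g : Matrix.GeneralLinearGroup (Fin n) (ZMod 2) =>
        (g : Matrix (Fin n) (Fin n) (ZMod 2))) h
      exact this
    · intro g
      have hu : IsUnit (g : Matrix (Fin n) (Fin n) (ZMod 2)).det :=
        (g.isUnit).map Matrix.detMonoidHom
      have hd : (g : Matrix (Fin n) (Fin n) (ZMod 2)).det = 1 := z2_ne_zero hu.ne_zero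
      refine ⟨⟨(g : Matrix (Fin n) (Fin n) (ZMod 2)), hd⟩, ?_⟩
      apply Units.ext
      rfl)

end Cfsg.Agent.Helper8.TV
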