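import Mathlib
import Cfsg.Agent.Helper8.AG1

/-!
# Coordinates on an elementary abelian 2-group and the embedding into the parabolic (helper8)
-/

set_option autoImplicit false

namespace Cfsg.Agent.Helper8.TV

open Matrix

theorem exists_coords {A : Type*} [Group A] [Finite A] (hcomm : ∀ a b : A, a * b = b * a)
    (hexp : ∀ a : A, a ^ 2 = 1) (n : ℕ)
    (hcard : Nat.card A = 2 ^ (n + 1)) (z : A) (hz : z ≠ 1) :
    ∃ θ : A ≃* Multiplicative (Fin (n + 1) → ZMod 2),
      θ z = Multiplicative.ofAdd (Pi.single 0 1) := by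
  classical
  letI cg : CommGroup A := { (inferInstance : Group A) with mul_comm := hcomm }
  letI : Module (ZMod 2) (Additive A) := AddCommGroup.zmodModule (n := 2) (fun x => by
    show Additive.ofMul (x.toMul ^ 2) = 0
    rw [hexp]; rfl)
  haveI : Fintype A := Fintype.ofFinite A
  haveI : Fintype (Additive A) := (inferInstance : Fintype A)
  have hfr : Module.finrank (ZMod 2) (Additive A) = n + 1 := by
    have h := Module.card_eq_pow_finrank (K := ZMod 2) (V := Additive A)
    rw [ZMod.card, ← Nat.card_eq_fintype_card] at h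
    have h2 : Nat.card (Additive A) = Nat.card A := rfl
    rw [h2, hcard] at h
    exact (Nat.pow_right_injective (le_refl 2) h).symm
  let b := Module.finBasisOfFinrankEq (ZMod 2) (Additive A) hfr
  let θ₀ : Additive A ≃ₗ[ZMod 2] (Fin (n + 1) → ZMod 2) := b.equivFun
  have hv : θ₀ (Additive.ofMul z) ≠ 0 := by
    intro h
    have : Additive.ofMul z = 0 := by
      have := θ₀.injective (h.trans (map_zero θ₀).symm)
      exact this
    exact hz this
  obtain ⟨i, hi⟩ : ∃ i, θ₀ (Additive.ofMul z) i ≠ 0 := by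
    by_contra hne
    push Not at hne
    exact hv (funext hne)
  have hvi : θ₀ (Additive.ofMul z) i = 1 := z2_ne_zero hi
  let w : Fin (n + 1) → ZMod 2 := θ₀ (Additive.ofMul z) + Pi.single i 1
  have hwi : w i = 0 := by
    show θ₀ (Additive.ofMul z) i + (Pi.single i 1 : Fin (n + 1) → ZMod 2) i = 0
    rw [hvi, Pi.single_eq_same]; decide
  let Sl : (Fin (n + 1) → ZMod 2) →ₗ[ZMod 2] (Fin (n + 1) → ZMod 2) :=
    LinearMap.id + (LinearMap.proj i : ((Fin (n + 1) → ZMod 2) →ₗ[ZMod 2] ZMod 2)).smulRight w
  have hSl : ∀ x, Sl x = x + x i • w := fun x => rfl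
  have hS : Function.Involutive Sl := by
    intro x
    rw [hSl, hSl]
    have e : (x + x i • w) i = x i := by
      rw [Pi.add_apply, Pi.smul_apply, hwi, smul_zero, add_zero]
    rw [e, add_assoc]
    have : x i • w + x i • w = 0 := funext fun j => z2_add_self _
    rw [this, add_zero]
  let S := LinearEquiv.ofInvolutive Sl hS
  let P := LinearEquiv.funCongrLeft (ZMod 2) (ZMod 2) (Equiv.swap (0 : Fin (n + 1)) i)
  let L : Additive A ≃ₗ[ZMod 2] (Fin (n + 1) → ZMod 2) := (θ₀.trans S).trans P
  have hL : L (Additive.ofMul z) = Pi.single 0 1 := by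
    show P (Sl (θ₀ (Additive.ofMul z))) = Pi.single 0 1
    rw [hSl, hvi, one_smul]
    have e : θ₀ (Additive.ofMul z) + w = Pi.single i 1 := by
      show θ₀ (Additive.ofMul z) + (θ₀ (Additive.ofMul z) + Pi.single i 1) = Pi.single i 1
      rw [← add_assoc]
      have : θ₀ (Additive.ofMul z) + θ₀ (Additive.ofMul z) = 0 := funext fun j => z2_add_self _
      rw [this, zero_add]
    rw [e]
    funext j
    show (Pi.single i 1 : Fin (n + 1) → ZMod 2) (Equiv.swap 0 i j) = (Pi.single 0 1 : Fin (n + 1) → ZMod 2) j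
    rw [Pi.single_apply, Pi.single_apply]
    by_cases hj : j = 0
    · rw [if_pos hj, if_pos (by rw [hj, Equiv.swap_apply_left])]
    · rw [if_neg hj, if_neg]
      intro h
      apply hj
      have := congrArg (Equiv.swap 0 i) h
      rw [Equiv.swap_apply_self, Equiv.swap_apply_right] at this
      exact this
  refine ⟨{ toFun := fun a => Multiplicative.ofAdd (L (Additive.ofMul a))
            invFun := fun x => (L.symm (Multiplicative.toAdd x)).toMul
            left_inv := fun a => by
              show (L.symm (L (Additive.ofMul a))).toMul = a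
              rw [L.symm_apply_apply]; rfl
            right_inv := fun x => by
              show Multiplicative.ofAdd (L (L.symm (Multiplicative.toAdd x))) = x
              rw [L.apply_symm_apply]; rfl
            map_mul' := fun a c => by
              show Multiplicative.ofAdd (L (Additive.ofMul a + Additive.ofMul c))
                = Multiplicative.ofAdd (L (Additive.ofMul a)) * Multiplicative.ofAdd (L (Additive.ofMul c))
              rw [map_add]; rfl }, ?_⟩
  show Multiplicative.ofAdd (L (Additive.ofMul z)) = _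
  rw [hL]

section emb

variable {G : Type*} [Group G] {n : ℕ} (U : Subgroup G) [hUn : U.Normal]
  (θ : ↥U ≃* Multiplicative (Fin (n + 1) → ZMod 2))

/-- conjugation in coordinates. -/
def Lg (g : G) : (Fin (n + 1) → ZMod 2) →+ (Fin (n + 1) → ZMod 2) where
  toFun a := Multiplicative.toAdd (θ (MulAut.conjNormal g (θ.symm (Multiplicative.ofAdd a))))
  map_zero' := by
    show Multiplicative.toAdd (θ (MulAut.conjNormal g (θ.symm 1))) = 0
    rw [map_one, map_one, map_one]; rfl
  map_add' a b := by
    show Multiplicative.toAdd (θ (MulAut.conjNormal g (θ.symm (Multiplicative.ofAdd a * Multiplicative.ofAdd b))))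
      = _
    rw [map_mul, map_mul, map_mul]; rfl

noncomputable def Amat (g : G) : M1 n :=
  LinearMap.toMatrix' (AddMonoidHom.toZModLinearMap 2 (Lg U θ g))

theorem Amat_mulVec (g : G) (a : Fin (n + 1) → ZMod 2) : Amat U θ g *ᵥ a = Lg U θ g a := by
  rw [Amat, LinearMap.toMatrix'_mulVec]; rfl

theorem Amat_theta (g : G) (u : ↥U) :
    Amat U θ g *ᵥ Multiplicative.toAdd (θ u) = Multiplicative.toAdd (θ (MulAut.conjNormal g u)) := by
  rw [Amat_mulVec]
  show Multiplicative.toAdd (θ (MulAut.conjNormal g (θ.symm (Multiplicative.ofAdd (Multiplicative.toAdd (θ u))))))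
    = _
  rw [ofAdd_toAdd, θ.symm_apply_apply]

theorem Amat_mul (g h : G) : Amat U θ (g * h) = Amat U θ g * Amat U θ h := by
  apply Matrix.mulVec_injective
  funext a
  rw [← Matrix.mulVec_mulVec, Amat_mulVec, Amat_mulVec, Amat_mulVec]
  show Multiplicative.toAdd (θ (MulAut.conjNormal (g * h) (θ.symm (Multiplicative.ofAdd a))))
    = Multiplicative.toAdd (θ (MulAut.conjNormal g (θ.symm (Multiplicative.ofAdd
      (Multiplicative.toAdd (θ (MulAut.conjNormal h (θ.symm (Multiplicative.ofAdd a)))))))))
  rw [ofAdd_toAdd, θ.symm_apply_apply, map_mul]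
  rfl

theorem Amat_one : Amat U θ (1 : G) = 1 := by
  apply Matrix.mulVec_injective
  funext a
  rw [Amat_mulVec, Matrix.one_mulVec]
  show Multiplicative.toAdd (θ (MulAut.conjNormal (1 : G) (θ.symm (Multiplicative.ofAdd a)))) = a
  rw [map_one, MulAut.one_apply, θ.apply_symm_apply]
  rfl

noncomputable def Bhom : G →* M1 n where
  toFun g := (Amat U θ g⁻¹)ᵀ
  map_one' := by rw [inv_one, Amat_one, Matrix.transpose_one]
  map_mul' g h := by rw [_root_.mul_inv_rev, Amat_mul, Matrix.transpose_mul]

theorem Bhom_apply (g : G) : Bhom U θ g = (Amat U θ g⁻¹)ᵀ := rfl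

noncomputable def Dm : G →* MM n := (Bm1Hom n).comp (Bhom U θ)

theorem Dm_apply (g : G) : Dm U θ g = Bm1 (Bhom U θ g) := rfl

theorem Dm_det (g : G) : (Dm U θ g).det = 1 := by
  have h : Dm U θ g * Dm U θ g⁻¹ = 1 := by rw [← map_mul, mul_inv_cancel, map_one]
  have hd := congrArg Matrix.det h
  rw [Matrix.det_mul, Matrix.det_one] at hd
  apply z2_ne_zero
  intro h0
  rw [h0, zero_mul] at hd
  exact zero_ne_one hd

noncomputable def Dhom : G →* GG n where
  toFun g := ⟨Dm U θ g, Dm_det U θ g⟩
  map_one' := Subtype.ext (map_one (Dm U θ))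
  map_mul' g h := Subtype.ext (map_mul (Dm U θ) g h)

theorem Dhom_val (g : G) : (Dhom U θ g).1 = Bm1 (Bhom U θ g) := rfl

noncomputable def Thom : ↥U →* GG n := (etaE n).comp θ.toMonoidHom

theorem Thom_val (u : ↥U) : (Thom U θ u).1 = Hm (phiE (Multiplicative.toAdd (θ u))) 0 := rfl

theorem compat (g : G) (u : ↥U) :
    Dhom U θ g * Thom U θ u = Thom U θ (MulAut.conjNormal g u) * Dhom U θ g := by
  apply Subtype.ext
  show Bm1 (Bhom U θ g) * Hm (phiE (Multiplicative.toAdd (θ u))) 0
    = Hm (phiE (Multiplicative.toAdd (θ (MulAut.conjNormal g u)))) 0 * Bm1 (Bhom U θ g)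
  apply Bm1_Hm
  rw [Bhom_apply, Matrix.vecMul_transpose, ← Amat_theta, Matrix.mulVec_mulVec, ← Amat_mul,
    inv_mul_cancel, Amat_one, Matrix.one_mulVec]

end emb

end Cfsg.Agent.Helper8.TV
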