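import Mathlib
import Cfsg.Agent.Helper8.AG2

/-!
# The embedding `Psi : G →* SL (n+2) 2` of `U ⋊ Aut U` (helper8)
-/

set_option autoImplicit false

namespace Cfsg.Agent.Helper8.TV

open Matrix

section psi

variable {G : Type*} [Group G] {n : ℕ} (U M : Subgroup G) [hUn : U.Normal]
  (θ : ↥U ≃* Multiplicative (Fin (n + 1) → ZMod 2)) (hc : U.IsComplement' M)

noncomputable def Psi : G →* GG n :=
  (SemidirectProduct.lift (Thom U θ) ((Dhom U θ).comp M.subtype) (fun m => by
    refine MonoidHom.ext (fun u => ?_)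
    show Thom U θ ((((U.normalizerMonoidHom).comp (Subgroup.inclusion
      (U.normalizer_eq_top ▸ le_top : M ≤ Subgroup.normalizer (U : Set G)))) m) u)
      = Dhom U θ (m : G) * Thom U θ u * (Dhom U θ (m : G))⁻¹
    have e : (((U.normalizerMonoidHom).comp (Subgroup.inclusion
      (U.normalizer_eq_top ▸ le_top : M ≤ Subgroup.normalizer (U : Set G)))) m) u
        = MulAut.conjNormal (m : G) u := Subtype.ext rfl
    rw [e, eq_mul_inv_iff_mul_eq]
    exact (compat U θ (m : G) u).symm)).comp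
      (SemidirectProduct.mulEquivSubgroup hc).symm.toMonoidHom

theorem Psi_mul (u : ↥U) (m : ↥M) :
    Psi U M θ hc ((u : G) * m) = Thom U θ u * Dhom U θ m := by
  have e : (SemidirectProduct.mulEquivSubgroup hc).symm ((u : G) * m) = ⟨u, m⟩ := by
    rw [MulEquiv.symm_apply_eq]; rfl
  unfold Psi
  rw [MonoidHom.comp_apply, MulEquiv.coe_toMonoidHom, e]
  rfl

include hc in
theorem exists_decomp (g : G) : ∃ (u : ↥U) (m : ↥M), g = (u : G) * m :=
  ⟨((SemidirectProduct.mulEquivSubgroup hc).symm g).left,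
    ((SemidirectProduct.mulEquivSubgroup hc).symm g).right,
    ((SemidirectProduct.mulEquivSubgroup hc).apply_symm_apply g).symm⟩

theorem Psi_U (u : ↥U) : Psi U M θ hc (u : G) = Thom U θ u := by
  have := Psi_mul U M θ hc u 1
  rw [OneMemClass.coe_one, mul_one, map_one, mul_one] at this
  exact this

theorem Psi_U_mem (u : ↥U) : Psi U M θ hc (u : G) ∈ Q0 n := by
  rw [Psi_U]
  exact E_facts.1 ⟨θ u, rfl⟩

theorem phiE_single : phiE (Pi.single 0 1 : Fin (n + 1) → ZMod 2) = e1 n := by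
  funext j
  refine Fin.cases ?_ (fun j' => ?_) j
  · rw [phiE_zero, e1_zero]
  · rw [phiE_succ]
    show (Pi.single 0 1 : Fin (n + 1) → ZMod 2) j' = (Pi.single 1 1 : VV n) j'.succ
    rw [Pi.single_apply, Pi.single_apply]
    by_cases h : j' = 0
    · rw [if_pos h, if_pos (by rw [h]; rfl)]
    · rw [if_neg h, if_neg (fun h' : j'.succ = (1 : Fin (n + 2)) => h (Fin.succ_injective _ h'))]

theorem Psi_z (zU : ↥U) (hθ : θ zU = Multiplicative.ofAdd (Pi.single 0 1)) :
    Psi U M θ hc (zU : G) = zz n := by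
  rw [Psi_U]
  apply Subtype.ext
  show Hm (phiE (Multiplicative.toAdd (θ zU))) 0 = Hm (e1 n) 0
  rw [hθ, toAdd_ofAdd, phiE_single]

theorem Psi_inj (hfaith : ∀ m ∈ M, (∀ u ∈ U, m * u * m⁻¹ = u) → m = 1) :
    Function.Injective (Psi U M θ hc) := by
  rw [injective_iff_map_eq_one]
  intro g hg
  obtain ⟨u, m, rfl⟩ := exists_decomp U M hc g
  rw [Psi_mul] at hg
  have hmat : Hm (phiE (Multiplicative.toAdd (θ u))) 0 * Bm1 (Bhom U θ (m : G)) = 1 :=
    congrArg Subtype.val hg
  have hB : Bhom U θ (m : G) = 1 := by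
    have := congrArg sub1 hmat
    rw [sub1_mul _ _ (Hm_s0 _), sub1_Hm, sub1_Bm1, one_mul, sub1_one] at this
    exact this
  have hm : (m : G) = 1 := by
    have hA : Amat U θ (m : G)⁻¹ = 1 := by
      rw [Bhom_apply] at hB
      exact Matrix.transpose_eq_one.mp hB
    have hm' : (m : G)⁻¹ = 1 := by
      apply hfaith _ (inv_mem m.2)
      intro x hx
      have := Amat_theta U θ (m : G)⁻¹ ⟨x, hx⟩
      rw [hA, Matrix.one_mulVec] at this
      have h2 : θ ⟨x, hx⟩ = θ (MulAut.conjNormal (m : G)⁻¹ ⟨x, hx⟩) :=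
        Multiplicative.toAdd.injective this
      have h3 := θ.injective h2
      have h4 := congrArg Subtype.val h3
      rw [MulAut.conjNormal_apply] at h4
      exact h4.symm
    exact inv_eq_one.mp hm'
  rw [hB, Bm1_one, mul_one] at hmat
  have hu : u = 1 := by
    have h1 : Thom U θ u = 1 := Subtype.ext hmat
    have h2 : etaE n (θ u) = etaE n 1 := by rw [map_one]; exact h1
    have h3 := etaE_inj h2
    exact θ.injective (h3.trans (map_one θ).symm)
  rw [hu, hm, OneMemClass.coe_one, mul_one]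

theorem Psi_surj
    (hfull : ∀ φ : ↥U ≃* ↥U, ∃ m ∈ M, ∀ u : ↥U, ((φ u : ↥U) : G) = m * u * m⁻¹) :
    ∀ c ∈ CC n, ∃ g, Psi U M θ hc g = c := by
  intro c hcC
  obtain ⟨a, B, B', hBB', hB'B, hcm⟩ := C_decomp c hcC
  let φB : ↥U ≃* ↥U :=
    { toFun := fun u => θ.symm (Multiplicative.ofAdd (Bᵀ *ᵥ Multiplicative.toAdd (θ u)))
      invFun := fun u => θ.symm (Multiplicative.ofAdd (B'ᵀ *ᵥ Multiplicative.toAdd (θ u)))
      left_inv := fun u => by
        show θ.symm (Multiplicative.ofAdd (B'ᵀ *ᵥ Multiplicative.toAdd (θ (θ.symm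
          (Multiplicative.ofAdd (Bᵀ *ᵥ Multiplicative.toAdd (θ u))))))) = u
        rw [θ.apply_symm_apply, toAdd_ofAdd, Matrix.mulVec_mulVec, ← Matrix.transpose_mul, hBB',
          Matrix.transpose_one, Matrix.one_mulVec, ofAdd_toAdd, θ.symm_apply_apply]
      right_inv := fun u => by
        show θ.symm (Multiplicative.ofAdd (Bᵀ *ᵥ Multiplicative.toAdd (θ (θ.symm
          (Multiplicative.ofAdd (B'ᵀ *ᵥ Multiplicative.toAdd (θ u))))))) = u
        rw [θ.apply_symm_apply, toAdd_ofAdd, Matrix.mulVec_mulVec, ← Matrix.transpose_mul, hB'B,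
          Matrix.transpose_one, Matrix.one_mulVec, ofAdd_toAdd, θ.symm_apply_apply]
      map_mul' := fun u u' => by
        show θ.symm (Multiplicative.ofAdd (Bᵀ *ᵥ Multiplicative.toAdd (θ (u * u'))))
          = θ.symm (Multiplicative.ofAdd (Bᵀ *ᵥ Multiplicative.toAdd (θ u)))
            * θ.symm (Multiplicative.ofAdd (Bᵀ *ᵥ Multiplicative.toAdd (θ u')))
        rw [map_mul, toAdd_mul, Matrix.mulVec_add, ofAdd_add, map_mul] }
  obtain ⟨m', hm'M, hm'⟩ := hfull φB
  have hA : Amat U θ m' = Bᵀ := by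
    apply Matrix.mulVec_injective
    funext a'
    rw [Amat_mulVec]
    show Multiplicative.toAdd (θ (MulAut.conjNormal m' (θ.symm (Multiplicative.ofAdd a'))))
      = Bᵀ *ᵥ a'
    have e : MulAut.conjNormal m' (θ.symm (Multiplicative.ofAdd a'))
        = φB (θ.symm (Multiplicative.ofAdd a')) := by
      apply Subtype.ext
      rw [MulAut.conjNormal_apply]
      exact (hm' _).symm
    rw [e]
    show Multiplicative.toAdd (θ (θ.symm (Multiplicative.ofAdd (Bᵀ *ᵥ Multiplicative.toAdd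
      (θ (θ.symm (Multiplicative.ofAdd a'))))))) = _
    rw [θ.apply_symm_apply, θ.apply_symm_apply, toAdd_ofAdd, toAdd_ofAdd]
  refine ⟨((θ.symm (Multiplicative.ofAdd a) : ↥U) : G) * ((⟨m'⁻¹, inv_mem hm'M⟩ : ↥M) : G), ?_⟩
  rw [Psi_mul]
  apply Subtype.ext
  show Hm (phiE (Multiplicative.toAdd (θ (θ.symm (Multiplicative.ofAdd a))))) 0
    * Bm1 (Bhom U θ (m'⁻¹)) = c.1
  rw [θ.apply_symm_apply, toAdd_ofAdd, Bhom_apply, inv_inv, hA, Matrix.transpose_transpose, hcm]

end psi

end Cfsg.Agent.Helper8.TV
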