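import Mathlib
import Cfsg.Prelude.Def_MonsterType
import Cfsg.Agent.Helper8.AG3
import Cfsg.Agent.S5421

/-!
# Transfer of the transvection-centralizer structure along an embedding (helper8)
-/

set_option autoImplicit false

namespace Cfsg.Agent.Helper8.TV

open Matrix

section transfer

variable {G : Type*} [Group G] {n : ℕ}

/-- preimage of `Q0`. -/
def QG (Ψ : G →* GG n) : Subgroup G := (Q0 n).comap Ψ

/-- preimage of the complement. -/
def KG (Ψ : G →* GG n) : Subgroup G := (sigmaG n).range.comap Ψ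

theorem dataG (Ψ : G →* GG n) (hinj : Function.Injective Ψ) (z : G) (hz : Ψ z = zz n)
    (hsurj : ∀ c ∈ CC n, ∃ g, Ψ g = c) : Cfsg.Agent.Helper14.XS.Data (QG Ψ) z := by
  obtain ⟨hzQ, hz1, hzz, hcen, hcomm, hsqr, hrad⟩ := data_Q0 (n := n)
  refine ⟨?_, ?_, ?_, ?_, ?_, ?_, ?_⟩
  · show Ψ z ∈ Q0 n
    rw [hz]; exact hzQ
  · intro h; apply hz1; rw [← hz, h, map_one]
  · apply hinj; rw [map_mul, hz, map_one]; exact hzz
  · intro x hx; apply hinj; rw [map_mul, map_mul, hz]; exact hcen _ hx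
  · intro a ha x hx
    rcases hcomm _ ha _ hx with h | h
    · left; apply hinj; rw [map_mul, map_mul, map_mul, map_inv, map_inv, map_one]; exact h
    · right; apply hinj; rw [map_mul, map_mul, map_mul, map_inv, map_inv, hz]; exact h
  · intro x hx
    rcases hsqr _ hx with h | h
    · left; apply hinj; rw [map_mul, map_one]; exact h
    · right; apply hinj; rw [map_mul, hz]; exact h
  · intro w hw hall
    have : Ψ w = 1 ∨ Ψ w = zz n := by
      apply hrad _ hw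
      intro y hy
      obtain ⟨x, rfl⟩ := hsurj y (Q0_le_C hy)
      rw [← map_mul, ← map_mul, hall x hy]
    rcases this with h | h
    · left; apply hinj; rw [h, map_one]
    · right; apply hinj; rw [h, hz]

theorem nonabG (hn : 1 ≤ n) (Ψ : G →* GG n)
    (hsurj : ∀ c ∈ CC n, ∃ g, Ψ g = c) : ∃ a ∈ QG Ψ, ∃ x ∈ QG Ψ, a * x ≠ x * a := by
  obtain ⟨a, ha, x, hx, hax⟩ := nonab_Q0 hn
  obtain ⟨a', rfl⟩ := hsurj a (Q0_le_C ha)
  obtain ⟨x', rfl⟩ := hsurj x (Q0_le_C hx)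
  refine ⟨a', ha, x', hx, fun h => hax ?_⟩
  rw [← map_mul, ← map_mul, h]

theorem cardG (Ψ : G →* GG n) (hinj : Function.Injective Ψ)
    (hsurj : ∀ c ∈ CC n, ∃ g, Ψ g = c) : Nat.card ↥(QG Ψ) = 2 ^ (2 * n + 1) := by
  rw [← card_Q0 (n := n)]
  apply Nat.card_eq_of_bijective (fun x : ↥(QG Ψ) => (⟨Ψ x.1, x.2⟩ : ↥(Q0 n)))
  constructor
  · intro x y h
    apply Subtype.ext
    apply hinj
    exact congrArg Subtype.val h
  · rintro ⟨y, hy⟩
    obtain ⟨x, rfl⟩ := hsurj y (Q0_le_C hy)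
    exact ⟨⟨x, hy⟩, rfl⟩

theorem memCG (Ψ : G →* GG n) (hinj : Function.Injective Ψ) (z : G) (hz : Ψ z = zz n)
    (Z : Subgroup G) (hZ : ∀ x, x ∈ Z ↔ x = 1 ∨ x = z) (g : G) :
    g ∈ Subgroup.centralizer (Z : Set G) ↔ Ψ g ∈ CC n := by
  rw [Subgroup.mem_centralizer_iff, Subgroup.mem_centralizer_singleton_iff]
  constructor
  · intro h
    have := h z ((hZ z).mpr (Or.inr rfl))
    rw [← hz, ← map_mul, ← map_mul, this]
  · intro h x hx
    rcases (hZ x).mp hx with h1 | h1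
    · rw [h1, one_mul, mul_one]
    · rw [h1]; apply hinj; rw [map_mul, map_mul, hz]; exact h.symm

theorem QG_le (Ψ : G →* GG n) (hinj : Function.Injective Ψ) (z : G) (hz : Ψ z = zz n)
    (Z : Subgroup G) (hZ : ∀ x, x ∈ Z ↔ x = 1 ∨ x = z) :
    QG Ψ ≤ Subgroup.centralizer (Z : Set G) :=
  fun x hx => (memCG Ψ hinj z hz Z hZ x).mpr (Q0_le_C hx)

theorem pCoreG (hn : 1 ≤ n) (Ψ : G →* GG n) (hinj : Function.Injective Ψ) (z : G)
    (hz : Ψ z = zz n) (hsurj : ∀ c ∈ CC n, ∃ g, Ψ g = c)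
    (Z : Subgroup G) (hZ : ∀ x, x ∈ Z ↔ x = 1 ∨ x = z) :
    (Cfsg.pCore 2 ↥(Subgroup.centralizer (Z : Set G))).map
      (Subgroup.centralizer (Z : Set G)).subtype = QG Ψ := by
  have hQC := QG_le Ψ hinj z hz Z hZ
  have h : Cfsg.pCore 2 ↥(Subgroup.centralizer (Z : Set G))
      = (QG Ψ).subgroupOf (Subgroup.centralizer (Z : Set G)) := by
    apply le_antisymm
    · unfold Cfsg.pCore
      apply sSup_le
      rintro N ⟨hNn, hNp⟩
      let ΨC : ↥(Subgroup.centralizer (Z : Set G)) →* ↥(CC n) :=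
        (Ψ.comp (Subgroup.centralizer (Z : Set G)).subtype).codRestrict (CC n)
          (fun x => (memCG Ψ hinj z hz Z hZ x.1).mp x.2)
      have hΨCs : Function.Surjective ΨC := by
        rintro ⟨c, hc⟩
        obtain ⟨g, rfl⟩ := hsurj c hc
        exact ⟨⟨g, (memCG Ψ hinj z hz Z hZ g).mpr hc⟩, rfl⟩
      have h1 : N.map ΨC ≤ Cfsg.pCore 2 ↥(CC n) := by
        unfold Cfsg.pCore
        exact le_sSup ⟨hNn.map _ hΨCs, hNp.map _⟩
      intro x hx
      have h2 : ΨC x ∈ Cfsg.pCore 2 ↥(CC n) := h1 ⟨x, hx, rfl⟩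
      have h3 : ((ΨC x : ↥(CC n)) : GG n) ∈ (Cfsg.pCore 2 ↥(CC n)).map (CC n).subtype :=
        ⟨_, h2, rfl⟩
      rw [pCore_eq' hn] at h3
      exact h3
    · unfold Cfsg.pCore
      apply le_sSup
      refine ⟨⟨?_⟩, ?_⟩
      · intro q hq c
        show Ψ ((c * q * c⁻¹ : ↥(Subgroup.centralizer (Z : Set G))) : G) ∈ Q0 n
        have hcn := norm_Q0 (Ψ (c : G)) ((memCG Ψ hinj z hz Z hZ c.1).mp c.2)
        have hq' : Ψ (q : G) ∈ Q0 n := hq
        have := (Subgroup.mem_normalizer_iff.mp hcn (Ψ (q : G))).mp hq'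
        have e : Ψ ((c * q * c⁻¹ : ↥(Subgroup.centralizer (Z : Set G))) : G)
            = Ψ (c : G) * Ψ (q : G) * (Ψ (c : G))⁻¹ := by
          rw [← map_inv, ← map_mul, ← map_mul]; rfl
        rw [e]; exact this
      · intro x
        refine ⟨2, ?_⟩
        obtain ⟨-, -, hzz, -, -, hsqr, -⟩ := dataG Ψ hinj z hz hsurj
        have hxQ : (x.1.1 : G) ∈ QG Ψ := x.2
        have h4 : (x.1.1 : G) ^ (2 ^ 2) = 1 := by
          have e : (x.1.1 : G) ^ (2 ^ 2) = (x.1.1 * x.1.1) * (x.1.1 * x.1.1) := by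
            show (x.1.1 : G) ^ 4 = _
            rw [pow_succ, pow_succ, pow_succ, pow_one]; group
          rw [e]
          rcases hsqr _ hxQ with h | h
          · rw [h, one_mul]
          · rw [h]; exact hzz
        apply Subtype.ext
        apply Subtype.ext
        exact_mod_cast h4
  rw [h]
  exact Subgroup.map_subgroupOf_eq_of_le hQC

theorem memZmG (Ψ : G →* GG n) (hinj : Function.Injective Ψ) (z : G) (hz : Ψ z = zz n)
    (hsurj : ∀ c ∈ CC n, ∃ g, Ψ g = c) (x : G) :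
    x ∈ (Subgroup.center ↥(QG Ψ)).map (QG Ψ).subtype ↔ x = 1 ∨ x = z := by
  obtain ⟨hzQ, hz1, hzz, hcen, hcomm, hsqr, hrad⟩ := dataG Ψ hinj z hz hsurj
  constructor
  · rintro ⟨c, hc, rfl⟩
    apply hrad c.1 c.2
    intro y hy
    have := (Subgroup.mem_center_iff.mp hc) ⟨y, hy⟩
    exact congrArg Subtype.val this
  · rintro (h | h)
    · rw [h]; exact Subgroup.one_mem _
    · rw [h]
      refine ⟨⟨z, hzQ⟩, Subgroup.mem_center_iff.mpr ?_, rfl⟩
      intro g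
      apply Subtype.ext
      exact hcen g.1 g.2

theorem largeG [Finite G] (hn : 1 ≤ n) (Ψ : G →* GG n) (hinj : Function.Injective Ψ) (z : G)
    (hz : Ψ z = zz n) (hsurj : ∀ c ∈ CC n, ∃ g, Ψ g = c)
    (U : Subgroup G) [U.Normal] (hU : Cfsg.IsElementaryAbelian 2 U)
    (hUcard : Nat.card ↥U = 2 ^ (n + 1)) (hUQ : ∀ u ∈ U, Ψ u ∈ Q0 n) (hzU : z ∈ U) :
    Cfsg.IsLargeExtraspecial (QG Ψ) := by
  have d := dataG Ψ hinj z hz hsurj
  obtain ⟨hzQ, hz1, hzz, hcen, hcomm, hsqr, hrad⟩ := d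
  have hmZ := memZmG Ψ hinj z hz hsurj
  have hL1 : Cfsg.IsExtraspecial 2 ↥(QG Ψ) :=
    Cfsg.Agent.Helper14.XS.to_extraspecial (QG Ψ) z (dataG Ψ hinj z hz hsurj) (nonabG hn Ψ hsurj)
  have hL2 : Subgroup.centralizer ((QG Ψ : Subgroup G) : Set G)
      = (Subgroup.center ↥(QG Ψ)).map (QG Ψ).subtype := by
    ext g
    rw [hmZ, Subgroup.mem_centralizer_iff]
    constructor
    · intro hg
      have : Ψ g ∈ Subgroup.centralizer ((Q0 n : Subgroup (GG n)) : Set (GG n)) := by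
        rw [Subgroup.mem_centralizer_iff]
        intro y hy
        obtain ⟨x, rfl⟩ := hsurj y (Q0_le_C hy)
        rw [← map_mul, ← map_mul, hg x hy]
      rw [cent_Q0, memZm] at this
      rcases this with h | h
      · left; apply hinj; rw [h, map_one]
      · right; apply hinj; rw [h, hz]
    · rintro (h | h)
      · intro y _; rw [h, mul_one, one_mul]
      · intro y hy; rw [h]; exact hcen y hy
  have hL3 : Subgroup.centralizer ((((Subgroup.center ↥(QG Ψ)).map (QG Ψ).subtype :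
      Subgroup G)) : Set G) ≤ Subgroup.normalizer ((QG Ψ : Subgroup G) : Set G) := by
    intro x hx
    have hxz : z * x = x * z := Subgroup.mem_centralizer_iff.mp hx z ((hmZ z).mpr (Or.inr rfl))
    have hΨ : Ψ x ∈ CC n := by
      rw [Subgroup.mem_centralizer_singleton_iff, ← hz, ← map_mul, ← map_mul, hxz]
    have hn' := norm_Q0 _ hΨ
    rw [Subgroup.mem_normalizer_iff] at hn' ⊢
    intro h
    have := hn' (Ψ h)
    show Ψ h ∈ Q0 n ↔ Ψ (x * h * x⁻¹) ∈ Q0 n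
    rw [map_mul, map_mul, map_inv]
    exact this
  haveI : Fact (Nat.Prime 2) := ⟨Nat.prime_two⟩
  have hoz : orderOf z = 2 := orderOf_eq_prime (by rw [pow_two]; exact hzz) hz1
  obtain ⟨b, hbU, hb1, hbz⟩ : ∃ b ∈ U, b ≠ 1 ∧ b ≠ z := by
    by_contra hcon
    have hle : U ≤ Subgroup.zpowers z := by
      intro b hb
      by_cases h1 : b = 1
      · rw [h1]; exact one_mem _
      · by_cases h2 : b = z
        · rw [h2]; exact Subgroup.mem_zpowers z
        · exact absurd ⟨b, hb, h1, h2⟩ hcon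
    have h1 := Subgroup.card_le_of_le hle
    rw [Nat.card_zpowers, hoz, hUcard] at h1
    have : 4 ≤ 2 ^ (n + 1) := by
      calc 4 = 2 ^ 2 := by norm_num
        _ ≤ 2 ^ (n + 1) := Nat.pow_le_pow_right (by norm_num) (by omega)
    omega
  have hbQ : b ∈ QG Ψ := hUQ b hbU
  have hbZ : b ∉ (Subgroup.center ↥(QG Ψ)).map (QG Ψ).subtype := by
    intro h
    rcases (hmZ b).mp h with h | h
    · exact hb1 h
    · exact hbz h
  have hb : orderOf b = 2 := orderOf_eq_prime (hU.2 b hbU) hb1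
  have hUC : U ≤ Subgroup.centralizer ({b} : Set G) := by
    intro u hu
    rw [Subgroup.mem_centralizer_singleton_iff]
    have := hU.1.is_comm.comm (⟨u, hu⟩ : ↥U) ⟨b, hbU⟩
    exact congrArg Subtype.val this
  have hN : U.subgroupOf (Subgroup.centralizer ({b} : Set G))
      ≤ Cfsg.pCore 2 ↥(Subgroup.centralizer ({b} : Set G)) := by
    unfold Cfsg.pCore
    apply le_sSup
    refine ⟨inferInstance, ?_⟩
    intro y
    refine ⟨1, ?_⟩
    rw [pow_one]
    have h2 : (y.1.1 : G) ^ 2 = 1 := hU.2 (y.1.1 : G) y.2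
    apply Subtype.ext
    apply Subtype.ext
    exact_mod_cast h2
  have hZ' : (Subgroup.center ↥(QG Ψ)).map (QG Ψ).subtype
      ≤ (Cfsg.pCore 2 ↥(Subgroup.centralizer ({b} : Set G))).map
        (Subgroup.centralizer ({b} : Set G)).subtype := by
    intro x hx
    have hxU : x ∈ U := by
      rcases (hmZ x).mp hx with h | h
      · rw [h]; exact one_mem _
      · rw [h]; exact hzU
    have hx' : (⟨x, hUC hxU⟩ : ↥(Subgroup.centralizer ({b} : Set G)))
        ∈ U.subgroupOf (Subgroup.centralizer ({b} : Set G)) := hxU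
    exact ⟨⟨x, hUC hxU⟩, hN hx', rfl⟩
  exact Cfsg.Agent.S5421.result (QG Ψ) hL1 hL2 hL3 b hbQ hbZ hb hZ'

theorem complG (Ψ : G →* GG n) (hinj : Function.Injective Ψ) (z : G)
    (hz : Ψ z = zz n) (hsurj : ∀ c ∈ CC n, ∃ g, Ψ g = c)
    (Z : Subgroup G) (hZ : ∀ x, x ∈ Z ↔ x = 1 ∨ x = z) :
    ∃ K : Subgroup G, K ≤ Subgroup.centralizer (Z : Set G) ∧ QG Ψ ⊓ K = ⊥ ∧
      QG Ψ ⊔ K = Subgroup.centralizer (Z : Set G) ∧
      Nonempty (↥K ≃* Matrix.GeneralLinearGroup (Fin n) (ZMod 2)) := by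
  have hQC := QG_le Ψ hinj z hz Z hZ
  have hKC : KG Ψ ≤ Subgroup.centralizer (Z : Set G) :=
    fun k hk => (memCG Ψ hinj z hz Z hZ k).mpr (K0_le hk)
  refine ⟨KG Ψ, hKC, ?_, ?_, ?_⟩
  · rw [Subgroup.eq_bot_iff_forall]
    rintro x ⟨hq, hk⟩
    have : Ψ x ∈ Q0 n ⊓ (sigmaG n).range := ⟨hq, hk⟩
    rw [K0_inf, Subgroup.mem_bot] at this
    apply hinj
    rw [this, map_one]
  · apply le_antisymm (sup_le hQC hKC)
    intro c hc
    obtain ⟨q, hq, k, hk, e⟩ := C_split (Ψ c) ((memCG Ψ hinj z hz Z hZ c).mp hc)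
    obtain ⟨q', rfl⟩ := hsurj q (Q0_le_C hq)
    obtain ⟨k', rfl⟩ := hsurj k (K0_le hk)
    have : c = q' * k' := hinj (by rw [e, map_mul])
    rw [this]
    exact Subgroup.mul_mem_sup hq hk
  · have hmap : (KG Ψ).map Ψ = (sigmaG n).range := by
      apply Subgroup.map_comap_eq_self
      intro y hy
      obtain ⟨g, hg⟩ := hsurj y (K0_le hy)
      exact ⟨g, hg⟩
    exact ⟨(((KG Ψ).equivMapOfInjective Ψ hinj).trans (MulEquiv.subgroupCongr hmap)).trans
      ((MonoidHom.ofInjective sigma_inj).symm.trans (slEquivGL n))⟩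

end transfer

theorem mainG {G : Type*} [Group G] [Finite G] (n : ℕ) (hn : 1 ≤ n) (U M : Subgroup G)
    [U.Normal] (hU : Cfsg.IsElementaryAbelian 2 U) (hUcard : Nat.card ↥U = 2 ^ (n + 1))
    (hUM : U ⊓ M = ⊥) (hUM' : U ⊔ M = ⊤)
    (hfaith : ∀ m ∈ M, (∀ u ∈ U, m * u * m⁻¹ = u) → m = 1)
    (hfull : ∀ φ : ↥U ≃* ↥U, ∃ m ∈ M, ∀ u : ↥U, ((φ u : ↥U) : G) = m * u * m⁻¹)
    (Z : Subgroup G) (hZU : Z ≤ U) (hZ : Nat.card ↥Z = 2) (Q : Subgroup G)
    (hQ : Q = (Cfsg.pCore 2 ↥(Subgroup.centralizer (Z : Set G))).map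
      (Subgroup.centralizer (Z : Set G)).subtype) :
    Cfsg.IsExtraspecial 2 ↥Q ∧ Nat.card ↥Q = 2 ^ (2 * n + 1) ∧
    (∃ E : Subgroup G, E ≤ Q ∧ Cfsg.IsElementaryAbelian 2 E ∧ Nat.card ↥E = 2 ^ (n + 1)) ∧
    Cfsg.IsLargeExtraspecial Q ∧
    ∃ K : Subgroup G, K ≤ Subgroup.centralizer (Z : Set G) ∧ Q ⊓ K = ⊥ ∧
      Q ⊔ K = Subgroup.centralizer (Z : Set G) ∧
      Nonempty (↥K ≃* Matrix.GeneralLinearGroup (Fin n) (ZMod 2)) := by
  obtain ⟨zc, hzc1, hzcu⟩ := (Nat.card_eq_two_iff' (1 : ↥Z)).mp hZ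
  have hz1 : (zc : G) ≠ 1 := fun h => hzc1 (Subtype.ext h)
  have hZmem : ∀ x, x ∈ Z ↔ x = 1 ∨ x = (zc : G) := by
    intro x
    constructor
    · intro hx
      by_cases h1 : x = 1
      · exact Or.inl h1
      · right
        have := hzcu ⟨x, hx⟩ (fun h => h1 (congrArg Subtype.val h))
        exact congrArg Subtype.val this
    · rintro (h | h)
      · rw [h]; exact one_mem _
      · rw [h]; exact zc.2
  have hzU : (zc : G) ∈ U := hZU zc.2
  have hc : U.IsComplement' M :=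
    Subgroup.isComplement'_of_disjoint_and_mul_eq_univ (disjoint_iff.mpr hUM)
      (by rw [← Subgroup.normal_mul, hUM', Subgroup.coe_top])
  obtain ⟨θ, hθ⟩ := exists_coords (A := ↥U) (fun a b => hU.1.is_comm.comm a b)
    (fun a => Subtype.ext (by rw [Subgroup.coe_pow]; exact hU.2 a.1 a.2)) n hUcard
    ⟨(zc : G), hzU⟩ (fun h => hz1 (congrArg Subtype.val h))
  have hinj := Psi_inj U M θ hc hfaith
  have hzΨ : Psi U M θ hc (zc : G) = zz n := Psi_z U M θ hc ⟨(zc : G), hzU⟩ hθ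
  have hsurj := Psi_surj U M θ hc hfull
  have hUQ : ∀ u ∈ U, Psi U M θ hc u ∈ Q0 n := fun u hu => Psi_U_mem U M θ hc ⟨u, hu⟩
  rw [pCoreG hn (Psi U M θ hc) hinj (zc : G) hzΨ hsurj Z hZmem] at hQ
  subst hQ
  exact ⟨Cfsg.Agent.Helper14.XS.to_extraspecial _ (zc : G)
      (dataG (Psi U M θ hc) hinj (zc : G) hzΨ hsurj) (nonabG hn (Psi U M θ hc) hsurj),
    cardG (Psi U M θ hc) hinj hsurj, ⟨U, hUQ, hU, hUcard⟩,
    largeG hn (Psi U M θ hc) hinj (zc : G) hzΨ hsurj U hU hUcard hUQ hzU,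
    complG (Psi U M θ hc) hinj (zc : G) hzΨ hsurj Z hZmem⟩

end Cfsg.Agent.Helper8.TV
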