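import Mathlib
import Cfsg.Agent.Helper8.FrobContra

set_option autoImplicit false

namespace Cfsg.Agent.Helper8

universe u

/-- Every element has prime power order (or is trivial). -/
def EPPO (G : Type*) [Group G] : Prop := ∀ g : G, IsPrimePow (orderOf g) ∨ g = 1

theorem EPPO.quotient {G : Type*} [Group G] (h : EPPO G) (N : Subgroup G) [N.Normal] :
    EPPO (G ⧸ N) := by
  intro x
  obtain ⟨g, rfl⟩ := QuotientGroup.mk_surjective x
  rcases h g with hg | hg
  · have hdvd : orderOf (g : G ⧸ N) ∣ orderOf g := by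
      apply orderOf_dvd_of_pow_eq_one
      rw [← QuotientGroup.mk_pow, pow_orderOf_eq_one]; rfl
    obtain ⟨p, k, hp, hk, hpk⟩ := (isPrimePow_nat_iff _).mp hg
    rw [← hpk] at hdvd
    obtain ⟨j, hj, hj2⟩ := (Nat.dvd_prime_pow hp).mp hdvd
    rcases Nat.eq_zero_or_pos j with rfl | hjpos
    · right; rw [pow_zero] at hj2; exact orderOf_eq_one_iff.mp hj2
    · left; rw [hj2]; exact (isPrimePow_nat_iff _).mpr ⟨p, j, hp, hjpos, rfl⟩
  · right; rw [hg]; rfl

theorem EPPO.subgroup {G : Type*} [Group G] (h : EPPO G) (K : Subgroup G) : EPPO K := by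
  intro x
  rcases h (x : G) with hx | hx
  · left; rw [← Subgroup.orderOf_coe]; exact hx
  · right; exact Subtype.ext hx

theorem EPPO.fix {G : Type*} [Group G] (h : EPPO G) {p : ℕ} (hp : p.Prime) (g v : G)
    (hg1 : g ≠ 1) (hgp : (orderOf g).Coprime p) (hv : ∃ k, v ^ p ^ k = 1)
    (hcomm : g * v = v * g) : v = 1 := by
  by_contra hv1
  obtain ⟨k, hk⟩ := hv
  have hdvd : orderOf v ∣ p ^ k := orderOf_dvd_of_pow_eq_one hk
  obtain ⟨j, -, hj⟩ := (Nat.dvd_prime_pow hp).mp hdvd
  have hj0 : j ≠ 0 := by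
    rintro rfl
    rw [pow_zero] at hj
    exact hv1 (orderOf_eq_one_iff.mp hj)
  have hcop : (orderOf g).Coprime (orderOf v) := by
    rw [hj]; exact Nat.Coprime.pow_right j hgp
  have hord : orderOf (g * v) = orderOf g * orderOf v :=
    Commute.orderOf_mul_eq_mul_orderOf_of_coprime hcomm hcop
  have hg_ne : orderOf g ≠ 1 := fun h1 => hg1 (orderOf_eq_one_iff.mp h1)
  rcases h (g * v) with hpp | h1
  · rw [hord] at hpp
    obtain ⟨q, hq, hqd⟩ := Nat.exists_prime_and_dvd hg_ne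
    obtain ⟨r, -, hruniq⟩ := isPrimePow_iff_unique_prime_dvd.mp hpp
    have h1 : q = r := hruniq q ⟨hq, hqd.trans (Dvd.intro _ rfl)⟩
    have hpv : p ∣ orderOf v := by rw [hj]; exact dvd_pow_self p hj0
    have h2 : p = r := hruniq p ⟨hp, hpv.trans (Dvd.intro_left _ rfl)⟩
    have hqp : q = p := h1.trans h2.symm
    rw [hqp] at hqd
    have := Nat.Coprime.eq_one_of_dvd hgp.symm hqd
    exact hp.one_lt.ne' this
  · have h2 : orderOf (g * v) = 1 := by rw [h1]; exact orderOf_one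
    rw [hord] at h2
    exact hg_ne (Nat.eq_one_of_mul_eq_one_right h2)

theorem EPPO.abelian_pgroup {G : Type*} [Group G] (h : EPPO G) (B : Subgroup G)
    [hB : IsMulCommutative B] (hB1 : B ≠ ⊥) : ∃ p : ℕ, p.Prime ∧ IsPGroup p B := by
  obtain ⟨x, hx, hx1⟩ : ∃ x ∈ B, x ≠ 1 := by
    by_contra hc
    push Not at hc
    exact hB1 ((Subgroup.eq_bot_iff_forall _).mpr hc)
  rcases h x with hpp | h1
  swap
  · exact absurd h1 hx1
  obtain ⟨p, k, hp, hk, hpk⟩ := (isPrimePow_nat_iff _).mp hpp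
  refine ⟨p, hp, ?_⟩
  rintro ⟨y, hy⟩
  by_cases hy1 : y = 1
  · exact ⟨0, by subst hy1; simp⟩
  rcases h y with hyp | h1
  swap
  · exact absurd h1 hy1
  obtain ⟨q, l, hq, hl, hql⟩ := (isPrimePow_nat_iff _).mp hyp
  by_cases hqp : q = p
  · subst hqp
    refine ⟨l, Subtype.ext ?_⟩
    show y ^ q ^ l = 1
    rw [hql]; exact pow_orderOf_eq_one y
  · exfalso
    apply hx1
    apply h.fix hp y x hy1
    · rw [← hql]; exact Nat.Coprime.pow_left l ((Nat.coprime_primes hq hp).mpr hqp)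
    · exact ⟨k, by rw [hpk]; exact pow_orderOf_eq_one x⟩
    · exact setLike_mul_comm hy hx

theorem exists_normal_abelian_ne_bot (G : Type*) [Group G] [Group.IsSolvable G] [Nontrivial G] :
    ∃ N : Subgroup G, N.Normal ∧ IsMulCommutative N ∧ N ≠ ⊥ := by
  classical
  have hex : ∃ n, derivedSeries G n = ⊥ := Group.IsSolvable.solvable
  set m := Nat.find hex with hmdef
  have hm : derivedSeries G m = ⊥ := Nat.find_spec hex
  have hm0 : m ≠ 0 := by
    intro h0
    rw [h0, derivedSeries_zero] at hm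
    exact top_ne_bot hm
  obtain ⟨i, hi⟩ := Nat.exists_eq_succ_of_ne_zero hm0
  refine ⟨derivedSeries G i, derivedSeries_normal G i, ?_, ?_⟩
  · rw [hi, derivedSeries_succ, Subgroup.commutator_eq_bot_iff_le_centralizer] at hm
    exact Subgroup.le_centralizer_iff_isMulCommutative.mp hm
  · exact Nat.find_min hex (by omega : i < m)

end Cfsg.Agent.Helper8
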