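import Mathlib
import Cfsg.Agent.Helper8.EPPO

set_option autoImplicit false

namespace Cfsg.Agent.Helper8

universe u

/-- Higman: a finite solvable group all of whose elements have prime power order has order
divisible by at most two primes. -/
theorem eppo_card_primeFactors_le_two : ∀ (n : ℕ) (G : Type u) [Group G] [Finite G]
    [Group.IsSolvable G], Nat.card G = n → EPPO G → (Nat.card G).primeFactors.card ≤ 2 := by
  intro n
  induction n using Nat.strong_induction_on with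
  | _ n ih =>
  intro G _ _ _ hn h
  rcases subsingleton_or_nontrivial G with hsub | hnt
  · rw [Nat.card_of_subsingleton (1 : G)]
    simp
  obtain ⟨N, hNn, hNc, hN1⟩ := exists_normal_abelian_ne_bot G
  obtain ⟨p, hp, hNp⟩ := h.abelian_pgroup N hN1
  have : Fact p.Prime := ⟨hp⟩
  obtain ⟨k, hk⟩ := IsPGroup.iff_card.mp hNp
  have hk0 : k ≠ 0 := by
    rintro rfl
    rw [pow_zero] at hk
    exact hN1 (Subgroup.card_eq_one.mp hk)
  have hcard : Nat.card G = Nat.card (G ⧸ N) * Nat.card N :=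
    Subgroup.card_eq_card_quotient_mul_card_subgroup N
  have hQpos : 0 < Nat.card (G ⧸ N) := Nat.card_pos
  have hlt : Nat.card (G ⧸ N) < n := by
    rw [← hn, hcard, hk]
    have : 1 < p ^ k := Nat.one_lt_pow hk0 hp.one_lt
    nlinarith
  have ihQ : (Nat.card (G ⧸ N)).primeFactors.card ≤ 2 := ih _ hlt (G ⧸ N) rfl (h.quotient N)
  have hpf : (Nat.card G).primeFactors = (Nat.card (G ⧸ N)).primeFactors ∪ {p} := by
    rw [hcard, hk, Nat.primeFactors_mul hQpos.ne' (pow_ne_zero _ hp.ne_zero),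
      Nat.primeFactors_prime_pow hk0 hp]
  by_cases hpQ : p ∣ Nat.card (G ⧸ N)
  · have : (Nat.card G).primeFactors = (Nat.card (G ⧸ N)).primeFactors := by
      rw [hpf]
      apply Finset.union_eq_left.mpr
      rw [Finset.singleton_subset_iff]
      exact Nat.mem_primeFactors.mpr ⟨hp, hpQ, hQpos.ne'⟩
    rw [this]; exact ihQ
  by_contra hgt
  push Not at hgt
  have hc2 : (Nat.card (G ⧸ N)).primeFactors.card = 2 := by
    have h1 : (Nat.card G).primeFactors.card ≤ (Nat.card (G ⧸ N)).primeFactors.card + 1 := by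
      rw [hpf]
      exact (Finset.card_union_le _ _).trans (by simp)
    omega
  obtain ⟨q, r, hqr, hqrset⟩ := Finset.card_eq_two.mp hc2
  have hqmem : q ∈ (Nat.card (G ⧸ N)).primeFactors := by rw [hqrset]; simp
  have hrmem : r ∈ (Nat.card (G ⧸ N)).primeFactors := by rw [hqrset]; simp
  have hindex : N.index = Nat.card (G ⧸ N) := Subgroup.index_eq_card N
  have hcopNK : Nat.Coprime (Nat.card N) N.index := by
    rw [hk, hindex]
    exact Nat.Coprime.pow_left k ((Nat.Prime.coprime_iff_not_dvd hp).mpr hpQ)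
  obtain ⟨K, hK⟩ := Subgroup.exists_right_complement'_of_coprime hcopNK
  have hKcard : Nat.card K = Nat.card (G ⧸ N) := by
    have h1 := hK.card_mul_card
    rw [hcard, mul_comm (Nat.card (G ⧸ N))] at h1
    exact Nat.eq_of_mul_eq_mul_left Nat.card_pos h1
  have hKe : EPPO K := h.subgroup K
  have hKnt : Nontrivial K := by
    apply (Finite.one_lt_card_iff_nontrivial).mp
    rw [hKcard]
    have h1 := Nat.mem_primeFactors.mp hqmem
    exact lt_of_lt_of_le h1.1.one_lt (Nat.le_of_dvd hQpos h1.2.1)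
  obtain ⟨D, hDn, hDc, hD1⟩ := exists_normal_abelian_ne_bot K
  obtain ⟨s, hs, hDs⟩ := hKe.abelian_pgroup D hD1
  have : Fact s.Prime := ⟨hs⟩
  obtain ⟨m, hm⟩ := IsPGroup.iff_card.mp hDs
  have hm0 : m ≠ 0 := by
    rintro rfl
    rw [pow_zero] at hm
    exact hD1 (Subgroup.card_eq_one.mp hm)
  have hsK : s ∣ Nat.card K := by
    have : Nat.card D ∣ Nat.card K := Subgroup.card_subgroup_dvd_card D
    rw [hm] at this
    exact (dvd_pow_self s hm0).trans this
  have hsp : s ≠ p := by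
    rintro rfl
    exact hpQ (hKcard ▸ hsK)
  obtain ⟨t, ht, htK, hts⟩ : ∃ t : ℕ, t.Prime ∧ t ∣ Nat.card K ∧ t ≠ s := by
    by_cases hqs : q = s
    · exact ⟨r, (Nat.mem_primeFactors.mp hrmem).1,
        hKcard ▸ (Nat.mem_primeFactors.mp hrmem).2.1, fun hrs => hqr (hqs.trans hrs.symm)⟩
    · exact ⟨q, (Nat.mem_primeFactors.mp hqmem).1,
        hKcard ▸ (Nat.mem_primeFactors.mp hqmem).2.1, hqs⟩
  have : Fact t.Prime := ⟨ht⟩
  obtain ⟨y, hyK, hyord⟩ : ∃ y : G, y ∈ K ∧ orderOf y = t := by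
    obtain ⟨y0, hy0⟩ := exists_prime_orderOf_dvd_card' t htK
    exact ⟨y0, y0.2, by rw [Subgroup.orderOf_coe]; exact hy0⟩
  have hyt1 : y ^ t = 1 := by rw [← hyord]; exact pow_orderOf_eq_one y
  set A : Subgroup G := D.map K.subtype with hA
  have hAcard : Nat.card A = s ^ m := by
    rw [hA, Subgroup.card_map_of_injective K.subtype_injective]; exact hm
  have hA1 : A ≠ ⊥ := by
    rw [hA, Ne, Subgroup.map_eq_bot_iff_of_injective D K.subtype_injective]; exact hD1
  have hAK : A ≤ K := by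
    rw [hA]; exact Subgroup.map_subtype_le D
  have hApow : ∀ a ∈ A, a ^ s ^ m = 1 := by
    intro a ha
    have := pow_card_eq_one' (G := A) (x := ⟨a, ha⟩)
    rw [hAcard] at this
    exact congrArg Subtype.val this
  have hyA : ∀ a ∈ A, y * a * y⁻¹ ∈ A := by
    intro a ha
    obtain ⟨d, hd, rfl⟩ := Subgroup.mem_map.mp ha
    refine Subgroup.mem_map.mpr ⟨⟨y, hyK⟩ * d * ⟨y, hyK⟩⁻¹, hDn.conj_mem d hd _, ?_⟩
    simp
  have key1 : ∀ (g : G) (j : ℕ), g ^ t = 1 → g ^ s ^ j = 1 → g = 1 := by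
    intro g j h1 h2
    have hc : Nat.Coprime t (s ^ j) :=
      Nat.Coprime.pow_right j ((Nat.coprime_primes ht hs).mpr hts)
    have := Nat.dvd_gcd (orderOf_dvd_of_pow_eq_one h1) (orderOf_dvd_of_pow_eq_one h2)
    rw [hc.gcd_eq_one] at this
    exact orderOf_eq_one_iff.mp (Nat.dvd_one.mp this)
  have hyt : ∀ a ∈ A, (a * y) ^ t = 1 := by
    intro a ha
    have hmem : (a * y) ^ t ∈ A := by
      have := mul_pow_mem A y hyA a ha t
      rwa [hyt1, inv_one, mul_one] at this
    have h2 : ((a * y) ^ t) ^ s ^ m = 1 := hApow _ hmem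
    rcases h (a * y) with hpp | h1
    swap
    · rw [h1, one_pow]
    obtain ⟨r', j, hr', hj, hrj⟩ := (isPrimePow_nat_iff _).mp hpp
    have hdvd : r' ^ j ∣ t * s ^ m := by
      rw [hrj]; apply orderOf_dvd_of_pow_eq_one; rw [pow_mul]; exact h2
    by_cases hrt : r' = t
    · have hc : Nat.Coprime (r' ^ j) (s ^ m) := by
        rw [hrt]; exact Nat.Coprime.pow _ _ ((Nat.coprime_primes ht hs).mpr hts)
      have : r' ^ j ∣ t := hc.dvd_of_dvd_mul_right hdvd
      rw [hrj] at this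
      exact orderOf_dvd_iff_pow_eq_one.mp this
    · exfalso
      have hc : Nat.Coprime (r' ^ j) t :=
        Nat.Coprime.pow_left j ((Nat.coprime_primes hr' ht).mpr hrt)
      have hd2 : r' ^ j ∣ s ^ m := hc.dvd_of_dvd_mul_left hdvd
      rw [hrj] at hd2
      have h3 : (a * y) ^ s ^ m = 1 := orderOf_dvd_iff_pow_eq_one.mp hd2
      have h4 := mul_pow_mem A y hyA a ha (s ^ m)
      rw [h3, one_mul] at h4
      have h5 : y ^ s ^ m ∈ A := by simpa using A.inv_mem h4
      have h6 : (y ^ s ^ m) ^ s ^ m = 1 := hApow _ h5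
      rw [← pow_mul, ← pow_add] at h6
      have hy1 : y = 1 := key1 y (m + m) hyt1 h6
      rw [hy1, orderOf_one] at hyord
      exact ht.one_lt.ne hyord
  have hNpow : ∀ v ∈ N, v ^ p ^ k = 1 := by
    intro v hv
    have := pow_card_eq_one' (G := N) (x := ⟨v, hv⟩)
    rw [hk] at this
    exact congrArg Subtype.val this
  have hKcop : ∀ g ∈ K, (orderOf g).Coprime p := by
    intro g hg
    have h1 : orderOf g ∣ Nat.card K := by
      have := orderOf_dvd_natCard (⟨g, hg⟩ : K)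
      rwa [← Subgroup.orderOf_coe] at this
    rw [hKcard] at h1
    exact Nat.Coprime.coprime_dvd_left h1 ((Nat.Prime.coprime_iff_not_dvd hp).mpr hpQ).symm
  have hfix_y : ∀ a ∈ A, ∀ v ∈ N, (a * y) * v = v * (a * y) → v = 1 := by
    intro a ha v hv hcomm
    apply h.fix hp (a * y) v ?_ (hKcop _ (K.mul_mem (hAK ha) hyK)) ⟨k, hNpow v hv⟩ hcomm
    intro h1
    have hyA' : y ∈ A := by
      have : y = a⁻¹ := eq_inv_of_mul_eq_one_right h1
      rw [this]; exact A.inv_mem ha
    have hy1 : y = 1 := key1 y m hyt1 (hApow y hyA')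
    rw [hy1, orderOf_one] at hyord
    exact ht.one_lt.ne hyord
  have hfix_A : ∀ a ∈ A, a ≠ 1 → ∀ v ∈ N, a * v = v * a → v = 1 := by
    intro a ha ha1 v hv hcomm
    exact h.fix hp a v ha1 (hKcop _ (hAK ha)) ⟨k, hNpow v hv⟩ hcomm
  have hcop : ∀ v ∈ N, v ^ Nat.card A = 1 → v = 1 := by
    intro v hv hv1
    rw [hAcard] at hv1
    have hc : Nat.Coprime (p ^ k) (s ^ m) :=
      Nat.Coprime.pow _ _ ((Nat.coprime_primes hp hs).mpr (Ne.symm hsp))
    have := Nat.dvd_gcd (orderOf_dvd_of_pow_eq_one (hNpow v hv)) (orderOf_dvd_of_pow_eq_one hv1)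
    rw [hc.gcd_eq_one] at this
    exact orderOf_eq_one_iff.mp (Nat.dvd_one.mp this)
  exact hN1 (frob_contra N A y t ht hyA hyt hfix_y hfix_A hA1 hcop)

end Cfsg.Agent.Helper8
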