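import Mathlib
import Cfsg.Agent.Helper8.GUConj2

set_option autoImplicit false

namespace Cfsg.Agent.Helper8.GC

open Polynomial Matrix

variable {K : Type*} [Field K]

/-- The `σ`-conjugate transpose, for rectangular matrices. -/
def dg {m n : Type*} (σ : K →+* K) (X : Matrix m n K) : Matrix n m K := (X.map σ)ᵀ

theorem dg_apply {m n : Type*} (σ : K →+* K) (X : Matrix m n K) (i : n) (j : m) :
    dg σ X i j = σ (X j i) := rfl

theorem dg_mul {l m n : Type*} [Fintype m] (σ : K →+* K) (X : Matrix l m K) (Y : Matrix m n K) :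
    dg σ (X * Y) = dg σ Y * dg σ X := by
  unfold dg
  rw [Matrix.map_mul, Matrix.transpose_mul]

theorem dg_one {n : Type*} [DecidableEq n] (σ : K →+* K) : dg σ (1 : Matrix n n K) = 1 := by
  ext i j
  rw [dg_apply, Matrix.one_apply, Matrix.one_apply]
  by_cases h : i = j
  · rw [if_pos h, if_pos h.symm, map_one]
  · rw [if_neg h, if_neg (fun hh => h hh.symm), map_zero]

theorem dg_add {m n : Type*} (σ : K →+* K) (X Y : Matrix m n K) :
    dg σ (X + Y) = dg σ X + dg σ Y := by
  ext i j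
  simp [dg_apply]

theorem dg_sub {m n : Type*} (σ : K →+* K) (X Y : Matrix m n K) :
    dg σ (X - Y) = dg σ X - dg σ Y := by
  ext i j
  simp [dg_apply]

theorem dg_smul {m n : Type*} (σ : K →+* K) (c : K) (X : Matrix m n K) :
    dg σ (c • X) = σ c • dg σ X := by
  ext i j
  simp [dg_apply]

theorem dg_pow {n : Type*} [Fintype n] [DecidableEq n] (σ : K →+* K) (X : Matrix n n K) (k : ℕ) :
    dg σ (X ^ k) = dg σ X ^ k := by
  induction k with
  | zero => rw [pow_zero, pow_zero, dg_one]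
  | succ k ih => rw [pow_succ, dg_mul, ih, pow_succ']

theorem dg_dg {m n : Type*} (σ : K →+* K) (hσ : ∀ x, σ (σ x) = x) (X : Matrix m n K) :
    dg σ (dg σ X) = X := by
  ext i j
  rw [dg_apply, dg_apply, hσ]

theorem dg_det {n : Type*} [Fintype n] [DecidableEq n] (σ : K →+* K) (X : Matrix n n K) :
    (dg σ X).det = σ X.det := by
  unfold dg
  rw [Matrix.det_transpose]
  exact (RingHom.map_det σ X).symm

theorem dg_aeval {n : Type*} [Fintype n] [DecidableEq n] (σ : K →+* K) (X : Matrix n n K)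
    (f : K[X]) : dg σ (aeval X f) = aeval (dg σ X) (f.map σ) := by
  induction f using Polynomial.induction_on' with
  | add p q hp hq => rw [map_add, dg_add, hp, hq, Polynomial.map_add, map_add]
  | monomial m a =>
    rw [Polynomial.map_monomial, aeval_monomial, aeval_monomial, Algebra.algebraMap_eq_smul_one,
      Algebra.algebraMap_eq_smul_one, smul_mul_assoc, one_mul, smul_mul_assoc, one_mul, dg_smul,
      dg_pow]

theorem comm_aeval {n : Type*} [Fintype n] [DecidableEq n] (A X : Matrix n n K)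
    (h : A * X = X * A) (f : K[X]) : A * aeval X f = aeval X f * A := by
  have h' : Commute A X := h
  have : Commute A (aeval X f) := by
    induction f using Polynomial.induction_on' with
    | add p q hp hq =>
      rw [map_add]
      exact hp.add_right hq
    | monomial m a =>
      rw [aeval_monomial]
      exact (Algebra.commute_algebraMap_right a A).mul_right (h'.pow_right m)
  exact this

variable {ι : Type*} [Fintype ι] [DecidableEq ι]

/-- Every invertible `σ`-Hermitian matrix is `R† R` with `R` in its bicommutant. -/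
theorem herm_sqrt_comm [Finite K] (σ : K →+* K) (hσ : ∀ x, σ (σ x) = x) (hne : σ ≠ RingHom.id K)
    (G : Matrix ι ι K) (hdet : G.det ≠ 0) (hGd : dg σ G = G) :
    ∃ R : Matrix ι ι K, R.det ≠ 0 ∧ dg σ R * R = G ∧
      ∀ A : Matrix ι ι K, A * G = G * A → A * R = R * A := by
  classical
  obtain ⟨Hg, hHg⟩ : ∃ Hg : GL ι K, (Hg : Matrix ι ι K) = G :=
    ⟨((Matrix.isUnit_iff_isUnit_det G).2 (IsUnit.mk0 _ hdet)).unit, IsUnit.unit_spec _⟩
  have ho : 0 < orderOf Hg := orderOf_pos Hg
  have hHo : G ^ orderOf Hg = 1 := by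
    have h1 := pow_orderOf_eq_one Hg
    have h2 : ((Hg ^ orderOf Hg : GL ι K) : Matrix ι ι K) = 1 := by
      rw [h1]
      rfl
    rw [Units.val_pow_eq_pow_val, hHg] at h2
    exact h2
  obtain ⟨Φ, ⟨h, hh⟩⟩ := GUC.lemPhi σ hσ hne (orderOf Hg) ho
  have hRd : dg σ (aeval G Φ) = aeval G (Φ.map σ) := by rw [dg_aeval, hGd]
  have hRR : dg σ (aeval G Φ) * aeval G Φ = G := by
    rw [hRd, ← map_mul]
    have h1 : Φ.map σ * Φ = X + (X ^ orderOf Hg - 1) * h := by linear_combination hh
    rw [h1, map_add, map_mul, map_sub, map_pow, aeval_X, map_one, hHo, sub_self, zero_mul,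
      add_zero]
  refine ⟨aeval G Φ, ?_, hRR, fun A hA => comm_aeval A G hA Φ⟩
  intro h0
  apply hdet
  rw [← hRR, Matrix.det_mul, h0, mul_zero]

theorem inv_comm (r U : Matrix ι ι K) (hr : r.det ≠ 0) (h : r * U = U * r) :
    r⁻¹ * U = U * r⁻¹ := by
  have hu : IsUnit r.det := IsUnit.mk0 _ hr
  calc r⁻¹ * U = r⁻¹ * (U * r) * r⁻¹ := by
        rw [mul_assoc, mul_assoc, Matrix.mul_nonsing_inv r hu, mul_one]
    _ = r⁻¹ * (r * U) * r⁻¹ := by rw [h]
    _ = U * r⁻¹ := by rw [← mul_assoc, Matrix.nonsing_inv_mul r hu, one_mul]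

/-- Orbit-stabiliser: centraliser in the unitary group times invariant Hermitian forms. -/
theorem thmA [Finite K] (σ : K →+* K) (hσ : ∀ x, σ (σ x) = x) (hne : σ ≠ RingHom.id K)
    (U : Matrix ι ι K) (hU : dg σ U * U = 1) :
    Nat.card {g : Matrix ι ι K // dg σ g * g = 1 ∧ g * U = U * g} *
      Nat.card {Y : Matrix ι ι K // dg σ Y = Y ∧ Y.det ≠ 0 ∧ dg σ U * Y * U = Y} =
    Nat.card {g : Matrix ι ι K // g.det ≠ 0 ∧ g * U = U * g} := by
  classical
  have hU' : U * dg σ U = 1 := mul_eq_one_comm.1 hU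
  have hsec : ∀ Y : Matrix ι ι K, ∃ r : Matrix ι ι K,
      (dg σ Y = Y ∧ Y.det ≠ 0 ∧ dg σ U * Y * U = Y) →
        (r.det ≠ 0 ∧ dg σ r * r = Y ∧ r * U = U * r) := by
    intro Y
    by_cases hY : dg σ Y = Y ∧ Y.det ≠ 0 ∧ dg σ U * Y * U = Y
    · obtain ⟨r, h1, h2, h3⟩ := herm_sqrt_comm σ hσ hne Y hY.2.1 hY.1
      have hUY : U * Y = Y * U := by
        calc U * Y = U * (dg σ U * Y * U) := by rw [hY.2.2]
          _ = (U * dg σ U) * Y * U := by simp only [mul_assoc]
          _ = Y * U := by rw [hU', one_mul]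
      exact ⟨r, fun _ => ⟨h1, h2, (h3 U hUY).symm⟩⟩
    · exact ⟨1, fun h => absurd h hY⟩
  choose sec hsec using hsec
  have hYmem : ∀ g : Matrix ι ι K, g.det ≠ 0 → g * U = U * g →
      (dg σ (dg σ g * g) = dg σ g * g ∧ (dg σ g * g).det ≠ 0 ∧
        dg σ U * (dg σ g * g) * U = dg σ g * g) := by
    intro g hg hgU
    refine ⟨by rw [dg_mul, dg_dg σ hσ], ?_, ?_⟩
    · rw [Matrix.det_mul, dg_det]
      exact mul_ne_zero (fun h => hg (by
        have := congrArg σ h
        rwa [hσ, map_zero] at this)) hg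
    · calc dg σ U * (dg σ g * g) * U = dg σ (g * U) * (g * U) := by
            rw [dg_mul]; simp only [mul_assoc]
        _ = dg σ (U * g) * (U * g) := by rw [hgU]
        _ = dg σ g * (dg σ U * U) * g := by rw [dg_mul]; simp only [mul_assoc]
        _ = dg σ g * g := by rw [hU, mul_one]
  have hunit : ∀ s : Matrix ι ι K, dg σ s * s = 1 → s.det ≠ 0 := by
    intro s hs h0
    have := congrArg Matrix.det hs
    rw [Matrix.det_mul, h0, mul_zero, Matrix.det_one] at this
    exact zero_ne_one this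
  let e : {g : Matrix ι ι K // g.det ≠ 0 ∧ g * U = U * g} ≃
      {g : Matrix ι ι K // dg σ g * g = 1 ∧ g * U = U * g} ×
      {Y : Matrix ι ι K // dg σ Y = Y ∧ Y.det ≠ 0 ∧ dg σ U * Y * U = Y} :=
    { toFun := fun g => (⟨g.1 * (sec (dg σ g.1 * g.1))⁻¹, by
          obtain ⟨h1, h2, h3⟩ := hsec _ (hYmem g.1 g.2.1 g.2.2)
          have hu : IsUnit (sec (dg σ g.1 * g.1)).det := IsUnit.mk0 _ h1
          constructor
          · calc dg σ (g.1 * (sec (dg σ g.1 * g.1))⁻¹) * (g.1 * (sec (dg σ g.1 * g.1))⁻¹)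
                = dg σ (sec (dg σ g.1 * g.1))⁻¹ * (dg σ g.1 * g.1) *
                    (sec (dg σ g.1 * g.1))⁻¹ := by rw [dg_mul]; simp only [mul_assoc]
              _ = dg σ (sec (dg σ g.1 * g.1))⁻¹ *
                    (dg σ (sec (dg σ g.1 * g.1)) * sec (dg σ g.1 * g.1)) *
                    (sec (dg σ g.1 * g.1))⁻¹ := by rw [h2]
              _ = dg σ (sec (dg σ g.1 * g.1) * (sec (dg σ g.1 * g.1))⁻¹) *
                    (sec (dg σ g.1 * g.1) * (sec (dg σ g.1 * g.1))⁻¹) := by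
                  rw [dg_mul]; simp only [mul_assoc]
              _ = 1 := by rw [Matrix.mul_nonsing_inv _ hu, dg_one, one_mul]
          · rw [mul_assoc, inv_comm _ U h1 h3, ← mul_assoc, g.2.2, mul_assoc]⟩,
        ⟨dg σ g.1 * g.1, hYmem g.1 g.2.1 g.2.2⟩)
      invFun := fun p => ⟨p.1.1 * sec p.2.1, by
          obtain ⟨h1, h2, h3⟩ := hsec _ p.2.2
          constructor
          · rw [Matrix.det_mul]
            exact mul_ne_zero (hunit _ p.1.2.1) h1
          · rw [mul_assoc, h3, ← mul_assoc, p.1.2.2, mul_assoc]⟩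
      left_inv := fun g => by
        obtain ⟨h1, h2, h3⟩ := hsec _ (hYmem g.1 g.2.1 g.2.2)
        apply Subtype.ext
        show g.1 * (sec (dg σ g.1 * g.1))⁻¹ * sec (dg σ g.1 * g.1) = g.1
        rw [mul_assoc, Matrix.nonsing_inv_mul _ (IsUnit.mk0 _ h1), mul_one]
      right_inv := fun p => by
        obtain ⟨h1, h2, h3⟩ := hsec _ p.2.2
        have hY : dg σ (p.1.1 * sec p.2.1) * (p.1.1 * sec p.2.1) = p.2.1 := by
          calc dg σ (p.1.1 * sec p.2.1) * (p.1.1 * sec p.2.1)
              = dg σ (sec p.2.1) * (dg σ p.1.1 * p.1.1) * sec p.2.1 := by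
                rw [dg_mul]; simp only [mul_assoc]
            _ = p.2.1 := by rw [p.1.2.1, mul_one, h2]
        refine Prod.ext (Subtype.ext ?_) (Subtype.ext hY)
        show p.1.1 * sec p.2.1 * (sec (dg σ (p.1.1 * sec p.2.1) * (p.1.1 * sec p.2.1)))⁻¹ = p.1.1
        rw [hY, mul_assoc, Matrix.mul_nonsing_inv _ (IsUnit.mk0 _ h1), mul_one] }
  rw [Nat.card_congr e, Nat.card_prod]

end Cfsg.Agent.Helper8.GC
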