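import Mathlib
import Cfsg.Agent.Helper8.GC1

set_option autoImplicit false

namespace Cfsg.Agent.Helper8.GC

open Matrix

variable {K : Type*} [Field K]
variable {ι ι' : Type*} [Fintype ι] [DecidableEq ι] [Fintype ι'] [DecidableEq ι']

theorem swap_inter (c : Matrix ι' ι K) (c' : Matrix ι ι' K) (h1 : c * c' = 1) (h2 : c' * c = 1)
    (V : Matrix ι ι K) (V' : Matrix ι' ι' K) (hV : c * V = V' * c) : c' * V' = V * c' := by
  calc c' * V' = c' * V' * (c * c') := by rw [h1, Matrix.mul_one]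
    _ = c' * (V' * c) * c' := by simp only [Matrix.mul_assoc]
    _ = c' * (c * V) * c' := by rw [hV]
    _ = (c' * c) * V * c' := by simp only [Matrix.mul_assoc]
    _ = V * c' := by rw [h2, Matrix.one_mul]

theorem conj_mem (c : Matrix ι' ι K) (c' : Matrix ι ι' K) (h1 : c * c' = 1) (h2 : c' * c = 1)
    (V : Matrix ι ι K) (V' : Matrix ι' ι' K) (hV : c * V = V' * c) (g : Matrix ι ι K)
    (hg : g.det ≠ 0 ∧ g * V = V * g) :
    (c * g * c').det ≠ 0 ∧ (c * g * c') * V' = V' * (c * g * c') := by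
  have hV' := swap_inter c c' h1 h2 V V' hV
  constructor
  · apply Matrix.det_ne_zero_of_left_inverse (B := c * g⁻¹ * c')
    calc c * g⁻¹ * c' * (c * g * c') = c * (g⁻¹ * ((c' * c) * g)) * c' := by
          simp only [Matrix.mul_assoc]
      _ = 1 := by
          rw [h2, Matrix.one_mul, Matrix.nonsing_inv_mul g (IsUnit.mk0 _ hg.1), Matrix.mul_one, h1]
  · calc c * g * c' * V' = c * g * (c' * V') := by simp only [Matrix.mul_assoc]
      _ = c * (g * V) * c' := by rw [hV']; simp only [Matrix.mul_assoc]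
      _ = (c * V) * g * c' := by rw [hg.2]; simp only [Matrix.mul_assoc]
      _ = V' * (c * g * c') := by rw [hV]; simp only [Matrix.mul_assoc]

theorem card_C_congr (c : Matrix ι' ι K) (c' : Matrix ι ι' K) (h1 : c * c' = 1) (h2 : c' * c = 1)
    (V : Matrix ι ι K) (V' : Matrix ι' ι' K) (hV : c * V = V' * c) :
    Nat.card {g : Matrix ι ι K // g.det ≠ 0 ∧ g * V = V * g} =
      Nat.card {g : Matrix ι' ι' K // g.det ≠ 0 ∧ g * V' = V' * g} := by
  have hV' := swap_inter c c' h1 h2 V V' hV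
  apply Nat.card_congr
  exact
    { toFun := fun g => ⟨c * g.1 * c', conj_mem c c' h1 h2 V V' hV g.1 g.2⟩
      invFun := fun g => ⟨c' * g.1 * c, conj_mem c' c h2 h1 V' V hV' g.1 g.2⟩
      left_inv := fun g => by
        apply Subtype.ext
        show c' * (c * g.1 * c') * c = g.1
        calc c' * (c * g.1 * c') * c = (c' * c) * g.1 * (c' * c) := by
              simp only [Matrix.mul_assoc]
          _ = g.1 := by rw [h2, Matrix.one_mul, Matrix.mul_one]
      right_inv := fun g => by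
        apply Subtype.ext
        show c * (c' * g.1 * c) * c' = g.1
        calc c * (c' * g.1 * c) * c' = (c * c') * g.1 * (c * c') := by
              simp only [Matrix.mul_assoc]
          _ = g.1 := by rw [h1, Matrix.one_mul, Matrix.mul_one] }

theorem herm_mem (σ : K →+* K) (hσ : ∀ x, σ (σ x) = x)
    (c : Matrix ι' ι K) (c' : Matrix ι ι' K) (h1 : c * c' = 1) (h2 : c' * c = 1)
    (V : Matrix ι ι K) (V' : Matrix ι' ι' K) (hV : c * V = V' * c) (Y : Matrix ι' ι' K)
    (hY : dg σ Y = Y ∧ Y.det ≠ 0 ∧ dg σ V' * Y * V' = Y) :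
    dg σ (dg σ c * Y * c) = dg σ c * Y * c ∧ (dg σ c * Y * c).det ≠ 0 ∧
      dg σ V * (dg σ c * Y * c) * V = dg σ c * Y * c := by
  refine ⟨?_, ?_, ?_⟩
  · rw [dg_mul, dg_mul, dg_dg σ hσ, hY.1, Matrix.mul_assoc]
  · apply Matrix.det_ne_zero_of_left_inverse (B := c' * Y⁻¹ * dg σ c')
    calc c' * Y⁻¹ * dg σ c' * (dg σ c * Y * c)
        = c' * (Y⁻¹ * ((dg σ c' * dg σ c) * Y)) * c := by simp only [Matrix.mul_assoc]
      _ = 1 := by
          rw [← dg_mul, h1, dg_one, Matrix.one_mul,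
            Matrix.nonsing_inv_mul Y (IsUnit.mk0 _ hY.2.1), Matrix.mul_one, h2]
  · calc dg σ V * (dg σ c * Y * c) * V = dg σ (c * V) * Y * (c * V) := by
          rw [dg_mul]; simp only [Matrix.mul_assoc]
      _ = dg σ c * (dg σ V' * Y * V') * c := by rw [hV, dg_mul]; simp only [Matrix.mul_assoc]
      _ = dg σ c * Y * c := by rw [hY.2.2]

theorem card_Y_congr (σ : K →+* K) (hσ : ∀ x, σ (σ x) = x)
    (c : Matrix ι' ι K) (c' : Matrix ι ι' K) (h1 : c * c' = 1) (h2 : c' * c = 1)
    (V : Matrix ι ι K) (V' : Matrix ι' ι' K) (hV : c * V = V' * c) :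
    Nat.card {Y : Matrix ι' ι' K // dg σ Y = Y ∧ Y.det ≠ 0 ∧ dg σ V' * Y * V' = Y} =
      Nat.card {Y : Matrix ι ι K // dg σ Y = Y ∧ Y.det ≠ 0 ∧ dg σ V * Y * V = Y} := by
  have hV' := swap_inter c c' h1 h2 V V' hV
  apply Nat.card_congr
  exact
    { toFun := fun Y => ⟨dg σ c * Y.1 * c, herm_mem σ hσ c c' h1 h2 V V' hV Y.1 Y.2⟩
      invFun := fun Y => ⟨dg σ c' * Y.1 * c', herm_mem σ hσ c' c h2 h1 V' V hV' Y.1 Y.2⟩
      left_inv := fun Y => by
        apply Subtype.ext
        show dg σ c' * (dg σ c * Y.1 * c) * c' = Y.1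
        calc dg σ c' * (dg σ c * Y.1 * c) * c' = (dg σ c' * dg σ c) * Y.1 * (c * c') := by
              simp only [Matrix.mul_assoc]
          _ = Y.1 := by rw [← dg_mul, h1, dg_one, Matrix.one_mul, Matrix.mul_one]
      right_inv := fun Y => by
        apply Subtype.ext
        show dg σ c * (dg σ c' * Y.1 * c') * c = Y.1
        calc dg σ c * (dg σ c' * Y.1 * c') * c = (dg σ c * dg σ c') * Y.1 * (c' * c) := by
              simp only [Matrix.mul_assoc]
          _ = Y.1 := by rw [← dg_mul, h2, dg_one, Matrix.one_mul, Matrix.mul_one] }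

/-- rectangular permutation matrix of an equivalence -/
def Pe (K : Type*) [Field K] (e : ι ≃ ι') : Matrix ι' ι K :=
  Matrix.of fun i p => if e.symm i = p then 1 else 0

/-- its inverse -/
def Pe' (K : Type*) [Field K] (e : ι ≃ ι') : Matrix ι ι' K :=
  Matrix.of fun p i => if p = e.symm i then 1 else 0

theorem Pe_mul_Pe' (e : ι ≃ ι') : Pe K e * Pe' K e = 1 := by
  ext i j
  simp [Pe, Pe', Matrix.mul_apply, Matrix.one_apply]

theorem Pe'_mul_Pe (e : ι ≃ ι') : Pe' K e * Pe K e = 1 := by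
  ext p q
  simp [Pe, Pe', Matrix.mul_apply, Matrix.one_apply, Equiv.eq_symm_apply, Equiv.symm_apply_eq]

theorem Pe_conj (e : ι ≃ ι') (M : Matrix ι ι K) : Pe K e * M = Matrix.reindex e e M * Pe K e := by
  ext i q
  have hL : (Pe K e * M) i q = M (e.symm i) q := by simp [Pe, Matrix.mul_apply]
  have hR : (Matrix.reindex e e M * Pe K e) i q = M (e.symm i) q := by
    rw [Matrix.mul_apply, Finset.sum_eq_single (e q)]
    · simp [Pe]
    · intro j _ hj
      have : e.symm j ≠ q := fun h => hj (by rw [← h]; simp)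
      simp [Pe, this]
    · intro h; exact absurd (Finset.mem_univ _) h
  rw [hL, hR]

end Cfsg.Agent.Helper8.GC
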