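import Mathlib
import Cfsg.Prelude.Def_JordanBlocks

set_option autoImplicit false

namespace Cfsg.Agent.Helper8.JC

variable {F : Type*} [Field F] {t : ℕ} (d : Fin t → ℕ)

/-- nilpotent part of the Jordan type matrix -/
def Nm (F : Type*) [Field F] {t : ℕ} (d : Fin t → ℕ) :
    Matrix ((k : Fin t) × Fin (d k)) ((k : Fin t) × Fin (d k)) F :=
  Matrix.of fun p q => if p.1 = q.1 ∧ (p.2 : ℕ) = (q.2 : ℕ) + 1 then 1 else 0

theorem jordan_eq : Cfsg.jordanTypeMatrix d F = 1 + Nm F d := by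
  ext ⟨k, i⟩ ⟨l, j⟩
  unfold Cfsg.jordanTypeMatrix Nm
  rw [Matrix.blockDiagonal'_apply, Matrix.add_apply, Matrix.one_apply, Matrix.of_apply]
  by_cases h : k = l
  · subst h
    by_cases h1 : (i : ℕ) = j
    · have h2 : i = j := Fin.ext h1
      subst h2
      simp [Cfsg.jordanBlock]
    · have h2 : (⟨k, i⟩ : (k : Fin t) × Fin (d k)) ≠ ⟨k, j⟩ := by
        intro hh
        rw [Sigma.mk.inj_iff] at hh
        exact h1 (congrArg Fin.val (eq_of_heq hh.2))
      by_cases h3 : (i : ℕ) = j + 1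
      · simp [Cfsg.jordanBlock, h1, h2, h3]
      · simp [Cfsg.jordanBlock, h1, h2, h3]
  · have h2 : (⟨k, i⟩ : (k : Fin t) × Fin (d k)) ≠ ⟨l, j⟩ := fun hh => h (congrArg Sigma.fst hh)
    simp [h, h2]

/-- extension by zero of the entries -/
noncomputable def ev (g : Matrix ((k : Fin t) × Fin (d k)) ((k : Fin t) × Fin (d k)) F)
    (k : Fin t) (i : ℕ) (l : Fin t) (j : ℕ) : F :=
  if h : i < d k ∧ j < d l then g ⟨k, ⟨i, h.1⟩⟩ ⟨l, ⟨j, h.2⟩⟩ else 0

theorem ev_eq (g : Matrix ((k : Fin t) × Fin (d k)) ((k : Fin t) × Fin (d k)) F)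
    {k l : Fin t} {i j : ℕ} (hi : i < d k) (hj : j < d l) :
    ev d g k i l j = g ⟨k, ⟨i, hi⟩⟩ ⟨l, ⟨j, hj⟩⟩ := dif_pos ⟨hi, hj⟩

theorem ev_apply (g : Matrix ((k : Fin t) × Fin (d k)) ((k : Fin t) × Fin (d k)) F)
    (p q : (k : Fin t) × Fin (d k)) : g p q = ev d g p.1 p.2 q.1 q.2 :=
  (ev_eq d g p.2.2 q.2.2).symm

theorem mul_Nm_apply (g : Matrix ((k : Fin t) × Fin (d k)) ((k : Fin t) × Fin (d k)) F)
    (p q : (k : Fin t) × Fin (d k)) :
    (g * Nm F d) p q = ev d g p.1 p.2 q.1 (q.2 + 1) := by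
  obtain ⟨l, j⟩ := q
  rw [Matrix.mul_apply]
  by_cases h : (j : ℕ) + 1 < d l
  · rw [Finset.sum_eq_single (⟨l, ⟨j + 1, h⟩⟩ : (k : Fin t) × Fin (d k))]
    · rw [ev_eq d g p.2.2 h]; simp [Nm]
    · rintro ⟨k, i⟩ - hne
      have : ¬ (k = l ∧ (i : ℕ) = (j : ℕ) + 1) := by
        rintro ⟨rfl, h2⟩
        exact hne (congrArg (Sigma.mk k) (Fin.ext h2))
      simp [Nm, this]
    · intro hh; exact absurd (Finset.mem_univ _) hh
  · have h0 : ev d g p.1 p.2 l ((j : ℕ) + 1) = 0 := dif_neg (fun hh => h hh.2)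
    rw [h0]
    apply Finset.sum_eq_zero
    rintro ⟨k, i⟩ -
    have : ¬ (k = l ∧ (i : ℕ) = (j : ℕ) + 1) := by
      rintro ⟨rfl, h2⟩
      exact h (h2 ▸ i.2)
    simp [Nm, this]

theorem Nm_mul_apply (g : Matrix ((k : Fin t) × Fin (d k)) ((k : Fin t) × Fin (d k)) F)
    (p q : (k : Fin t) × Fin (d k)) :
    (Nm F d * g) p q = if 0 < (p.2 : ℕ) then ev d g p.1 (p.2 - 1) q.1 q.2 else 0 := by
  obtain ⟨k, i⟩ := p
  rw [Matrix.mul_apply]
  by_cases h : 0 < (i : ℕ)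
  · rw [if_pos h]
    have hi : (i : ℕ) - 1 < d k := by have := i.2; omega
    rw [Finset.sum_eq_single (⟨k, ⟨i - 1, hi⟩⟩ : (k : Fin t) × Fin (d k))]
    · rw [ev_eq d g hi q.2.2]
      have h1 : (i : ℕ) = (i : ℕ) - 1 + 1 := by omega
      simp [Nm, ← h1]
    · rintro ⟨k', i'⟩ - hne
      have : ¬ (k = k' ∧ (i : ℕ) = (i' : ℕ) + 1) := by
        rintro ⟨rfl, h2⟩
        exact hne (congrArg (Sigma.mk k) (Fin.ext (by simp only; omega)))
      simp [Nm, this]
    · intro hh; exact absurd (Finset.mem_univ _) hh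
  · rw [if_neg h]
    apply Finset.sum_eq_zero
    rintro ⟨k', i'⟩ -
    have : ¬ (k = k' ∧ (i : ℕ) = (i' : ℕ) + 1) := by
      rintro ⟨-, h2⟩; omega
    simp [Nm, this]

theorem comm_ev {g : Matrix ((k : Fin t) × Fin (d k)) ((k : Fin t) × Fin (d k)) F}
    (hg : g * Nm F d = Nm F d * g) (k l : Fin t) (i j : ℕ) (hi : i < d k) (hj : j < d l) :
    ev d g k i l (j + 1) = if 0 < i then ev d g k (i - 1) l j else 0 := by
  have := congrFun (congrFun hg ⟨k, ⟨i, hi⟩⟩) ⟨l, ⟨j, hj⟩⟩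
  rw [mul_Nm_apply, Nm_mul_apply] at this
  exact this

theorem col_formula {g : Matrix ((k : Fin t) × Fin (d k)) ((k : Fin t) × Fin (d k)) F}
    (hg : g * Nm F d = Nm F d * g) (k l : Fin t) :
    ∀ (j i : ℕ), i < d k → j < d l →
      ev d g k i l j = if j ≤ i then ev d g k (i - j) l 0 else 0 := by
  intro j
  induction j with
  | zero => intro i _ _; simp
  | succ j ih =>
    intro i hi hj
    rw [comm_ev d hg k l i j hi (by omega)]
    by_cases h0 : 0 < i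
    · rw [if_pos h0, ih (i - 1) (by omega) (by omega)]
      by_cases h1 : j + 1 ≤ i
      · rw [if_pos h1, if_pos (by omega)]
        have h2 : i - 1 - j = i - (j + 1) := by omega
        rw [h2]
      · rw [if_neg h1, if_neg (by omega)]
    · rw [if_neg h0, if_neg (by omega)]

theorem col_zero {g : Matrix ((k : Fin t) × Fin (d k)) ((k : Fin t) × Fin (d k)) F}
    (hd : ∀ k, 1 ≤ d k) (hg : g * Nm F d = Nm F d * g) (k l : Fin t) (s : ℕ)
    (hs : s + d l < d k) : ev d g k s l 0 = 0 := by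
  have hl := hd l
  have h1 := comm_ev d hg k l (s + d l) (d l - 1) hs (by omega)
  have h2 : ev d g k (s + d l) l (d l - 1 + 1) = 0 := dif_neg (fun hh => by omega)
  rw [h2, if_pos (by omega), col_formula d hg k l (d l - 1) (s + d l - 1) (by omega) (by omega),
    if_pos (by omega)] at h1
  have h3 : s + d l - 1 - (d l - 1) = s := by omega
  rw [h3] at h1
  exact h1.symm

/-- extension by zero of first-column data -/
noncomputable def xe (x : ((k : Fin t) × Fin (d k)) → Fin t → F) (k : Fin t) (s : ℕ) (l : Fin t) : F :=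
  if h : s < d k then x ⟨k, ⟨s, h⟩⟩ l else 0

theorem xe_eq (x : ((k : Fin t) × Fin (d k)) → Fin t → F) {k : Fin t} {s : ℕ} (h : s < d k)
    (l : Fin t) : xe d x k s l = x ⟨k, ⟨s, h⟩⟩ l := dif_pos h

theorem xe_apply (x : ((k : Fin t) × Fin (d k)) → Fin t → F) (p : (k : Fin t) × Fin (d k))
    (l : Fin t) : x p l = xe d x p.1 p.2 l :=
  (xe_eq d x p.2.2 l).symm

/-- matrix from first-column data -/
noncomputable def Mx (x : ((k : Fin t) × Fin (d k)) → Fin t → F) :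
    Matrix ((k : Fin t) × Fin (d k)) ((k : Fin t) × Fin (d k)) F :=
  Matrix.of fun p q => if (q.2 : ℕ) ≤ p.2 then xe d x p.1 (p.2 - q.2) q.1 else 0

theorem ev_Mx (x : ((k : Fin t) × Fin (d k)) → Fin t → F) (k l : Fin t) (i j : ℕ) :
    ev d (Mx d x) k i l j =
      if i < d k ∧ j < d l then (if j ≤ i then xe d x k (i - j) l else 0) else 0 := by
  by_cases h : i < d k ∧ j < d l
  · rw [if_pos h, ev_eq d _ h.1 h.2]; rfl
  · rw [if_neg h]; exact dif_neg h

/-- support condition -/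
def PP (x : ((k : Fin t) × Fin (d k)) → Fin t → F) : Prop :=
  ∀ (p : (k : Fin t) × Fin (d k)) (l : Fin t), (p.2 : ℕ) + d l < d p.1 → x p l = 0

theorem xe_zero {x : ((k : Fin t) × Fin (d k)) → Fin t → F} (hx : PP d x) (k l : Fin t) (s : ℕ)
    (hs : s + d l < d k) : xe d x k s l = 0 := by
  have h : s < d k := by omega
  rw [xe_eq d x h]
  exact hx ⟨k, ⟨s, h⟩⟩ l hs

theorem Mx_comm {x : ((k : Fin t) × Fin (d k)) → Fin t → F} (hx : PP d x) :
    Mx d x * Nm F d = Nm F d * Mx d x := by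
  ext p q
  rw [mul_Nm_apply, Nm_mul_apply, ev_Mx, ev_Mx]
  obtain ⟨k, i⟩ := p
  obtain ⟨l, j⟩ := q
  have hi := i.2
  have hj := j.2
  simp only
  by_cases h0 : 0 < (i : ℕ)
  · rw [if_pos h0, if_pos (show (i : ℕ) - 1 < d k ∧ (j : ℕ) < d l from ⟨by omega, hj⟩)]
    by_cases h1 : (j : ℕ) + 1 < d l
    · rw [if_pos ⟨hi, h1⟩]
      by_cases h2 : (j : ℕ) + 1 ≤ i
      · rw [if_pos h2, if_pos (by omega)]
        have h3 : (i : ℕ) - 1 - j = i - (j + 1) := by omega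
        rw [h3]
      · rw [if_neg h2, if_neg (by omega)]
    · rw [if_neg (fun hh => h1 hh.2)]
      by_cases h2 : (j : ℕ) ≤ i - 1
      · rw [if_pos h2]
        exact (xe_zero d hx k l _ (by omega)).symm
      · rw [if_neg h2]
  · rw [if_neg h0]
    by_cases h1 : (i : ℕ) < d k ∧ (j : ℕ) + 1 < d l
    · rw [if_pos h1, if_neg (by omega)]
    · rw [if_neg h1]

/-- first-column data of a matrix -/
noncomputable def fc (g : Matrix ((k : Fin t) × Fin (d k)) ((k : Fin t) × Fin (d k)) F) :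
    ((k : Fin t) × Fin (d k)) → Fin t → F := fun p l => ev d g p.1 p.2 l 0

theorem xe_fc (g : Matrix ((k : Fin t) × Fin (d k)) ((k : Fin t) × Fin (d k)) F) (k l : Fin t)
    (s : ℕ) (hs : s < d k) : xe d (fc d g) k s l = ev d g k s l 0 := by
  rw [xe_eq d _ hs]; rfl

theorem fc_PP {g : Matrix ((k : Fin t) × Fin (d k)) ((k : Fin t) × Fin (d k)) F}
    (hd : ∀ k, 1 ≤ d k) (hg : g * Nm F d = Nm F d * g) : PP d (fc d g) := by
  intro p l h
  exact col_zero d hd hg p.1 l p.2 h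

theorem Mx_fc {g : Matrix ((k : Fin t) × Fin (d k)) ((k : Fin t) × Fin (d k)) F}
    (hg : g * Nm F d = Nm F d * g) : Mx d (fc d g) = g := by
  ext p q
  rw [ev_apply d g p q, col_formula d hg p.1 q.1 q.2 p.2 p.2.2 q.2.2]
  show (if (q.2 : ℕ) ≤ p.2 then xe d (fc d g) p.1 (p.2 - q.2) q.1 else 0) = _
  by_cases h : (q.2 : ℕ) ≤ p.2
  · rw [if_pos h, if_pos h, xe_fc d g _ _ _ (by have := p.2.2; omega)]
  · rw [if_neg h, if_neg h]

theorem fc_Mx (hd : ∀ k, 1 ≤ d k) (x : ((k : Fin t) × Fin (d k)) → Fin t → F) :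
    fc d (Mx d x) = x := by
  funext p l
  show ev d (Mx d x) p.1 p.2 l 0 = x p l
  rw [ev_Mx, if_pos ⟨p.2.2, hd l⟩, if_pos (Nat.zero_le _), Nat.sub_zero, ← xe_apply]

theorem comm_iff (g : Matrix ((k : Fin t) × Fin (d k)) ((k : Fin t) × Fin (d k)) F) :
    g * Cfsg.jordanTypeMatrix d F = Cfsg.jordanTypeMatrix d F * g ↔ g * Nm F d = Nm F d * g := by
  rw [jordan_eq, mul_add, add_mul, mul_one, one_mul]
  exact add_right_inj _

end Cfsg.Agent.Helper8.JC
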