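import Mathlib
import Cfsg.Agent.Helper8.JC1

set_option autoImplicit false

namespace Cfsg.Agent.Helper8.JC

variable {F : Type*} [Field F] {t : ℕ} (d : Fin t → ℕ)

/-- diagonal blocks -/
noncomputable def G0 (x : ((k : Fin t) × Fin (d k)) → Fin t → F) (i : ℕ) :
    Matrix {k : Fin t // d k = i} {k : Fin t // d k = i} F :=
  Matrix.of fun k l => xe d x k.1 0 l.1

/-- the block key -/
def key (p : (k : Fin t) × Fin (d k)) : ℕ ×ₗ ℕ :=
  toLex (d p.1 - p.2, Finset.univ.sup d - d p.1)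

theorem Mx_bt {x : ((k : Fin t) × Fin (d k)) → Fin t → F} (hx : PP d x) :
    (Mx d x).BlockTriangular (key d) := by
  intro p q hlt
  show (if (q.2 : ℕ) ≤ p.2 then xe d x p.1 (p.2 - q.2) q.1 else 0) = 0
  by_cases h : (q.2 : ℕ) ≤ p.2
  · rw [if_pos h]
    by_contra hne
    have h1 : ¬ ((p.2 : ℕ) - q.2 + d q.1 < d p.1) := fun hh => hne (xe_zero d hx _ _ _ hh)
    have hp := p.2.2
    have hq := q.2.2
    have hD1 : d p.1 ≤ Finset.univ.sup d := Finset.le_sup (Finset.mem_univ _)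
    have hD2 : d q.1 ≤ Finset.univ.sup d := Finset.le_sup (Finset.mem_univ _)
    unfold key at hlt
    rw [Prod.Lex.toLex_lt_toLex] at hlt
    simp only at hlt
    omega
  · rw [if_neg h]

theorem key_eq_iff (p q : (k : Fin t) × Fin (d k)) :
    key d p = key d q ↔ d p.1 = d q.1 ∧ (p.2 : ℕ) = q.2 := by
  have hp := p.2.2
  have hq := q.2.2
  have hD1 : d p.1 ≤ Finset.univ.sup d := Finset.le_sup (Finset.mem_univ _)
  have hD2 : d q.1 ≤ Finset.univ.sup d := Finset.le_sup (Finset.mem_univ _)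
  unfold key
  rw [toLex_inj, Prod.mk.injEq]
  constructor
  · rintro ⟨h1, h2⟩; constructor <;> omega
  · rintro ⟨h1, h2⟩; constructor <;> omega

/-- the diagonal block of a key is indexed by the blocks of one size -/
noncomputable def blockEquiv (p₀ : (k : Fin t) × Fin (d k)) :
    {p : (k : Fin t) × Fin (d k) // key d p = key d p₀} ≃ {k : Fin t // d k = d p₀.1} where
  toFun p := ⟨p.1.1, ((key_eq_iff d _ _).1 p.2).1⟩
  invFun k := ⟨⟨k.1, ⟨p₀.2, by have := p₀.2.2; rw [k.2]; exact this⟩⟩,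
    (key_eq_iff d _ _).2 ⟨k.2, rfl⟩⟩
  left_inv p := by
    obtain ⟨⟨k, i⟩, hp⟩ := p
    have h := ((key_eq_iff d _ _).1 hp).2
    apply Subtype.ext
    exact congrArg (Sigma.mk k) (Fin.ext h.symm)
  right_inv k := rfl

theorem block_det (x : ((k : Fin t) × Fin (d k)) → Fin t → F) (p₀ : (k : Fin t) × Fin (d k)) :
    ((Mx d x).toSquareBlock (key d) (key d p₀)).det = (G0 d x (d p₀.1)).det := by
  have : (Mx d x).toSquareBlock (key d) (key d p₀) =
      (G0 d x (d p₀.1)).submatrix (blockEquiv d p₀) (blockEquiv d p₀) := by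
    ext ⟨p, hp⟩ ⟨q, hq⟩
    have h1 := ((key_eq_iff d _ _).1 hp).2
    have h2 := ((key_eq_iff d _ _).1 hq).2
    show (if (q.2 : ℕ) ≤ p.2 then xe d x p.1 (p.2 - q.2) q.1 else 0) = xe d x p.1 0 q.1
    rw [if_pos (by omega)]
    have h3 : (p.2 : ℕ) - q.2 = 0 := by omega
    rw [h3]
  rw [this, Matrix.det_submatrix_equiv_self]

theorem det_ne_zero_iff (hd : ∀ k, 1 ≤ d k) {x : ((k : Fin t) × Fin (d k)) → Fin t → F}
    (hx : PP d x) : (Mx d x).det ≠ 0 ↔ ∀ i : ℕ, (G0 d x i).det ≠ 0 := by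
  rw [(Mx_bt d hx).det, Finset.prod_ne_zero_iff]
  constructor
  · intro h i
    by_cases hne : Nonempty {k : Fin t // d k = i}
    · obtain ⟨⟨k, rfl⟩⟩ := hne
      have := h (key d ⟨k, ⟨0, hd k⟩⟩) (Finset.mem_image_of_mem _ (Finset.mem_univ _))
      rwa [block_det] at this
    · haveI : IsEmpty {k : Fin t // d k = i} := not_nonempty_iff.1 hne
      rw [Matrix.det_isEmpty]; exact one_ne_zero
  · intro h a ha
    obtain ⟨p₀, -, rfl⟩ := Finset.mem_image.1 ha
    rw [block_det]; exact h _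

end Cfsg.Agent.Helper8.JC
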