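import Mathlib
import Cfsg.Agent.Helper8.JC2

set_option autoImplicit false

namespace Cfsg.Agent.Helper8.JC

variable {F : Type*} [Field F] {t : ℕ} (d : Fin t → ℕ)

/-- commuting units correspond to first-column data -/
noncomputable def commEquiv (hd : ∀ k, 1 ≤ d k) :
    {g : GL ((k : Fin t) × Fin (d k)) F //
      (g : Matrix ((k : Fin t) × Fin (d k)) ((k : Fin t) × Fin (d k)) F) *
          Cfsg.jordanTypeMatrix d F =
        Cfsg.jordanTypeMatrix d F *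
          (g : Matrix ((k : Fin t) × Fin (d k)) ((k : Fin t) × Fin (d k)) F)} ≃
    {x : ((k : Fin t) × Fin (d k)) → Fin t → F // PP d x ∧ ∀ i : ℕ, (G0 d x i).det ≠ 0} where
  toFun g := ⟨fc d (g.1 : Matrix ((k : Fin t) × Fin (d k)) ((k : Fin t) × Fin (d k)) F), by
    have hg := (comm_iff d _).1 g.2
    refine ⟨fc_PP d hd hg, ?_⟩
    rw [← det_ne_zero_iff d hd (fc_PP d hd hg), Mx_fc d hg]
    exact ((Matrix.isUnit_iff_isUnit_det _).1 g.1.isUnit).ne_zero⟩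
  invFun x := ⟨((Matrix.isUnit_iff_isUnit_det (Mx d x.1)).2
      (IsUnit.mk0 _ ((det_ne_zero_iff d hd x.2.1).2 x.2.2))).unit, by
    rw [IsUnit.unit_spec]
    exact (comm_iff d _).2 (Mx_comm d x.2.1)⟩
  left_inv g := by
    apply Subtype.ext
    apply Units.ext
    simp only [IsUnit.unit_spec]
    exact Mx_fc d ((comm_iff d _).1 g.2)
  right_inv x := by
    apply Subtype.ext
    simp only [IsUnit.unit_spec]
    exact fc_Mx d hd x.1

/-- entries of a family of diagonal blocks -/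
noncomputable def zz {D : ℕ} (Z : (i : Fin (D + 1)) →
      {Z : Matrix {k : Fin t // d k = (i : ℕ)} {k : Fin t // d k = (i : ℕ)} F // Z.det ≠ 0})
    (a b : Fin t) : F :=
  if h : d a = d b ∧ d a < D + 1 then (Z ⟨d a, h.2⟩).1 ⟨a, rfl⟩ ⟨b, h.1.symm⟩ else 0

theorem zz_eq {D : ℕ} (Z : (i : Fin (D + 1)) →
      {Z : Matrix {k : Fin t // d k = (i : ℕ)} {k : Fin t // d k = (i : ℕ)} F // Z.det ≠ 0})
    (i : Fin (D + 1)) (a b : Fin t) (ha : d a = (i : ℕ)) (hb : d b = (i : ℕ)) :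
    zz d Z a b = (Z i).1 ⟨a, ha⟩ ⟨b, hb⟩ := by
  have h : d a = d b ∧ d a < D + 1 := ⟨ha.trans hb.symm, ha ▸ i.2⟩
  unfold zz
  rw [dif_pos h]
  have hi : (⟨d a, h.2⟩ : Fin (D + 1)) = i := Fin.ext ha
  subst hi
  rfl

/-- assemble first-column data from free coordinates and diagonal blocks -/
noncomputable def asm {D : ℕ}
    (y : {τ : ((k : Fin t) × Fin (d k)) × Fin t //
        d τ.1.1 ≤ τ.1.2 + d τ.2 ∧ ¬((τ.1.2 : ℕ) = 0 ∧ d τ.1.1 = d τ.2)} → F)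
    (Z : (i : Fin (D + 1)) →
      {Z : Matrix {k : Fin t // d k = (i : ℕ)} {k : Fin t // d k = (i : ℕ)} F // Z.det ≠ 0})
    (p : (k : Fin t) × Fin (d k)) (l : Fin t) : F :=
  if (p.2 : ℕ) = 0 ∧ d p.1 = d l then zz d Z p.1 l
  else if h' : d p.1 ≤ p.2 + d l ∧ ¬((p.2 : ℕ) = 0 ∧ d p.1 = d l) then y ⟨(p, l), h'⟩ else 0

theorem asm_PP {D : ℕ}
    (y : {τ : ((k : Fin t) × Fin (d k)) × Fin t //
        d τ.1.1 ≤ τ.1.2 + d τ.2 ∧ ¬((τ.1.2 : ℕ) = 0 ∧ d τ.1.1 = d τ.2)} → F)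
    (Z : (i : Fin (D + 1)) →
      {Z : Matrix {k : Fin t // d k = (i : ℕ)} {k : Fin t // d k = (i : ℕ)} F // Z.det ≠ 0}) :
    PP d (asm d y Z) := by
  intro p l h
  unfold asm
  rw [if_neg (by omega), dif_neg (by omega)]

theorem G0_asm (hd : ∀ k, 1 ≤ d k) {D : ℕ}
    (y : {τ : ((k : Fin t) × Fin (d k)) × Fin t //
        d τ.1.1 ≤ τ.1.2 + d τ.2 ∧ ¬((τ.1.2 : ℕ) = 0 ∧ d τ.1.1 = d τ.2)} → F)
    (Z : (i : Fin (D + 1)) →
      {Z : Matrix {k : Fin t // d k = (i : ℕ)} {k : Fin t // d k = (i : ℕ)} F // Z.det ≠ 0})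
    (i : Fin (D + 1)) : G0 d (asm d y Z) i = (Z i).1 := by
  ext k l
  show xe d (asm d y Z) k.1 0 l.1 = _
  rw [xe_eq d _ (hd k.1)]
  unfold asm
  rw [if_pos ⟨rfl, k.2.trans l.2.symm⟩]
  exact zz_eq d Z i k.1 l.1 k.2 l.2

theorem asm_free {D : ℕ}
    (y : {τ : ((k : Fin t) × Fin (d k)) × Fin t //
        d τ.1.1 ≤ τ.1.2 + d τ.2 ∧ ¬((τ.1.2 : ℕ) = 0 ∧ d τ.1.1 = d τ.2)} → F)
    (Z : (i : Fin (D + 1)) →
      {Z : Matrix {k : Fin t // d k = (i : ℕ)} {k : Fin t // d k = (i : ℕ)} F // Z.det ≠ 0})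
    (τ : {τ : ((k : Fin t) × Fin (d k)) × Fin t //
        d τ.1.1 ≤ τ.1.2 + d τ.2 ∧ ¬((τ.1.2 : ℕ) = 0 ∧ d τ.1.1 = d τ.2)}) :
    asm d y Z τ.1.1 τ.1.2 = y τ := by
  unfold asm
  rw [if_neg τ.2.2, dif_pos τ.2]

theorem asm_self {x : ((k : Fin t) × Fin (d k)) → Fin t → F}
    (hx : PP d x) (hdet : ∀ i : ℕ, (G0 d x i).det ≠ 0) :
    asm d (fun τ => x τ.1.1 τ.1.2)
      (fun i : Fin (Finset.univ.sup d + 1) => ⟨G0 d x i, hdet i⟩) = x := by
  funext p l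
  unfold asm
  by_cases h : (p.2 : ℕ) = 0 ∧ d p.1 = d l
  · rw [if_pos h]
    have hD : d p.1 < Finset.univ.sup d + 1 :=
      Nat.lt_succ_of_le (Finset.le_sup (Finset.mem_univ _))
    rw [zz_eq d _ ⟨d p.1, hD⟩ p.1 l rfl h.2.symm]
    show xe d x p.1 0 l = x p l
    rw [xe_apply d x p l, h.1]
  · rw [if_neg h]
    by_cases h' : d p.1 ≤ p.2 + d l ∧ ¬((p.2 : ℕ) = 0 ∧ d p.1 = d l)
    · rw [dif_pos h']
    · rw [dif_neg h']
      exact (hx p l (by omega)).symm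

/-- first-column data splits into free coordinates and invertible diagonal blocks -/
noncomputable def splitEquiv (hd : ∀ k, 1 ≤ d k) :
    {x : ((k : Fin t) × Fin (d k)) → Fin t → F // PP d x ∧ ∀ i : ℕ, (G0 d x i).det ≠ 0} ≃
    ({τ : ((k : Fin t) × Fin (d k)) × Fin t //
        d τ.1.1 ≤ τ.1.2 + d τ.2 ∧ ¬((τ.1.2 : ℕ) = 0 ∧ d τ.1.1 = d τ.2)} → F) ×
    ((i : Fin (Finset.univ.sup d + 1)) →
      {Z : Matrix {k : Fin t // d k = (i : ℕ)} {k : Fin t // d k = (i : ℕ)} F // Z.det ≠ 0}) where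
  toFun x := (fun τ => x.1 τ.1.1 τ.1.2, fun i => ⟨G0 d x.1 i, x.2.2 i⟩)
  invFun yz := ⟨asm d yz.1 yz.2, asm_PP d _ _, by
    intro i
    by_cases hi : i < Finset.univ.sup d + 1
    · have h1 : G0 d (asm d yz.1 yz.2) i = (yz.2 ⟨i, hi⟩).1 := G0_asm d hd yz.1 yz.2 ⟨i, hi⟩
      rw [h1]; exact (yz.2 ⟨i, hi⟩).2
    · haveI : IsEmpty {k : Fin t // d k = i} := ⟨fun k => hi (by
        have h1 := Finset.le_sup (f := d) (Finset.mem_univ k.1)
        have h2 := k.2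
        omega)⟩
      rw [Matrix.det_isEmpty]; exact one_ne_zero⟩
  left_inv x := Subtype.ext (asm_self d x.2.1 x.2.2)
  right_inv yz := by
    refine Prod.ext ?_ ?_
    · funext τ; exact asm_free d yz.1 yz.2 τ
    · funext i; exact Subtype.ext (G0_asm d hd yz.1 yz.2 i)

theorem card_det_ne_zero [Fintype F] (S : Type*) [Fintype S] [DecidableEq S] (n : ℕ)
    (hn : Fintype.card S = n) :
    Nat.card {Z : Matrix S S F // Z.det ≠ 0} =
      ∏ j : Fin n, (Fintype.card F ^ n - Fintype.card F ^ (j : ℕ)) := by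
  rw [← Matrix.card_GL_field n (𝔽 := F)]
  let e : S ≃ Fin n := Fintype.equivFinOfCardEq hn
  let e1 : GL S F ≃ {Z : Matrix S S F // Z.det ≠ 0} :=
    { toFun := fun u => ⟨u.1, ((Matrix.isUnit_iff_isUnit_det _).1 u.isUnit).ne_zero⟩
      invFun := fun Z => ((Matrix.isUnit_iff_isUnit_det Z.1).2 (IsUnit.mk0 _ Z.2)).unit
      left_inv := fun u => by
        apply Units.ext
        simp only [IsUnit.unit_spec]
      right_inv := fun Z => by
        apply Subtype.ext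
        simp only [IsUnit.unit_spec] }
  let e2 : GL S F ≃* GL (Fin n) F := Units.mapEquiv (Matrix.reindexAlgEquiv F F e).toMulEquiv
  exact Nat.card_congr (e1.symm.trans e2.toEquiv)

end Cfsg.Agent.Helper8.JC
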