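import Mathlib
import Cfsg.Agent.Helper8.JC3

set_option autoImplicit false

namespace Cfsg.Agent.Helper8.JC

variable {F : Type*} [Field F] {t : ℕ} (d : Fin t → ℕ)

/-- number of free coordinates in a block of shape `(n, m)` -/
def ff (n m : ℕ) : ℕ := if n = m then n - 1 else min n m

theorem ff_eq (n m : ℕ) (hn : 1 ≤ n) :
    ∑ s ∈ Finset.range n, (if n ≤ s + m ∧ ¬(s = 0 ∧ n = m) then 1 else 0) = ff n m := by
  unfold ff
  by_cases h : n = m
  · subst h
    rw [if_pos rfl]
    obtain ⟨n', rfl⟩ : ∃ n', n = n' + 1 := ⟨n - 1, by omega⟩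
    rw [Finset.sum_range_succ']
    simp
  · rw [if_neg h, ← Finset.card_filter]
    have : (Finset.range n).filter (fun s => n ≤ s + m ∧ ¬(s = 0 ∧ n = m)) =
        Finset.Ico (n - m) n := by
      ext s
      simp only [Finset.mem_filter, Finset.mem_range, Finset.mem_Ico]
      omega
    rw [this, Nat.card_Ico]
    omega

theorem card_Rf (hd : ∀ k, 1 ≤ d k) :
    Nat.card {τ : ((k : Fin t) × Fin (d k)) × Fin t //
        d τ.1.1 ≤ τ.1.2 + d τ.2 ∧ ¬((τ.1.2 : ℕ) = 0 ∧ d τ.1.1 = d τ.2)} =
      ∑ k : Fin t, ∑ l : Fin t, ff (d k) (d l) := by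
  rw [Nat.card_eq_fintype_card, Fintype.card_subtype, Finset.card_filter, Fintype.sum_prod_type,
    Fintype.sum_sigma]
  apply Finset.sum_congr rfl; intro k _
  rw [Finset.sum_comm]
  apply Finset.sum_congr rfl; intro l _
  rw [← ff_eq _ _ (hd k), ← Fin.sum_univ_eq_sum_range]

theorem sum_fiber (h : ℕ → ℕ) :
    ∑ k : Fin t, h (d k) = ∑ i ∈ Finset.range (Finset.univ.sup d + 1),
      (Finset.univ.filter (fun k : Fin t => d k = i)).card * h i := by
  rw [← Finset.sum_fiberwise_of_maps_to' (s := Finset.univ) (g := d)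
    (t := Finset.range (Finset.univ.sup d + 1))
    (fun k _ => Finset.mem_range.2 (Nat.lt_succ_of_le (Finset.le_sup (Finset.mem_univ k)))) h]
  apply Finset.sum_congr rfl
  intro i _
  rw [Finset.sum_const, smul_eq_mul]

theorem expo_aux (R : Finset ℕ) (c : ℕ → ℕ) :
    ∑ i ∈ R, ∑ j ∈ R, c i * (c j * ff i j) =
      2 * (∑ i ∈ R, ∑ j ∈ R, if i < j then i * c i * c j else 0) +
        ∑ i ∈ R, (i - 1) * c i ^ 2 := by
  have h2 : ∀ i j, c i * (c j * ff i j) = (if i < j then i * c i * c j else 0) +
      (if j < i then j * c j * c i else 0) + (if i = j then (i - 1) * c i ^ 2 else 0) := by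
    intro i j
    unfold ff
    rcases lt_trichotomy i j with h | h | h
    · rw [if_pos h, if_neg (by omega), if_neg (by omega), if_neg (by omega),
        min_eq_left (by omega)]; ring
    · subst h
      simp only [lt_irrefl, if_false, eq_self_iff_true, if_true, zero_add]
      ring
    · rw [if_neg (by omega), if_pos h, if_neg (by omega), if_neg (by omega),
        min_eq_right (by omega)]; ring
  simp only [h2, Finset.sum_add_distrib]
  rw [Finset.sum_comm (f := fun i j => if j < i then j * c j * c i else 0)]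
  have h3 : ∑ i ∈ R, ∑ j ∈ R, (if i = j then (i - 1) * c i ^ 2 else 0) =
      ∑ i ∈ R, (i - 1) * c i ^ 2 := by
    apply Finset.sum_congr rfl
    intro i hi
    rw [Finset.sum_ite_eq R i (fun _ => (i - 1) * c i ^ 2), if_pos hi]
  rw [h3]
  ring

theorem expo :
    ∑ k : Fin t, ∑ l : Fin t, ff (d k) (d l) =
      2 * (∑ i ∈ Finset.range (Finset.univ.sup d + 1),
        ∑ j ∈ Finset.range (Finset.univ.sup d + 1),
        if i < j then i * (Finset.univ.filter (fun k : Fin t => d k = i)).card *
          (Finset.univ.filter (fun k : Fin t => d k = j)).card else 0) +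
      ∑ i ∈ Finset.range (Finset.univ.sup d + 1),
        (i - 1) * (Finset.univ.filter (fun k : Fin t => d k = i)).card ^ 2 := by
  have h0 : ∑ k : Fin t, ∑ l : Fin t, ff (d k) (d l) =
      ∑ i ∈ Finset.range (Finset.univ.sup d + 1), ∑ j ∈ Finset.range (Finset.univ.sup d + 1),
        (Finset.univ.filter (fun k : Fin t => d k = i)).card *
          ((Finset.univ.filter (fun k : Fin t => d k = j)).card * ff i j) := by
    rw [sum_fiber d (fun i => ∑ l : Fin t, ff i (d l))]
    apply Finset.sum_congr rfl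
    intro i _
    beta_reduce
    rw [sum_fiber d (fun j => ff i j), Finset.mul_sum]
  rw [h0]
  exact expo_aux (Finset.range (Finset.univ.sup d + 1))
    (fun i => (Finset.univ.filter (fun k : Fin t => d k = i)).card)

theorem main [Fintype F] {q : ℕ} (hF : Fintype.card F = q) (hd : ∀ k, 1 ≤ d k) :
    Nat.card {g : GL ((k : Fin t) × Fin (d k)) F //
      (g : Matrix ((k : Fin t) × Fin (d k)) ((k : Fin t) × Fin (d k)) F) *
          Cfsg.jordanTypeMatrix d F =
        Cfsg.jordanTypeMatrix d F *
          (g : Matrix ((k : Fin t) × Fin (d k)) ((k : Fin t) × Fin (d k)) F)} =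
      q ^ (2 * (∑ i ∈ Finset.range (Finset.univ.sup d + 1),
        ∑ j ∈ Finset.range (Finset.univ.sup d + 1),
        if i < j then i * (Finset.univ.filter (fun k : Fin t => d k = i)).card *
          (Finset.univ.filter (fun k : Fin t => d k = j)).card else 0) +
      ∑ i ∈ Finset.range (Finset.univ.sup d + 1),
        (i - 1) * (Finset.univ.filter (fun k : Fin t => d k = i)).card ^ 2) *
      ∏ i ∈ Finset.range (Finset.univ.sup d + 1),
        ∏ j : Fin ((Finset.univ.filter (fun k : Fin t => d k = i)).card),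
          (q ^ (Finset.univ.filter (fun k : Fin t => d k = i)).card - q ^ (j : ℕ)) := by
  rw [Nat.card_congr ((commEquiv d hd).trans (splitEquiv d hd)), Nat.card_prod, Nat.card_fun,
    Nat.card_pi, card_Rf d hd, expo d, Nat.card_eq_fintype_card (α := F), hF]
  congr 1
  rw [← Fin.prod_univ_eq_prod_range (fun i =>
    ∏ j : Fin ((Finset.univ.filter (fun k : Fin t => d k = i)).card),
      (q ^ (Finset.univ.filter (fun k : Fin t => d k = i)).card - q ^ (j : ℕ)))]
  apply Finset.prod_congr rfl
  intro i _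
  rw [card_det_ne_zero _ _ (Fintype.card_subtype _), hF]

end Cfsg.Agent.Helper8.JC
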