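import Mathlib
import Cfsg.Agent.Helper8.GC2
import Cfsg.Agent.Helper8.JC4

set_option autoImplicit false

namespace Cfsg.Agent.Helper8.GC

open Matrix
open Cfsg.Agent.Helper8.JC

variable {K : Type*} [Field K] {t : ℕ} (d : Fin t → ℕ)

/-- the antidiagonal-block form -/
def H0 (K : Type*) [Field K] {t : ℕ} (d : Fin t → ℕ) :
    Matrix ((k : Fin t) × Fin (d k)) ((k : Fin t) × Fin (d k)) K :=
  Matrix.of fun p q => if p.1 = q.1 ∧ (p.2 : ℕ) + q.2 + 1 = d p.1 then 1 else 0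

/-- flip of an index inside its block -/
def flip (p : (k : Fin t) × Fin (d k)) : (k : Fin t) × Fin (d k) :=
  ⟨p.1, ⟨d p.1 - 1 - p.2, by have := p.2.2; omega⟩⟩

theorem flip_flip (p : (k : Fin t) × Fin (d k)) : flip d (flip d p) = p := by
  obtain ⟨k, i⟩ := p
  exact congrArg (Sigma.mk k) (Fin.ext (by
    show d k - 1 - (d k - 1 - (i : ℕ)) = i
    have := i.2; omega))

theorem H0_cond (p r : (k : Fin t) × Fin (d k)) :
    (p.1 = r.1 ∧ (p.2 : ℕ) + r.2 + 1 = d p.1) ↔ r = flip d p := by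
  obtain ⟨k, i⟩ := p
  obtain ⟨l, j⟩ := r
  constructor
  · rintro ⟨h1, h2⟩
    simp only at h1 h2
    subst h1
    exact congrArg (Sigma.mk k) (Fin.ext (by
      show (j : ℕ) = d k - 1 - (i : ℕ)
      omega))
  · intro h
    have h1 : l = k := congrArg Sigma.fst h
    subst h1
    have h2 : j = ⟨d l - 1 - (i : ℕ), by have := i.2; omega⟩ := by
      have := eq_of_heq (Sigma.mk.inj_iff.1 h).2
      exact this
    have hi := i.2
    refine ⟨rfl, ?_⟩
    show (i : ℕ) + (j : ℕ) + 1 = d l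
    rw [h2]
    show (i : ℕ) + (d l - 1 - (i : ℕ)) + 1 = d l
    omega

theorem H0_apply (p q : (k : Fin t) × Fin (d k)) :
    H0 K d p q = if q = flip d p then 1 else 0 := by
  show (if p.1 = q.1 ∧ (p.2 : ℕ) + q.2 + 1 = d p.1 then (1 : K) else 0) = _
  exact if_congr (H0_cond d p q) rfl rfl

theorem H0_mul_apply (g : Matrix ((k : Fin t) × Fin (d k)) ((k : Fin t) × Fin (d k)) K)
    (p q : (k : Fin t) × Fin (d k)) : (H0 K d * g) p q = g (flip d p) q := by
  rw [Matrix.mul_apply, Finset.sum_eq_single (flip d p)]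
  · rw [H0_apply, if_pos rfl, one_mul]
  · intro r _ hr
    rw [H0_apply, if_neg hr, zero_mul]
  · intro h; exact absurd (Finset.mem_univ _) h

theorem mul_H0_apply (g : Matrix ((k : Fin t) × Fin (d k)) ((k : Fin t) × Fin (d k)) K)
    (p q : (k : Fin t) × Fin (d k)) : (g * H0 K d) p q = g p (flip d q) := by
  rw [Matrix.mul_apply, Finset.sum_eq_single (flip d q)]
  · rw [H0_apply, if_pos (flip_flip d q).symm, mul_one]
  · intro r _ hr
    rw [H0_apply, if_neg (fun h => hr (by rw [h, flip_flip])), mul_zero]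
  · intro h; exact absurd (Finset.mem_univ _) h

theorem H0_sq : H0 K d * H0 K d = 1 := by
  ext p q
  rw [H0_mul_apply, H0_apply, flip_flip, Matrix.one_apply]
  exact if_congr eq_comm rfl rfl

theorem dg_H0 (σ : K →+* K) : dg σ (H0 K d) = H0 K d := by
  ext p q
  rw [dg_apply, H0_apply, H0_apply]
  by_cases h : q = flip d p
  · rw [if_pos h, if_pos (by rw [h, flip_flip]), map_one]
  · rw [if_neg h, if_neg (fun hh => h (by rw [hh, flip_flip])), map_zero]

theorem HN_apply (p q : (k : Fin t) × Fin (d k)) :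
    (H0 K d * Nm K d) p q = if p.1 = q.1 ∧ (p.2 : ℕ) + q.2 + 2 = d p.1 then 1 else 0 := by
  rw [mul_Nm_apply]
  unfold ev
  by_cases h : (q.2 : ℕ) + 1 < d q.1
  · rw [dif_pos ⟨p.2.2, h⟩]
    show (if p.1 = q.1 ∧ (p.2 : ℕ) + ((q.2 : ℕ) + 1) + 1 = d p.1 then (1 : K) else 0) = _
    exact if_congr (by constructor <;> rintro ⟨h1, h2⟩ <;> exact ⟨h1, by omega⟩) rfl rfl
  · rw [dif_neg (fun hh => h hh.2), if_neg]
    rintro ⟨h1, h2⟩
    have := congrArg d h1
    omega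

theorem dg_HN (σ : K →+* K) : dg σ (H0 K d * Nm K d) = H0 K d * Nm K d := by
  ext p q
  rw [dg_apply, HN_apply, HN_apply]
  by_cases h : p.1 = q.1 ∧ (p.2 : ℕ) + q.2 + 2 = d p.1
  · rw [if_pos h, if_pos ⟨h.1.symm, by have := congrArg d h.1; omega⟩, map_one]
  · rw [if_neg h, if_neg (fun hh => h ⟨hh.1.symm, by have := congrArg d hh.1; omega⟩), map_zero]

theorem H0_N (σ : K →+* K) : H0 K d * Nm K d = dg σ (Nm K d) * H0 K d := by
  calc H0 K d * Nm K d = dg σ (H0 K d * Nm K d) := (dg_HN d σ).symm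
    _ = dg σ (Nm K d) * H0 K d := by rw [dg_mul, dg_H0]

theorem N_H0 (σ : K →+* K) : Nm K d * H0 K d = H0 K d * dg σ (Nm K d) := by
  calc Nm K d * H0 K d = (H0 K d * H0 K d) * Nm K d * H0 K d := by rw [H0_sq, one_mul]
    _ = H0 K d * (H0 K d * Nm K d) * H0 K d := by simp only [mul_assoc]
    _ = H0 K d * dg σ (Nm K d) * (H0 K d * H0 K d) := by rw [H0_N d σ]; simp only [mul_assoc]
    _ = H0 K d * dg σ (Nm K d) := by rw [H0_sq, mul_one]

/-- `1 + γ N` -/
def W (γ : K) : Matrix ((k : Fin t) × Fin (d k)) ((k : Fin t) × Fin (d k)) K := 1 + γ • Nm K d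

theorem W_comm_N (γ : K) : W d γ * Nm K d = Nm K d * W d γ := by
  unfold W
  rw [add_mul, mul_add, one_mul, mul_one, smul_mul_assoc, mul_smul_comm]

theorem W_comm (γ δ : K) : W d γ * W d δ = W d δ * W d γ := by
  have h : Commute (γ • Nm K d) (δ • Nm K d) :=
    ((Commute.refl (Nm K d)).smul_left γ).smul_right δ
  have h2 : Commute (W d γ) (W d δ) :=
    Commute.add_left (Commute.one_left _) (Commute.add_right (Commute.one_right _) h)
  exact h2

theorem dg_W (σ : K →+* K) (γ : K) : dg σ (W d γ) = 1 + σ γ • dg σ (Nm K d) := by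
  unfold W
  rw [dg_add, dg_one, dg_smul]

/-- scalar first row -/
def FR (g : Matrix ((k : Fin t) × Fin (d k)) ((k : Fin t) × Fin (d k)) K) (c : K) : Prop :=
  ∀ k l : Fin t, ev d g k 0 l 0 = if k = l then c else 0

theorem ev_smul (c : K) (g : Matrix ((k : Fin t) × Fin (d k)) ((k : Fin t) × Fin (d k)) K)
    (k l : Fin t) (i j : ℕ) : ev d (c • g) k i l j = c * ev d g k i l j := by
  unfold ev
  by_cases h : i < d k ∧ j < d l
  · rw [dif_pos h, dif_pos h]; rfl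
  · rw [dif_neg h, dif_neg h, mul_zero]

theorem FR_one (hd : ∀ k, 1 ≤ d k) :
    FR d (1 : Matrix ((k : Fin t) × Fin (d k)) ((k : Fin t) × Fin (d k)) K) 1 := by
  intro k l
  rw [ev_eq d _ (hd k) (hd l), Matrix.one_apply]
  by_cases h : k = l
  · subst h
    rw [if_pos rfl, if_pos rfl]
  · rw [if_neg h, if_neg (fun hh => h (congrArg Sigma.fst hh))]

theorem FR_W (hd : ∀ k, 1 ≤ d k) (γ : K) : FR d (W d γ) 1 := by
  intro k l
  have h1 := FR_one (K := K) d hd k l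
  rw [ev_eq d _ (hd k) (hd l)] at h1 ⊢
  unfold W
  rw [Matrix.add_apply, h1, Matrix.smul_apply]
  have h2 : Nm K d ⟨k, ⟨0, hd k⟩⟩ ⟨l, ⟨0, hd l⟩⟩ = 0 := by
    show (if k = l ∧ (0 : ℕ) = 0 + 1 then (1 : K) else 0) = 0
    rw [if_neg (by omega)]
  rw [h2, smul_zero, add_zero]

theorem FR_mul (hd : ∀ k, 1 ≤ d k)
    {g : Matrix ((k : Fin t) × Fin (d k)) ((k : Fin t) × Fin (d k)) K}
    (hg : g * Nm K d = Nm K d * g) {c : K} (hFR : FR d g c)
    (h : Matrix ((k : Fin t) × Fin (d k)) ((k : Fin t) × Fin (d k)) K) (k l : Fin t) :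
    ev d (g * h) k 0 l 0 = c * ev d h k 0 l 0 := by
  rw [ev_eq d _ (hd k) (hd l), ev_eq d _ (hd k) (hd l), Matrix.mul_apply,
    Finset.sum_eq_single (⟨k, ⟨0, hd k⟩⟩ : (k : Fin t) × Fin (d k))]
  · have := hFR k k
    rw [ev_eq d _ (hd k) (hd k), if_pos rfl] at this
    rw [this]
  · rintro ⟨m, j⟩ - hne
    have h1 : g ⟨k, ⟨0, hd k⟩⟩ ⟨m, j⟩ = 0 := by
      rw [ev_apply d g, col_formula d hg k m j 0 (hd k) j.2]
      by_cases hj : (j : ℕ) ≤ 0
      · have hj0 : (j : ℕ) = 0 := by omega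
        rw [if_pos hj, hj0, Nat.sub_zero, hFR k m, if_neg]
        intro hkm
        subst hkm
        exact hne (congrArg (Sigma.mk k) (Fin.ext hj0))
      · rw [if_neg hj]
    rw [h1, zero_mul]
  · intro hh; exact absurd (Finset.mem_univ _) hh

theorem G0_of_FR (hd : ∀ k, 1 ≤ d k)
    {g : Matrix ((k : Fin t) × Fin (d k)) ((k : Fin t) × Fin (d k)) K} {c : K} (hFR : FR d g c)
    (i : ℕ) : G0 d (fc d g) i = c • (1 : Matrix {k : Fin t // d k = i} {k : Fin t // d k = i} K) := by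
  ext k l
  show xe d (fc d g) k.1 0 l.1 = _
  rw [xe_fc d g _ _ _ (hd k.1), hFR, Matrix.smul_apply, Matrix.one_apply]
  by_cases h : k = l
  · subst h
    rw [if_pos rfl, if_pos rfl, smul_eq_mul, mul_one]
  · rw [if_neg h, if_neg (fun hh => h (Subtype.ext hh)), smul_zero]

theorem det_of_FR (hd : ∀ k, 1 ≤ d k)
    {g : Matrix ((k : Fin t) × Fin (d k)) ((k : Fin t) × Fin (d k)) K}
    (hg : g * Nm K d = Nm K d * g) {c : K} (hFR : FR d g c) (hc : c ≠ 0) : g.det ≠ 0 := by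
  rw [← Mx_fc d hg, det_ne_zero_iff d hd (fc_PP d hd hg)]
  intro i
  rw [G0_of_FR d hd hFR, Matrix.det_smul, Matrix.det_one, mul_one]
  exact pow_ne_zero _ hc

theorem W_det (hd : ∀ k, 1 ≤ d k) (γ : K) : (W d γ).det ≠ 0 :=
  det_of_FR d hd (W_comm_N d γ) (FR_W d hd γ) one_ne_zero

end Cfsg.Agent.Helper8.GC
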