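import Mathlib
import Cfsg.Agent.Helper8.GC3

set_option autoImplicit false

namespace Cfsg.Agent.Helper8.GC

open Matrix
open Cfsg.Agent.Helper8.JC

variable {K : Type*} [Field K] {t : ℕ} (d : Fin t → ℕ)

/-- the explicit isometry -/
noncomputable def u0 (α β : K) : Matrix ((k : Fin t) × Fin (d k)) ((k : Fin t) × Fin (d k)) K :=
  W d α * (W d β)⁻¹

theorem u0_mul (hd : ∀ k, 1 ≤ d k) (α β : K) : u0 d α β * W d β = W d α := by
  unfold u0
  rw [mul_assoc, Matrix.nonsing_inv_mul _ (IsUnit.mk0 _ (W_det d hd β)), mul_one]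

theorem mul_u0 (hd : ∀ k, 1 ≤ d k) (α β : K) : W d β * u0 d α β = W d α := by
  unfold u0
  rw [← mul_assoc, W_comm d β α, mul_assoc,
    Matrix.mul_nonsing_inv _ (IsUnit.mk0 _ (W_det d hd β)), mul_one]

/-- the unit `ψ` with `u0 - 1 = ψ N` -/
noncomputable def psi (α β : K) : Matrix ((k : Fin t) × Fin (d k)) ((k : Fin t) × Fin (d k)) K :=
  (α - β) • (W d β)⁻¹

theorem psi_comm (hd : ∀ k, 1 ≤ d k) (α β : K) :
    psi d α β * Nm K d = Nm K d * psi d α β := by
  unfold psi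
  rw [smul_mul_assoc, mul_smul_comm, inv_comm _ _ (W_det d hd β) (W_comm_N d β)]

theorem u0_eq (hd : ∀ k, 1 ≤ d k) (α β : K) : u0 d α β = 1 + psi d α β * Nm K d := by
  have hu : IsUnit (W d β).det := IsUnit.mk0 _ (W_det d hd β)
  have h1 : W d α = W d β + (α - β) • Nm K d := by
    unfold W; module
  unfold u0 psi
  rw [h1, add_mul, Matrix.mul_nonsing_inv _ hu, smul_mul_assoc, smul_mul_assoc,
    inv_comm _ _ (W_det d hd β) (W_comm_N d β)]

theorem FR_psi (hd : ∀ k, 1 ≤ d k) (α β : K) : FR d (psi d α β) (α - β) := by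
  intro k l
  have hu : IsUnit (W d β).det := IsUnit.mk0 _ (W_det d hd β)
  have h1 := FR_mul d hd (W_comm_N d β) (FR_W d hd β) (W d β)⁻¹ k l
  rw [Matrix.mul_nonsing_inv _ hu, FR_one d hd k l, one_mul] at h1
  unfold psi
  rw [ev_smul, ← h1, mul_ite, mul_one, mul_zero]

theorem psi_pow_comm (hd : ∀ k, 1 ≤ d k) (α β : K) (j : ℕ) :
    psi d α β ^ j * Nm K d = Nm K d * psi d α β ^ j := by
  have h : Commute (psi d α β) (Nm K d) := psi_comm d hd α β
  exact h.pow_left j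

theorem FR_psi_pow (hd : ∀ k, 1 ≤ d k) (α β : K) (j : ℕ) :
    FR d (psi d α β ^ j) ((α - β) ^ j) := by
  induction j with
  | zero => rw [pow_zero, pow_zero]; exact FR_one d hd
  | succ j ih =>
    intro k l
    rw [pow_succ', FR_mul d hd (psi_comm d hd α β) (FR_psi d hd α β) _ k l, ih k l, pow_succ',
      mul_ite, mul_zero]

/-- the conjugating matrix -/
noncomputable def RR (α β : K) : Matrix ((k : Fin t) × Fin (d k)) ((k : Fin t) × Fin (d k)) K :=
  Matrix.of fun p q => (psi d α β ^ (q.2 : ℕ)) p q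

theorem ev_RR (α β : K) (k l : Fin t) (i j : ℕ) :
    ev d (RR d α β) k i l j = ev d (psi d α β ^ j) k i l j := by
  unfold ev
  by_cases h : i < d k ∧ j < d l
  · rw [dif_pos h, dif_pos h]; rfl
  · rw [dif_neg h, dif_neg h]

theorem RR_mul_N (hd : ∀ k, 1 ≤ d k) (α β : K) :
    RR d α β * Nm K d = psi d α β * Nm K d * RR d α β := by
  ext p q
  rw [mul_Nm_apply, ev_RR, ← mul_Nm_apply]
  have h1 : (psi d α β * Nm K d * RR d α β) p q =
      (psi d α β * Nm K d * psi d α β ^ (q.2 : ℕ)) p q := by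
    rw [Matrix.mul_apply, Matrix.mul_apply]; rfl
  rw [h1, mul_assoc, ← psi_pow_comm d hd α β, ← mul_assoc, ← pow_succ']

theorem RR_conj (hd : ∀ k, 1 ≤ d k) (α β : K) :
    RR d α β * Cfsg.jordanTypeMatrix d K = u0 d α β * RR d α β := by
  rw [jordan_eq, u0_eq d hd, mul_add, add_mul, mul_one, one_mul, RR_mul_N d hd]

theorem RR_det (hd : ∀ k, 1 ≤ d k) (α β : K) (hαβ : α ≠ β) : (RR d α β).det ≠ 0 := by
  have hx : ∀ j : ℕ, Mx d (fc d (psi d α β ^ j)) = psi d α β ^ j :=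
    fun j => Mx_fc d (psi_pow_comm d hd α β j)
  have hPP : ∀ j : ℕ, PP d (fc d (psi d α β ^ j)) :=
    fun j => fc_PP d hd (psi_pow_comm d hd α β j)
  have hbt : (RR d α β).BlockTriangular (key d) := by
    intro p q hlt
    show (psi d α β ^ (q.2 : ℕ)) p q = 0
    rw [← hx]
    exact Mx_bt d (hPP _) hlt
  rw [hbt.det, Finset.prod_ne_zero_iff]
  intro a ha
  obtain ⟨p₀, -, rfl⟩ := Finset.mem_image.1 ha
  have h1 : (RR d α β).toSquareBlock (key d) (key d p₀) =
      (Mx d (fc d (psi d α β ^ (p₀.2 : ℕ)))).toSquareBlock (key d) (key d p₀) := by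
    ext ⟨p, hp⟩ ⟨q, hq⟩
    show (psi d α β ^ (q.2 : ℕ)) p q = Mx d (fc d (psi d α β ^ (p₀.2 : ℕ))) p q
    rw [((key_eq_iff d _ _).1 hq).2, hx]
  rw [h1, block_det, G0_of_FR d hd (FR_psi_pow d hd α β _), Matrix.det_smul, Matrix.det_one,
    mul_one]
  exact pow_ne_zero _ (pow_ne_zero _ (sub_ne_zero.2 hαβ))

theorem sa_iff (hd : ∀ k, 1 ≤ d k) (σ : K →+* K) (hσ : ∀ x, σ (σ x) = x) (α β : K)
    (hαβ : α ≠ β) (h1 : σ α = β) (h2 : σ β = α)
    (Y : Matrix ((k : Fin t) × Fin (d k)) ((k : Fin t) × Fin (d k)) K) :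
    dg σ (u0 d α β) * Y * u0 d α β = Y ↔ Y * Nm K d = dg σ (Nm K d) * Y := by
  have hu : IsUnit (W d β).det := IsUnit.mk0 _ (W_det d hd β)
  have e1 : ∀ a b : K, (1 + b • dg σ (Nm K d)) * Y * (1 + a • Nm K d) =
      Y + a • (Y * Nm K d) + b • (dg σ (Nm K d) * Y) +
        (a * b) • (dg σ (Nm K d) * Y * Nm K d) := by
    intro a b
    simp only [add_mul, mul_add, one_mul, mul_one, smul_mul_assoc, mul_smul_comm]
    module
  constructor
  · intro h
    have h3 : dg σ (W d β) * dg σ (u0 d α β) = dg σ (W d α) := by rw [← dg_mul, u0_mul d hd]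
    have h4 : dg σ (W d α) * Y * W d α = dg σ (W d β) * Y * W d β := by
      calc dg σ (W d α) * Y * W d α
          = dg σ (W d β) * dg σ (u0 d α β) * Y * (u0 d α β * W d β) := by
            rw [h3, u0_mul d hd]
        _ = dg σ (W d β) * (dg σ (u0 d α β) * Y * u0 d α β) * W d β := by
            simp only [mul_assoc]
        _ = dg σ (W d β) * Y * W d β := by rw [h]
    rw [dg_W, dg_W, h1, h2] at h4
    unfold W at h4
    rw [e1, e1] at h4
    have h5 : (α - β) • (Y * Nm K d) = (α - β) • (dg σ (Nm K d) * Y) := by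
      linear_combination (norm := module) h4
    exact smul_right_injective _ (sub_ne_zero.2 hαβ) h5
  · intro h
    have hYW : ∀ γ : K, Y * W d γ = dg σ (W d (σ γ)) * Y := by
      intro γ
      rw [dg_W, hσ]
      unfold W
      rw [mul_add, add_mul, mul_one, one_mul, mul_smul_comm, smul_mul_assoc, h]
    have h3 : dg σ (u0 d α β) * dg σ (W d β) = dg σ (W d α) := by rw [← dg_mul, mul_u0 d hd]
    have h5 : (dg σ (u0 d α β) * Y * u0 d α β) * W d β = Y * W d β := by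
      calc (dg σ (u0 d α β) * Y * u0 d α β) * W d β
          = dg σ (u0 d α β) * (Y * (u0 d α β * W d β)) := by simp only [mul_assoc]
        _ = dg σ (u0 d α β) * (Y * W d α) := by rw [u0_mul d hd]
        _ = dg σ (u0 d α β) * dg σ (W d β) * Y := by rw [hYW α, h1, mul_assoc]
        _ = dg σ (W d α) * Y := by rw [h3]
        _ = Y * W d β := by rw [hYW β, h2]
    have h6 := congrArg (· * (W d β)⁻¹) h5
    simp only [mul_assoc, Matrix.mul_nonsing_inv _ hu, mul_one] at h6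
    rw [mul_assoc]
    exact h6

theorem Y_count_eq (hd : ∀ k, 1 ≤ d k) (σ : K →+* K) (hσ : ∀ x, σ (σ x) = x) (α : K)
    (hα : σ α ≠ α) :
    Nat.card {Y : Matrix ((k : Fin t) × Fin (d k)) ((k : Fin t) × Fin (d k)) K //
      dg σ Y = Y ∧ Y.det ≠ 0 ∧
        dg σ (Cfsg.jordanTypeMatrix d K) * Y * Cfsg.jordanTypeMatrix d K = Y} =
    Nat.card {Y : Matrix ((k : Fin t) × Fin (d k)) ((k : Fin t) × Fin (d k)) K //
      dg σ Y = Y ∧ Y.det ≠ 0 ∧ Y * Nm K d = dg σ (Nm K d) * Y} := by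
  have hdet := RR_det d hd α (σ α) (Ne.symm hα)
  have hu : IsUnit (RR d α (σ α)).det := IsUnit.mk0 _ hdet
  rw [← card_Y_congr σ hσ (RR d α (σ α)) (RR d α (σ α))⁻¹ (Matrix.mul_nonsing_inv _ hu)
    (Matrix.nonsing_inv_mul _ hu) (Cfsg.jordanTypeMatrix d K) (u0 d α (σ α))
    (RR_conj d hd α (σ α))]
  apply Nat.card_congr
  apply Equiv.subtypeEquivRight
  intro Y
  rw [sa_iff d hd σ hσ α (σ α) (Ne.symm hα) rfl (hσ α) Y]

end Cfsg.Agent.Helper8.GC
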