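import Mathlib
import Cfsg.Agent.Helper8.GC4

set_option autoImplicit false

namespace Cfsg.Agent.Helper8.GC

open Matrix
open Cfsg.Agent.Helper8.JC

variable {K : Type*} [Field K] {t : ℕ} (d : Fin t → ℕ)

/-- Hermitian condition on first-column data -/
def HH (σ : K →+* K) (x : ((k : Fin t) × Fin (d k)) → Fin t → K) : Prop :=
  ∀ (p : ((k : Fin t) × Fin (d k))) (l : Fin t), d p.1 ≤ p.2 + d l → x p l = σ (xe d x l (p.2 + d l - d p.1) p.1)

theorem hermX_iff (σ : K →+* K) (X : Matrix ((k : Fin t) × Fin (d k)) ((k : Fin t) × Fin (d k)) K) :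
    dg σ (H0 K d * X) = H0 K d * X ↔ ∀ p q, X (flip d p) q = σ (X (flip d q) p) := by
  rw [dg_mul, dg_H0]
  constructor
  · intro h p q
    have := congrFun (congrFun h p) q
    rw [mul_H0_apply, H0_mul_apply, dg_apply] at this
    exact this.symm
  · intro h
    ext p q
    rw [mul_H0_apply, H0_mul_apply, dg_apply]
    exact (h p q).symm

theorem Mx_flip (x : ((k : Fin t) × Fin (d k)) → Fin t → K) (p q : ((k : Fin t) × Fin (d k))) :
    Mx d x (flip d p) q =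
      if (q.2 : ℕ) + p.2 + 1 ≤ d p.1 then xe d x p.1 (d p.1 - 1 - p.2 - q.2) q.1 else 0 := by
  show (if (q.2 : ℕ) ≤ d p.1 - 1 - (p.2 : ℕ) then
    xe d x p.1 (d p.1 - 1 - (p.2 : ℕ) - (q.2 : ℕ)) q.1 else 0) = _
  have := p.2.2
  exact if_congr (by omega) rfl rfl

theorem HH_of_herm (hd : ∀ k, 1 ≤ d k) (σ : K →+* K) {x : ((k : Fin t) × Fin (d k)) → Fin t → K}
    (h : ∀ p q, Mx d x (flip d p) q = σ (Mx d x (flip d q) p)) : HH d σ x := by
  intro p l hpl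
  have hp := p.2.2
  have hl := hd l
  have h1 := h (flip d p) ⟨l, ⟨0, hl⟩⟩
  rw [flip_flip] at h1
  have h2 : Mx d x p ⟨l, ⟨0, hl⟩⟩ = x p l := by
    show (if (0 : ℕ) ≤ p.2 then xe d x p.1 (p.2 - 0) l else 0) = _
    rw [if_pos (Nat.zero_le _), Nat.sub_zero, ← xe_apply]
  have h3 : Mx d x (flip d ⟨l, ⟨0, hl⟩⟩) (flip d p) = xe d x l (p.2 + d l - d p.1) p.1 := by
    rw [Mx_flip]
    show (if (d p.1 - 1 - (p.2 : ℕ)) + 0 + 1 ≤ d l then
      xe d x l (d l - 1 - 0 - (d p.1 - 1 - (p.2 : ℕ))) p.1 else 0) = _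
    rw [if_pos (by omega)]
    have e : d l - 1 - 0 - (d p.1 - 1 - (p.2 : ℕ)) = p.2 + d l - d p.1 := by omega
    rw [e]
  rw [h2, h3] at h1
  exact h1

theorem herm_of_HH (σ : K →+* K) {x : ((k : Fin t) × Fin (d k)) → Fin t → K} (hx : PP d x) (hH : HH d σ x)
    (p q : ((k : Fin t) × Fin (d k))) : Mx d x (flip d p) q = σ (Mx d x (flip d q) p) := by
  have hp := p.2.2
  have hq := q.2.2
  rw [Mx_flip, Mx_flip]
  by_cases h1 : (q.2 : ℕ) + p.2 + 1 ≤ d p.1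
  · rw [if_pos h1]
    by_cases h2 : (p.2 : ℕ) + q.2 + 1 ≤ d q.1
    · rw [if_pos h2]
      have hs : d p.1 - 1 - (p.2 : ℕ) - q.2 < d p.1 := by omega
      rw [xe_eq d x hs, hH ⟨p.1, ⟨_, hs⟩⟩ q.1 (by
        show d p.1 ≤ (d p.1 - 1 - (p.2 : ℕ) - q.2) + d q.1
        omega)]
      show σ (xe d x q.1 ((d p.1 - 1 - (p.2 : ℕ) - q.2) + d q.1 - d p.1) p.1) = _
      have e : (d p.1 - 1 - (p.2 : ℕ) - q.2) + d q.1 - d p.1 = d q.1 - 1 - q.2 - p.2 := by omega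
      rw [e]
    · rw [if_neg h2, map_zero]
      exact xe_zero d hx _ _ _ (by omega)
  · rw [if_neg h1]
    by_cases h2 : (p.2 : ℕ) + q.2 + 1 ≤ d q.1
    · rw [if_pos h2, xe_zero d hx _ _ _ (by omega), map_zero]
    · rw [if_neg h2, map_zero]

theorem HY_comm (σ : K →+* K) {Y : Matrix ((k : Fin t) × Fin (d k)) ((k : Fin t) × Fin (d k)) K} (h : Y * Nm K d = dg σ (Nm K d) * Y) :
    (H0 K d * Y) * Nm K d = Nm K d * (H0 K d * Y) := by
  calc H0 K d * Y * Nm K d = H0 K d * (Y * Nm K d) := by rw [mul_assoc]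
    _ = (H0 K d * dg σ (Nm K d)) * Y := by rw [h, mul_assoc]
    _ = Nm K d * (H0 K d * Y) := by rw [← N_H0 d σ, mul_assoc]

theorem H0_det : (H0 K d).det ≠ 0 := Matrix.det_ne_zero_of_left_inverse (H0_sq d)

/-- self-adjoint forms correspond to Hermitian first-column data -/
noncomputable def saEquiv (hd : ∀ k, 1 ≤ d k) (σ : K →+* K) :
    {Y : Matrix ((k : Fin t) × Fin (d k)) ((k : Fin t) × Fin (d k)) K // dg σ Y = Y ∧ Y.det ≠ 0 ∧ Y * Nm K d = dg σ (Nm K d) * Y} ≃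
    {x : {x : ((k : Fin t) × Fin (d k)) → Fin t → K // PP d x ∧ ∀ i : ℕ, (G0 d x i).det ≠ 0} // HH d σ x.1} where
  toFun Y := ⟨⟨fc d (H0 K d * Y.1), fc_PP d hd (HY_comm d σ Y.2.2.2),
      (det_ne_zero_iff d hd (fc_PP d hd (HY_comm d σ Y.2.2.2))).1 (by
        rw [Mx_fc d (HY_comm d σ Y.2.2.2), Matrix.det_mul]
        exact mul_ne_zero (H0_det d) Y.2.2.1)⟩,
    HH_of_herm d hd σ (by
      rw [Mx_fc d (HY_comm d σ Y.2.2.2)]
      exact (hermX_iff d σ _).1 (by rw [← mul_assoc, H0_sq, one_mul]; exact Y.2.1))⟩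
  invFun x := ⟨H0 K d * Mx d x.1.1, (hermX_iff d σ _).2 (herm_of_HH d σ x.1.2.1 x.2), by
      rw [Matrix.det_mul]
      exact mul_ne_zero (H0_det d) ((det_ne_zero_iff d hd x.1.2.1).2 x.1.2.2), by
      calc H0 K d * Mx d x.1.1 * Nm K d = H0 K d * (Mx d x.1.1 * Nm K d) := by rw [mul_assoc]
        _ = (H0 K d * Nm K d) * Mx d x.1.1 := by rw [Mx_comm d x.1.2.1, mul_assoc]
        _ = dg σ (Nm K d) * (H0 K d * Mx d x.1.1) := by rw [H0_N d σ, mul_assoc]⟩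
  left_inv Y := by
    apply Subtype.ext
    show H0 K d * Mx d (fc d (H0 K d * Y.1)) = Y.1
    rw [Mx_fc d (HY_comm d σ Y.2.2.2), ← mul_assoc, H0_sq, one_mul]
  right_inv x := by
    apply Subtype.ext
    apply Subtype.ext
    show fc d (H0 K d * (H0 K d * Mx d x.1.1)) = x.1.1
    rw [← mul_assoc, H0_sq, one_mul, fc_Mx d hd]

/-- the free coordinates -/
abbrev Tf := {τ : ((k : Fin t) × Fin (d k)) × Fin t //
  d τ.1.1 ≤ τ.1.2 + d τ.2 ∧ ¬((τ.1.2 : ℕ) = 0 ∧ d τ.1.1 = d τ.2)}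

/-- the involution on free coordinates -/
def star (τ : Tf d) : Tf d :=
  ⟨(⟨τ.1.2, ⟨(τ.1.1.2 : ℕ) + d τ.1.2 - d τ.1.1.1, by
      have h1 := τ.1.1.2.2; have h2 := τ.2.1; omega⟩⟩, τ.1.1.1), by
    have h1 := τ.1.1.2.2
    have h2 := τ.2.1
    have h3 := τ.2.2
    constructor
    · show d τ.1.2 ≤ ((τ.1.1.2 : ℕ) + d τ.1.2 - d τ.1.1.1) + d τ.1.1.1
      omega
    · show ¬(((τ.1.1.2 : ℕ) + d τ.1.2 - d τ.1.1.1) = 0 ∧ d τ.1.2 = d τ.1.1.1)
      omega⟩

theorem star_star (τ : Tf d) : star d (star d τ) = τ := by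
  obtain ⟨⟨⟨k, s⟩, l⟩, h⟩ := τ
  have h1 := s.2
  have h2 := h.1
  apply Subtype.ext
  refine Prod.ext (congrArg (Sigma.mk k) (Fin.ext ?_)) rfl
  show ((s : ℕ) + d l - d k) + d k - d l = s
  simp only at h2
  omega

theorem HH_asm_iff (hd : ∀ k, 1 ≤ d k) (σ : K →+* K) {D : ℕ} (hD : ∀ k, d k < D + 1)
    (y : Tf d → K)
    (Z : (i : Fin (D + 1)) →
      {Z : Matrix {k : Fin t // d k = (i : ℕ)} {k : Fin t // d k = (i : ℕ)} K // Z.det ≠ 0}) :
    HH d σ (asm d y Z) ↔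
      (∀ τ : Tf d, y τ = σ (y (star d τ))) ∧ ∀ i, dg σ (Z i).1 = (Z i).1 := by
  constructor
  · intro H
    refine ⟨fun τ => ?_, fun i => ?_⟩
    · have h := H τ.1.1 τ.1.2 τ.2.1
      rw [asm_free d y Z τ] at h
      have hlt : (τ.1.1.2 : ℕ) + d τ.1.2 - d τ.1.1.1 < d τ.1.2 := by
        have := τ.1.1.2.2; have := τ.2.1; omega
      rw [xe_eq d _ hlt] at h
      exact h.trans (congrArg σ (asm_free d y Z (star d τ)))
    · ext k l
      rw [dg_apply]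
      have hk := G0_asm d hd y Z i
      have e1 : (Z i).1 k l = xe d (asm d y Z) k.1 0 l.1 := by rw [← hk]; rfl
      have e2 : (Z i).1 l k = xe d (asm d y Z) l.1 0 k.1 := by rw [← hk]; rfl
      have hH : asm d y Z ⟨k.1, ⟨0, hd k.1⟩⟩ l.1 =
          σ (xe d (asm d y Z) l.1 (0 + d l.1 - d k.1) k.1) :=
        H ⟨k.1, ⟨0, hd k.1⟩⟩ l.1 (by
          show d k.1 ≤ 0 + d l.1
          rw [k.2, l.2]; omega)
      have e0 : (0 : ℕ) + d l.1 - d k.1 = 0 := by rw [k.2, l.2]; omega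
      rw [e0] at hH
      rw [e1, e2, xe_eq d _ (hd k.1) l.1]
      exact hH.symm
  · rintro ⟨hy, hZ⟩ p l hpl
    by_cases hdiag : (p.2 : ℕ) = 0 ∧ d p.1 = d l
    · have e0 : (p.2 : ℕ) + d l - d p.1 = 0 := by omega
      rw [e0, xe_eq d _ (hd l)]
      unfold asm
      rw [if_pos hdiag, if_pos ⟨rfl, hdiag.2.symm⟩]
      rw [zz_eq d Z ⟨d p.1, hD p.1⟩ p.1 l rfl hdiag.2.symm,
        zz_eq d Z ⟨d p.1, hD p.1⟩ l p.1 hdiag.2.symm rfl]
      have := congrFun (congrFun (hZ ⟨d p.1, hD p.1⟩) ⟨p.1, rfl⟩) ⟨l, hdiag.2.symm⟩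
      rw [dg_apply] at this
      exact this.symm
    · have hτ : d p.1 ≤ p.2 + d l ∧ ¬((p.2 : ℕ) = 0 ∧ d p.1 = d l) := ⟨hpl, hdiag⟩
      have h1 := asm_free d y Z ⟨(p, l), hτ⟩
      have h2 := asm_free d y Z (star d ⟨(p, l), hτ⟩)
      have hlt : (p.2 : ℕ) + d l - d p.1 < d l := by have := p.2.2; omega
      rw [xe_eq d _ hlt]
      exact h1.trans ((hy _).trans (congrArg σ h2.symm))

/-- fixed points of a semilinear involution form a "real form" -/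
theorem card_fixed_sq {W : Type*} [AddCommGroup W] [Module K W] (σ : K →+* K)
    (hσ : ∀ x, σ (σ x) = x) (τ : W → W)
    (hadd : ∀ a b, τ (a + b) = τ a + τ b) (hsmul : ∀ (c : K) a, τ (c • a) = σ c • τ a)
    (hinv : ∀ a, τ (τ a) = a) (θ : K) (hθ : σ θ ≠ θ) :
    Nat.card {w : W // τ w = w} ^ 2 = Nat.card W := by
  have hsub : ∀ a b, τ (a - b) = τ a - τ b := by
    intro a b
    have := hadd (a - b) b
    rw [sub_add_cancel] at this
    exact eq_sub_of_add_eq this.symm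
  obtain ⟨c, hc⟩ : ∃ c : K, c = (θ - σ θ)⁻¹ := ⟨_, rfl⟩
  have hne : θ - σ θ ≠ 0 := sub_ne_zero.2 (Ne.symm hθ)
  have hc1 : c * (θ - σ θ) = 1 := by rw [hc, inv_mul_cancel₀ hne]
  have hσc : σ c = -c := by
    rw [hc, map_inv₀, map_sub, hσ, ← neg_sub θ (σ θ), inv_neg]
  have hfix : ∀ w, τ (c • (w - τ w)) = c • (w - τ w) := by
    intro w
    rw [hsmul, hsub, hinv, hσc]
    module
  have hfix1 : ∀ w, τ (w - θ • (c • (w - τ w))) = w - θ • (c • (w - τ w)) := by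
    intro w
    rw [hsub, hsmul, hfix]
    have h1 : (σ θ - θ) • (c • (w - τ w)) = τ w - w := by
      rw [smul_smul]
      have : (σ θ - θ) * c = -1 := by
        have : (σ θ - θ) * c = -(c * (θ - σ θ)) := by ring
        rw [this, hc1]
      rw [this]
      module
    linear_combination (norm := module) -h1
  let e : {w : W // τ w = w} × {w : W // τ w = w} ≃ W :=
    { toFun := fun p => p.1.1 + θ • p.2.1
      invFun := fun w => (⟨w - θ • (c • (w - τ w)), hfix1 w⟩, ⟨c • (w - τ w), hfix w⟩)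
      left_inv := fun p => by
        have h1 : τ (p.1.1 + θ • p.2.1) = p.1.1 + σ θ • p.2.1 := by
          rw [hadd, hsmul, p.1.2, p.2.2]
        have h2 : c • (p.1.1 + θ • p.2.1 - τ (p.1.1 + θ • p.2.1)) = p.2.1 := by
          rw [h1]
          have : p.1.1 + θ • p.2.1 - (p.1.1 + σ θ • p.2.1) = (θ - σ θ) • p.2.1 := by module
          rw [this, smul_smul, hc1, one_smul]
        refine Prod.ext (Subtype.ext ?_) (Subtype.ext h2)
        show p.1.1 + θ • p.2.1 - θ • (c • (p.1.1 + θ • p.2.1 - τ (p.1.1 + θ • p.2.1))) = p.1.1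
        rw [h2, add_sub_cancel_right]
      right_inv := fun w => by
        show w - θ • (c • (w - τ w)) + θ • (c • (w - τ w)) = w
        rw [sub_add_cancel] }
  rw [← Nat.card_congr e, Nat.card_prod, sq]

end Cfsg.Agent.Helper8.GC
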