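import Mathlib
import Cfsg.Agent.Helper8.GC5
import Cfsg.Agent.Helper8.GUConj3
import Cfsg.Agent.S0278

set_option autoImplicit false

namespace Cfsg.Agent.Helper8.GC

open Matrix
open Cfsg.Agent.Helper8.JC

variable {K : Type*} [Field K]

theorem card_X [Fintype K] {q t : ℕ} (hK : Fintype.card K = q ^ 2) (d : Fin t → ℕ)
    (hd : ∀ k, 1 ≤ d k) (σ : K →+* K) (hσ : ∀ x, σ (σ x) = x) (θ : K) (hθ : σ θ ≠ θ) :
    Nat.card {x : {x : ((k : Fin t) × Fin (d k)) → Fin t → K // PP d x ∧ ∀ i : ℕ, (G0 d x i).det ≠ 0} // HH d σ x.1} =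
      q ^ Nat.card (Tf d) * ∏ i : Fin (Finset.univ.sup d + 1),
        Nat.card {Z : {Z : Matrix {k : Fin t // d k = (i : ℕ)} {k : Fin t // d k = (i : ℕ)} K //
          Z.det ≠ 0} // dg σ Z.1 = Z.1} := by
  have hD : ∀ k, d k < Finset.univ.sup d + 1 :=
    fun k => Nat.lt_succ_of_le (Finset.le_sup (Finset.mem_univ k))
  have e1 : {x : {x : ((k : Fin t) × Fin (d k)) → Fin t → K // PP d x ∧ ∀ i : ℕ, (G0 d x i).det ≠ 0} // HH d σ x.1} ≃
      {yz : (Tf d → K) × ((i : Fin (Finset.univ.sup d + 1)) →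
        {Z : Matrix {k : Fin t // d k = (i : ℕ)} {k : Fin t // d k = (i : ℕ)} K // Z.det ≠ 0}) //
        HH d σ (asm d yz.1 yz.2)} :=
    (splitEquiv d hd).subtypeEquiv (fun x => by
      have h : asm d ((splitEquiv d hd) x).1 ((splitEquiv d hd) x).2 = x.1 :=
        asm_self d x.2.1 x.2.2
      rw [h])
  have e2 : {yz : (Tf d → K) × ((i : Fin (Finset.univ.sup d + 1)) →
        {Z : Matrix {k : Fin t // d k = (i : ℕ)} {k : Fin t // d k = (i : ℕ)} K // Z.det ≠ 0}) //
        HH d σ (asm d yz.1 yz.2)} ≃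
      {yz : (Tf d → K) × ((i : Fin (Finset.univ.sup d + 1)) →
        {Z : Matrix {k : Fin t // d k = (i : ℕ)} {k : Fin t // d k = (i : ℕ)} K // Z.det ≠ 0}) //
        (∀ τ : Tf d, yz.1 τ = σ (yz.1 (star d τ))) ∧ ∀ i, dg σ (yz.2 i).1 = (yz.2 i).1} :=
    Equiv.subtypeEquivRight (fun yz => HH_asm_iff d hd σ hD yz.1 yz.2)
  have e3 := Equiv.subtypeProdEquivProd
    (p := fun y : Tf d → K => ∀ τ : Tf d, y τ = σ (y (star d τ)))
    (q := fun Z : (i : Fin (Finset.univ.sup d + 1)) →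
        {Z : Matrix {k : Fin t // d k = (i : ℕ)} {k : Fin t // d k = (i : ℕ)} K // Z.det ≠ 0} =>
      ∀ i, dg σ (Z i).1 = (Z i).1)
  have e4 := Equiv.subtypePiEquivPi
    (β := fun i : Fin (Finset.univ.sup d + 1) =>
      {Z : Matrix {k : Fin t // d k = (i : ℕ)} {k : Fin t // d k = (i : ℕ)} K // Z.det ≠ 0})
    (p := fun i Z => dg σ Z.1 = Z.1)
  rw [Nat.card_congr (e1.trans (e2.trans e3)), Nat.card_prod, Nat.card_congr e4, Nat.card_pi]
  congr 1
  have h := card_fixed_sq σ hσ (fun (y : Tf d → K) t => σ (y (star d t)))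
    (fun a b => by funext t; simp) (fun c a => by funext t; simp)
    (fun a => by funext t; simp [hσ, star_star]) θ hθ
  have e5 : {y : Tf d → K // ∀ τ : Tf d, y τ = σ (y (star d τ))} ≃
      {w : Tf d → K // (fun t => σ (w (star d t))) = w} :=
    Equiv.subtypeEquivRight (fun y =>
      ⟨fun h => funext fun t => (h t).symm, fun h t => (congrFun h t).symm⟩)
  rw [Nat.card_congr e5]
  rw [Nat.card_fun, Nat.card_eq_fintype_card (α := K), hK, ← pow_mul, mul_comm, pow_mul] at h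
  exact Nat.pow_left_injective two_ne_zero h

theorem card_GL_sub {ι : Type*} [Fintype ι] [DecidableEq ι] (V : Matrix ι ι K) :
    Nat.card {g : GL ι K // (g : Matrix ι ι K) * V = V * (g : Matrix ι ι K)} =
      Nat.card {g : Matrix ι ι K // g.det ≠ 0 ∧ g * V = V * g} := by
  apply Nat.card_congr
  exact
    { toFun := fun g => ⟨g.1.1, ((Matrix.isUnit_iff_isUnit_det _).1 g.1.isUnit).ne_zero, g.2⟩
      invFun := fun g => ⟨((Matrix.isUnit_iff_isUnit_det g.1).2 (IsUnit.mk0 _ g.2.1)).unit, by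
        rw [IsUnit.unit_spec]; exact g.2.2⟩
      left_inv := fun g => by
        apply Subtype.ext
        apply Units.ext
        simp only [IsUnit.unit_spec]
      right_inv := fun g => by
        apply Subtype.ext
        simp only [IsUnit.unit_spec] }

theorem card_herm_mul [Fintype K] {q : ℕ} (hK : Fintype.card K = q ^ 2) (σ : K →+* K)
    (hσ : ∀ x, σ (σ x) = x) (hne : σ ≠ RingHom.id K)
    (S : Type) [Fintype S] [DecidableEq S] (a : ℕ) (ha : Fintype.card S = a) :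
    Nat.card {g : Matrix (Fin a) (Fin a) K // dg σ g * g = 1 ∧ g * 1 = 1 * g} *
      Nat.card {Z : {Z : Matrix S S K // Z.det ≠ 0} // dg σ Z.1 = Z.1} =
    ∏ j : Fin a, ((q ^ 2) ^ a - (q ^ 2) ^ (j : ℕ)) := by
  let e : S ≃ Fin a := Fintype.equivFinOfCardEq ha
  have s1 : Nat.card {Z : {Z : Matrix S S K // Z.det ≠ 0} // dg σ Z.1 = Z.1} =
      Nat.card {Y : Matrix S S K // dg σ Y = Y ∧ Y.det ≠ 0 ∧ dg σ 1 * Y * 1 = Y} := by
    apply Nat.card_congr
    exact
      { toFun := fun Z => ⟨Z.1.1, Z.2, Z.1.2, by rw [dg_one, one_mul, mul_one]⟩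
        invFun := fun Y => ⟨⟨Y.1, Y.2.2.1⟩, Y.2.1⟩
        left_inv := fun Z => rfl
        right_inv := fun Y => rfl }
  have s2 := card_Y_congr σ hσ (Pe K e) (Pe' K e) (Pe_mul_Pe' e) (Pe'_mul_Pe e)
    (1 : Matrix S S K) (1 : Matrix (Fin a) (Fin a) K) (by rw [Matrix.mul_one, Matrix.one_mul])
  have s3 := thmA σ hσ hne (1 : Matrix (Fin a) (Fin a) K) (by rw [dg_one, one_mul])
  have s4 : Nat.card {g : Matrix (Fin a) (Fin a) K // g.det ≠ 0 ∧ g * 1 = 1 * g} =
      Nat.card {g : Matrix (Fin a) (Fin a) K // g.det ≠ 0} := by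
    apply Nat.card_congr
    apply Equiv.subtypeEquivRight
    intro g
    rw [mul_one, one_mul]
    exact and_iff_left rfl
  rw [s1, ← s2, s3, s4, card_det_ne_zero (Fin a) a (Fintype.card_fin a), hK]

theorem card_GU_mat [Fintype K] {q : ℕ} (hK : Fintype.card K = q ^ 2) (n : ℕ)
    (u : ↥(Cfsg.GU n K q)) :
    Nat.card ↥(Subgroup.centralizer ({u} : Set ↥(Cfsg.GU n K q))) =
      Nat.card {g : Matrix (Fin n) (Fin n) K // dg (S0284.frob hK) g * g = 1 ∧
        g * ((u : GL (Fin n) K) : Matrix (Fin n) (Fin n) K) =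
          ((u : GL (Fin n) K) : Matrix (Fin n) (Fin n) K) * g} := by
  apply Nat.card_congr
  exact
    { toFun := fun z => ⟨((z.1 : GL (Fin n) K) : Matrix (Fin n) (Fin n) K),
        GUC.dag_of_GU hK _ z.1.2, by
          have h := Subgroup.mem_centralizer_iff.1 z.2 u (Set.mem_singleton u)
          have h2 := congrArg (fun g : ↥(Cfsg.GU n K q) =>
            ((g : GL (Fin n) K) : Matrix (Fin n) (Fin n) K)) h
          exact h2.symm⟩
      invFun := fun g => ⟨⟨⟨g.1, dg (S0284.frob hK) g.1, mul_eq_one_comm.1 g.2.1, g.2.1⟩,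
          GUC.GU_of_dag hK g.1 g.2.1⟩, by
          rw [Subgroup.mem_centralizer_iff]
          intro h hh
          rw [Set.mem_singleton_iff.1 hh]
          apply Subtype.ext
          apply Units.ext
          exact g.2.2.symm⟩
      left_inv := fun z => Subtype.ext (Subtype.ext (Units.ext rfl))
      right_inv := fun g => Subtype.ext rfl }

theorem card_GU_one [Fintype K] {q : ℕ} (hK : Fintype.card K = q ^ 2) (a : ℕ) :
    Nat.card {g : Matrix (Fin a) (Fin a) K // dg (S0284.frob hK) g * g = 1 ∧ g * 1 = 1 * g} =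
      Nat.card ↥(Cfsg.GU a K q) := by
  have h1 : Nat.card ↥(Subgroup.centralizer ({1} : Set ↥(Cfsg.GU a K q))) =
      Nat.card {g : Matrix (Fin a) (Fin a) K // dg (S0284.frob hK) g * g = 1 ∧ g * 1 = 1 * g} :=
    card_GU_mat hK a 1
  rw [← h1]
  have h2 : Subgroup.centralizer ({1} : Set ↥(Cfsg.GU a K q)) = ⊤ := by
    rw [Subgroup.centralizer_eq_top_iff_subset, Set.singleton_subset_iff]
    exact Subgroup.one_mem _
  rw [h2, Subgroup.card_top]

theorem card_GU_int [Fintype K] {q : ℕ} (hK : Fintype.card K = q ^ 2) (a : ℕ) :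
    (Nat.card ↥(Cfsg.GU a K q) : ℤ) = (q : ℤ) ^ (a * (a - 1) / 2) *
      ∏ j : Fin a, ((q : ℤ) ^ ((j : ℕ) + 1) - (-1) ^ ((j : ℕ) + 1)) := by
  have hq := S0284.q_two_le hK
  rcases Nat.eq_zero_or_pos a with rfl | ha
  · haveI : Subsingleton (GL (Fin 0) K) := ⟨fun x y => Units.ext (Subsingleton.elim _ _)⟩
    rw [Nat.card_of_subsingleton (1 : ↥(Cfsg.GU 0 K q))]
    simp
  · rw [S0278.card_GU_eq hK a ha, S0278.result hK a ha, Nat.cast_mul, Nat.cast_pow,
      Nat.cast_prod,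
      Fin.prod_univ_eq_prod_range (fun i => (q : ℤ) ^ (i + 1) - (-1) ^ (i + 1)) a]
    congr 1
    apply Finset.prod_congr rfl
    intro i _
    by_cases he : Even i
    · rw [if_pos he, Odd.neg_one_pow (Even.add_one he)]
      push_cast
      ring
    · rw [if_neg he, Even.neg_one_pow (Odd.add_one (Nat.not_even_iff_odd.1 he)),
        Nat.cast_sub (Nat.one_le_pow _ _ (by omega))]
      push_cast
      ring

end Cfsg.Agent.Helper8.GC
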