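import Mathlib
import Cfsg.Agent.Helper8.GC6

set_option autoImplicit false

namespace Cfsg.Agent.Helper8.GC

open Matrix
open Cfsg.Agent.Helper8.JC

variable {K : Type*} [Field K]

theorem main646 [Fintype K] {q n t : ℕ} (hK : Fintype.card K = q ^ 2) (d : Fin t → ℕ)
    (hd : ∀ k, 1 ≤ d k) (e : ((k : Fin t) × Fin (d k)) ≃ Fin n) (u : ↥(Cfsg.GU n K q))
    (hu : IsConj (Matrix.reindex e e (Cfsg.jordanTypeMatrix d K))
      ((u : GL (Fin n) K) : Matrix (Fin n) (Fin n) K)) :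
    Nat.card ↥(Subgroup.centralizer ({u} : Set ↥(Cfsg.GU n K q))) =
      q ^ (2 * (∑ i ∈ Finset.range (Finset.univ.sup d + 1),
        ∑ j ∈ Finset.range (Finset.univ.sup d + 1),
        if i < j then i * (Finset.univ.filter (fun k : Fin t => d k = i)).card *
          (Finset.univ.filter (fun k : Fin t => d k = j)).card else 0) +
      ∑ i ∈ Finset.range (Finset.univ.sup d + 1),
        (i - 1) * (Finset.univ.filter (fun k : Fin t => d k = i)).card ^ 2) *
      ∏ i ∈ Finset.range (Finset.univ.sup d + 1),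
        Nat.card ↥(Cfsg.GU ((Finset.univ.filter (fun k : Fin t => d k = i)).card) K q) := by
  obtain ⟨σ, hσdef⟩ : ∃ σ : K →+* K, σ = S0284.frob hK := ⟨_, rfl⟩
  have hσ : ∀ x, σ (σ x) = x := by
    intro x
    rw [hσdef]
    exact S0284.frob_invol hK x
  have hne : σ ≠ RingHom.id K := by
    rw [hσdef]
    exact S0284.frob_ne hK
  obtain ⟨θ, hθ⟩ : ∃ θ, σ θ ≠ θ := by
    by_contra h
    push Not at h
    exact hne (RingHom.ext h)
  have hq := S0284.q_two_le hK
  obtain ⟨U, hUdef⟩ : ∃ U : Matrix (Fin n) (Fin n) K,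
      U = ((u : GL (Fin n) K) : Matrix (Fin n) (Fin n) K) := ⟨_, rfl⟩
  have hU : dg σ U * U = 1 := by
    rw [hσdef, hUdef]
    exact GUC.dag_of_GU hK _ u.2
  obtain ⟨c₀, hc₀⟩ := hu
  have hc₀' : (c₀ : Matrix (Fin n) (Fin n) K) * Matrix.reindex e e (Cfsg.jordanTypeMatrix d K) =
      U * (c₀ : Matrix (Fin n) (Fin n) K) := by
    rw [hUdef]
    exact hc₀
  obtain ⟨ci, hci⟩ : ∃ ci : Matrix (Fin n) (Fin n) K,
      ci = ((c₀⁻¹ : (Matrix (Fin n) (Fin n) K)ˣ) : Matrix (Fin n) (Fin n) K) := ⟨_, rfl⟩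
  have hci1 : (c₀ : Matrix (Fin n) (Fin n) K) * ci = 1 := by
    rw [hci, ← Units.val_mul, mul_inv_cancel, Units.val_one]
  have hci2 : ci * (c₀ : Matrix (Fin n) (Fin n) K) = 1 := by
    rw [hci, ← Units.val_mul, inv_mul_cancel, Units.val_one]
  obtain ⟨c, hc⟩ : ∃ c : Matrix (Fin n) ((k : Fin t) × Fin (d k)) K,
      c = (c₀ : Matrix (Fin n) (Fin n) K) * Pe K e := ⟨_, rfl⟩
  obtain ⟨c', hc'⟩ : ∃ c' : Matrix ((k : Fin t) × Fin (d k)) (Fin n) K, c' = Pe' K e * ci := ⟨_, rfl⟩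
  have h1 : c * c' = 1 := by
    rw [hc, hc']
    calc (c₀ : Matrix (Fin n) (Fin n) K) * Pe K e * (Pe' K e * ci)
        = (c₀ : Matrix (Fin n) (Fin n) K) * (Pe K e * Pe' K e) * ci := by
          simp only [Matrix.mul_assoc]
      _ = 1 := by rw [Pe_mul_Pe', Matrix.mul_one, hci1]
  have h2 : c' * c = 1 := by
    rw [hc, hc']
    calc Pe' K e * ci * ((c₀ : Matrix (Fin n) (Fin n) K) * Pe K e)
        = Pe' K e * (ci * (c₀ : Matrix (Fin n) (Fin n) K)) * Pe K e := by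
          simp only [Matrix.mul_assoc]
      _ = 1 := by rw [hci2, Matrix.mul_one, Pe'_mul_Pe]
  have hV : c * Cfsg.jordanTypeMatrix d K = U * c := by
    rw [hc, Matrix.mul_assoc, Pe_conj, ← Matrix.mul_assoc, hc₀', Matrix.mul_assoc]
  have A := thmA σ hσ hne U hU
  have B := card_GU_mat hK n u
  rw [← hσdef, ← hUdef] at B
  have C1 := card_C_congr c c' h1 h2 (Cfsg.jordanTypeMatrix d K) U hV
  have C2 := card_Y_congr σ hσ c c' h1 h2 (Cfsg.jordanTypeMatrix d K) U hV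
  have C3 := Y_count_eq d hd σ hσ θ hθ
  have C4 := Nat.card_congr (saEquiv d hd σ)
  have C5 := card_X hK d hd σ hσ θ hθ
  have C6 := Cfsg.Agent.Helper8.JC.main d hK hd
  rw [card_GL_sub] at C6
  have C7 := (card_Rf d hd).trans (expo d)
  have C8 : ∀ i : Fin (Finset.univ.sup d + 1),
      Nat.card ↥(Cfsg.GU ((Finset.univ.filter (fun k : Fin t => d k = (i : ℕ))).card) K q) *
      Nat.card {Z : {Z : Matrix {k : Fin t // d k = (i : ℕ)} {k : Fin t // d k = (i : ℕ)} K //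
        Z.det ≠ 0} // dg σ Z.1 = Z.1} =
      ∏ j : Fin ((Finset.univ.filter (fun k : Fin t => d k = (i : ℕ))).card),
        ((q ^ 2) ^ (Finset.univ.filter (fun k : Fin t => d k = (i : ℕ))).card -
          (q ^ 2) ^ (j : ℕ)) := by
    intro i
    have g1 := card_GU_one hK ((Finset.univ.filter (fun k : Fin t => d k = (i : ℕ))).card)
    rw [← hσdef] at g1
    rw [← g1]
    exact card_herm_mul hK σ hσ hne {k : Fin t // d k = (i : ℕ)} _ (Fintype.card_subtype _)
  obtain ⟨γ, hγ⟩ : ∃ γ : ℕ, γ = 2 * (∑ i ∈ Finset.range (Finset.univ.sup d + 1),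
        ∑ j ∈ Finset.range (Finset.univ.sup d + 1),
        if i < j then i * (Finset.univ.filter (fun k : Fin t => d k = i)).card *
          (Finset.univ.filter (fun k : Fin t => d k = j)).card else 0) +
      ∑ i ∈ Finset.range (Finset.univ.sup d + 1),
        (i - 1) * (Finset.univ.filter (fun k : Fin t => d k = i)).card ^ 2 := ⟨_, rfl⟩
  rw [← hγ] at C6 C7 ⊢
  obtain ⟨Hh, hHh⟩ : ∃ Hh : ℕ, Hh = ∏ i : Fin (Finset.univ.sup d + 1),
      Nat.card {Z : {Z : Matrix {k : Fin t // d k = (i : ℕ)} {k : Fin t // d k = (i : ℕ)} K //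
        Z.det ≠ 0} // dg σ Z.1 = Z.1} := ⟨_, rfl⟩
  rw [← hHh, C7] at C5
  have hprod : ∏ i ∈ Finset.range (Finset.univ.sup d + 1),
      (∏ j : Fin ((Finset.univ.filter (fun k : Fin t => d k = i)).card),
        ((q ^ 2) ^ (Finset.univ.filter (fun k : Fin t => d k = i)).card - (q ^ 2) ^ (j : ℕ))) =
      (∏ i : Fin (Finset.univ.sup d + 1),
        Nat.card ↥(Cfsg.GU ((Finset.univ.filter (fun k : Fin t => d k = (i : ℕ))).card) K q)) *
        Hh := by
    rw [← Fin.prod_univ_eq_prod_range (fun i =>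
      ∏ j : Fin ((Finset.univ.filter (fun k : Fin t => d k = i)).card),
        ((q ^ 2) ^ (Finset.univ.filter (fun k : Fin t => d k = i)).card - (q ^ 2) ^ (j : ℕ)))
      (Finset.univ.sup d + 1), hHh, ← Finset.prod_mul_distrib]
    exact Finset.prod_congr rfl (fun i _ => (C8 i).symm)
  rw [C2, C3, C4, C5, ← C1, C6, hprod] at A
  rw [B, ← Fin.prod_univ_eq_prod_range (fun i =>
    Nat.card ↥(Cfsg.GU ((Finset.univ.filter (fun k : Fin t => d k = i)).card) K q))
    (Finset.univ.sup d + 1)]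
  have hpos : 0 < q ^ γ * Hh := by
    apply Nat.mul_pos (pow_pos (by omega) _)
    rw [hHh]
    apply Finset.prod_pos
    intro i _
    haveI : Nonempty {Z : {Z : Matrix {k : Fin t // d k = (i : ℕ)} {k : Fin t // d k = (i : ℕ)} K //
        Z.det ≠ 0} // dg σ Z.1 = Z.1} :=
      ⟨⟨⟨1, by rw [Matrix.det_one]; exact one_ne_zero⟩, dg_one σ⟩⟩
    exact Nat.card_pos
  apply Nat.eq_of_mul_eq_mul_right hpos
  rw [A, ← pow_mul, two_mul, pow_add]
  ring

end Cfsg.Agent.Helper8.GC
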