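import Mathlib

set_option autoImplicit false

/-! # Solvable groups of odd order acting on a plane over a field

If a finite solvable group `X` of odd order acts linearly on a two-dimensional space over a
field of characteristic `p ≠ 2`, then its commutator subgroup acts unipotently. -/

namespace Cfsg.Agent.Helper8.GL2Odd

open scoped commutatorElement

section general

variable {K : Type*} [Field K] {W : Type*} [AddCommGroup W] [Module K W]

/-- `w` is not a multiple of `v`. -/
def NP (K : Type*) [Field K] {W : Type*} [AddCommGroup W] [Module K W] (v w : W) : Prop :=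
  ∀ c : K, w ≠ c • v

/-- `v` is an eigenvector of `g` (the zero vector is allowed). -/
def Eig (g : W ≃ₗ[K] W) (v : W) : Prop := ∃ c : K, g v = c • v

/-- `g` is a scalar. -/
def Scal (g : W ≃ₗ[K] W) : Prop := ∃ c : K, ∀ x : W, g x = c • x

/-- Two-dimensionality in the form used below. -/
def Two (K : Type*) [Field K] (W : Type*) [AddCommGroup W] [Module K W] : Prop :=
  ∀ v w : W, v ≠ 0 → NP K v w → ∀ x : W, ∃ a b : K, x = a • v + b • w

theorem indep {v w : W} (hv : v ≠ 0) (hw : NP K v w) {a b : K} (h : a • v + b • w = 0) :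
    a = 0 ∧ b = 0 := by
  have hb : b = 0 := by
    by_contra hb
    apply hw (-(b⁻¹ * a))
    have h1 : b • w = -(a • v) := eq_neg_of_add_eq_zero_right h
    have h2 : w = b⁻¹ • (b • w) := by rw [smul_smul, inv_mul_cancel₀ hb, one_smul]
    rw [h2, h1]
    module
  subst hb
  rw [zero_smul, add_zero] at h
  exact ⟨(smul_eq_zero.mp h).resolve_right hv, rfl⟩

theorem scal_of_three (h2 : Two K W) (g : W ≃ₗ[K] W) {v1 v2 v3 : W} (hv1 : v1 ≠ 0)
    (h12 : NP K v1 v2) (h13 : NP K v1 v3) (h23 : NP K v2 v3)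
    (e1 : Eig g v1) (e2 : Eig g v2) (e3 : Eig g v3) : Scal g := by
  obtain ⟨c1, hc1⟩ := e1
  obtain ⟨c2, hc2⟩ := e2
  obtain ⟨c3, hc3⟩ := e3
  obtain ⟨a, b, hab⟩ := h2 v1 v2 hv1 h12 v3
  have ha : a ≠ 0 := by
    intro ha
    rw [ha, zero_smul, zero_add] at hab
    exact h23 b hab
  have hb : b ≠ 0 := by
    intro hb
    rw [hb, zero_smul, add_zero] at hab
    exact h13 a hab
  have h3 : g v3 = (a * c1) • v1 + (b * c2) • v2 := by
    rw [hab, map_add, map_smul, map_smul, hc1, hc2, smul_smul, smul_smul]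
  have h3' : g v3 = c3 • (a • v1 + b • v2) := by rw [← hab]; exact hc3
  have h4 : (a * c1 - c3 * a) • v1 + (b * c2 - c3 * b) • v2 = 0 := by
    have h5 : (a * c1 - c3 * a) • v1 + (b * c2 - c3 * b) • v2 =
        ((a * c1) • v1 + (b * c2) • v2) - c3 • (a • v1 + b • v2) := by module
    rw [h5, ← h3, ← h3', sub_self]
  obtain ⟨h6, h7⟩ := indep hv1 h12 h4
  have hc13 : c1 = c3 := by
    have : a * (c1 - c3) = 0 := by linear_combination h6
    exact sub_eq_zero.mp ((mul_eq_zero.mp this).resolve_left ha)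
  have hc23 : c2 = c3 := by
    have : b * (c2 - c3) = 0 := by linear_combination h7
    exact sub_eq_zero.mp ((mul_eq_zero.mp this).resolve_left hb)
  refine ⟨c1, fun x => ?_⟩
  obtain ⟨a', b', rfl⟩ := h2 v1 v2 hv1 h12 x
  rw [map_add, map_smul, map_smul, hc1, hc2, hc23, ← hc13]
  module

/-- An element of odd order permuting a set of vectors containing no three pairwise
non-proportional ones fixes each of the lines. -/
theorem eig_of_odd (S : Set W)
    (hS : ∀ v1 ∈ S, ∀ v2 ∈ S, ∀ v3 ∈ S, v1 ≠ 0 → NP K v1 v2 → NP K v1 v3 → NP K v2 v3 → False)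
    (m : W ≃ₗ[K] W) (hm : ∀ v ∈ S, m v ∈ S) (hodd : ∃ k : ℕ, (m * m) ^ k = m)
    {v : W} (hv : v ∈ S) (hv0 : v ≠ 0) : Eig m v := by
  by_contra hne
  have h12 : NP K v (m v) := fun c hc => hne ⟨c, hc⟩
  have h23 : NP K (m v) (m (m v)) := by
    intro c hc
    apply hne
    refine ⟨c, m.injective ?_⟩
    rw [hc, map_smul]
  have h13 : ∃ c : K, m (m v) = c • v := by
    by_contra hcon
    exact hS v hv (m v) (hm v hv) (m (m v)) (hm _ (hm v hv)) hv0 h12
      (fun c hc => hcon ⟨c, hc⟩) h23
  obtain ⟨c, hc⟩ := h13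
  obtain ⟨k, hk⟩ := hodd
  have hpow : ∀ j : ℕ, ((m * m) ^ j) v = c ^ j • v := by
    intro j
    induction j with
    | zero => rw [pow_zero, pow_zero, one_smul]; rfl
    | succ j ih =>
      rw [pow_succ, LinearEquiv.mul_apply, LinearEquiv.mul_apply, hc, map_smul, ih, smul_smul,
        pow_succ']
  apply hne
  refine ⟨c ^ k, ?_⟩
  rw [← hpow k, hk]

/-! ### The Borel case -/

/-- `h` is upper triangular with respect to the vector `v` and the functional `f`. -/
def Tri (v : W) (f : W →ₗ[K] K) (h : W ≃ₗ[K] W) (c d : K) : Prop :=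
  h v = c • v ∧ ∀ x, f (h x) = d * f x

theorem Tri.mul {v : W} {f : W →ₗ[K] K} {h h' : W ≃ₗ[K] W} {c d c' d' : K}
    (t : Tri v f h c d) (t' : Tri v f h' c' d') : Tri v f (h * h') (c * c') (d * d') := by
  constructor
  · rw [LinearEquiv.mul_apply, t'.1, map_smul, t.1, smul_smul, mul_comm]
  · intro x
    rw [LinearEquiv.mul_apply, t.2, t'.2, mul_assoc]

theorem apply_inv_apply (h : W ≃ₗ[K] W) (x : W) : h (h⁻¹ x) = x := by
  rw [← LinearEquiv.mul_apply, mul_inv_cancel]; rfl

theorem inv_apply_apply (h : W ≃ₗ[K] W) (x : W) : h⁻¹ (h x) = x := by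
  rw [← LinearEquiv.mul_apply, inv_mul_cancel]; rfl

theorem Tri.ne_zero {v : W} {f : W →ₗ[K] K} {h : W ≃ₗ[K] W} {c d : K} (hv : v ≠ 0)
    (hf : ∃ w, f w ≠ 0) (t : Tri v f h c d) : c ≠ 0 ∧ d ≠ 0 := by
  constructor
  · intro hc
    have h1 := t.1
    rw [hc, zero_smul] at h1
    exact hv ((LinearEquiv.map_eq_zero_iff h).mp h1)
  · intro hd
    obtain ⟨w, hw⟩ := hf
    apply hw
    have h1 := t.2 (h⁻¹ w)
    rw [hd, zero_mul, apply_inv_apply] at h1
    exact h1

theorem Tri.inv {v : W} {f : W →ₗ[K] K} {h : W ≃ₗ[K] W} {c d : K} (hv : v ≠ 0)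
    (hf : ∃ w, f w ≠ 0) (t : Tri v f h c d) : Tri v f h⁻¹ c⁻¹ d⁻¹ := by
  obtain ⟨hc, hd⟩ := t.ne_zero hv hf
  constructor
  · apply h.injective
    rw [map_smul, t.1, smul_smul, inv_mul_cancel₀ hc, one_smul, apply_inv_apply]
  · intro x
    have h1 := t.2 (h⁻¹ x)
    rw [apply_inv_apply] at h1
    rw [h1, ← mul_assoc, inv_mul_cancel₀ hd, one_mul]

theorem unip_pow {p : ℕ} [CharP K p] {v : W} {f : W →ₗ[K] K}
    (hker : ∀ x, f x = 0 → ∃ e : K, x = e • v) (g : W ≃ₗ[K] W) (t : Tri v f g 1 1) :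
    g ^ p = 1 := by
  have hgv : ∀ j : ℕ, (g ^ j) v = v := by
    intro j
    induction j with
    | zero => rw [pow_zero]; rfl
    | succ j ih => rw [pow_succ, LinearEquiv.mul_apply, t.1, one_smul, ih]
  have hg : ∀ x, ∃ e : K, g x = x + e • v := by
    intro x
    have h1 : f (g x - x) = 0 := by rw [map_sub, t.2, one_mul, sub_self]
    obtain ⟨e, he⟩ := hker _ h1
    exact ⟨e, by rw [← he]; abel⟩
  apply LinearEquiv.ext
  intro x
  obtain ⟨e, he⟩ := hg x
  have hpow : ∀ j : ℕ, (g ^ j) x = x + (j : K) • (e • v) := by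
    intro j
    induction j with
    | zero => rw [pow_zero, Nat.cast_zero, zero_smul, add_zero]; rfl
    | succ j ih =>
      rw [pow_succ, LinearEquiv.mul_apply, he, map_add, map_smul, ih, hgv, Nat.cast_succ]
      module
  rw [hpow p, CharP.cast_eq_zero K p, zero_smul, add_zero]
  rfl

theorem borel {p : ℕ} [CharP K p] (v : W) (hv : v ≠ 0) (f : W →ₗ[K] K) (hf : ∃ w, f w ≠ 0)
    (hfv : f v = 0) (hker : ∀ x, f x = 0 → ∃ e : K, x = e • v)
    {X : Type*} [Group X] (φ : X →* (W ≃ₗ[K] W)) (hB : ∀ x : X, Eig (φ x) v) :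
    ∀ g ∈ commutator X, (φ g) ^ p = 1 := by
  have htri : ∀ x : X, ∃ c d, Tri v f (φ x) c d := by
    intro x
    obtain ⟨c, hc⟩ := hB x
    obtain ⟨w, hw⟩ := hf
    refine ⟨c, f (φ x w) / f w, hc, fun y => ?_⟩
    obtain ⟨e, he⟩ := hker (y - (f y / f w) • w)
      (by rw [map_sub, map_smul, smul_eq_mul, div_mul_cancel₀ _ hw, sub_self])
    have hy : y = e • v + (f y / f w) • w := by rw [← he]; abel
    have h1 : φ x y = (e * c) • v + (f y / f w) • φ x w := by
      conv_lhs => rw [hy]
      rw [map_add, map_smul, map_smul, hc, smul_smul]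
    rw [h1, map_add, map_smul, map_smul, hfv, smul_eq_mul, smul_eq_mul, mul_zero, zero_add]
    field_simp
  let T : Subgroup X :=
    { carrier := {x | Tri v f (φ x) 1 1}
      mul_mem' := by
        intro a b ha hb
        have h1 := Tri.mul ha hb
        rw [mul_one, ← map_mul] at h1
        exact h1
      one_mem' := by
        show Tri v f (φ 1) 1 1
        rw [map_one]
        exact ⟨(one_smul K v).symm, fun x => (one_mul _).symm⟩
      inv_mem' := by
        intro a ha
        have h1 := Tri.inv hv hf ha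
        rw [inv_one, ← map_inv] at h1
        exact h1 }
  have hle : commutator X ≤ T := by
    rw [commutator_def, Subgroup.commutator_le]
    intro a _ b _
    obtain ⟨c, d, t⟩ := htri a
    obtain ⟨c', d', t'⟩ := htri b
    have ti := Tri.inv hv hf t
    have ti' := Tri.inv hv hf t'
    obtain ⟨hc, hd⟩ := t.ne_zero hv hf
    obtain ⟨hc', hd'⟩ := t'.ne_zero hv hf
    have h1 := (t.mul t').mul (ti.mul ti')
    have e1 : φ ⁅a, b⁆ = φ a * φ b * ((φ a)⁻¹ * (φ b)⁻¹) := by
      rw [commutatorElement_def, map_mul, map_mul, map_mul, map_inv, map_inv, mul_assoc,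
        mul_assoc]
    have e2 : c * c' * (c⁻¹ * c'⁻¹) = 1 := by field_simp
    have e3 : d * d' * (d⁻¹ * d'⁻¹) = 1 := by field_simp
    rw [e2, e3, ← e1] at h1
    exact h1
  intro g hg
  exact unip_pow hker (φ g) (hle hg)

/-! ### The irreducible case -/

theorem np_of_noeig {n : W ≃ₗ[K] W} (hn : ∀ x : W, x ≠ 0 → ¬ Eig n x) {v : W} (hv : v ≠ 0) :
    NP K v (n v) :=
  fun c hc => hn v hv ⟨c, hc⟩

theorem quad_rel (h2 : Two K W) {n : W ≃ₗ[K] W} (hn : ∀ x : W, x ≠ 0 → ¬ Eig n x) {v : W}
    (hv : v ≠ 0) : ∃ α β : K, ∀ x, n (n x) = α • x + β • n x := by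
  have hnp := np_of_noeig hn hv
  obtain ⟨α, β, hαβ⟩ := h2 v (n v) hv hnp (n (n v))
  refine ⟨α, β, fun x => ?_⟩
  obtain ⟨a, c, rfl⟩ := h2 v (n v) hv hnp x
  simp only [map_add, map_smul]
  rw [hαβ]
  simp only [map_add, map_smul]
  rw [hαβ]
  module

theorem comm_form (h2 : Two K W) {n : W ≃ₗ[K] W} (hn : ∀ x : W, x ≠ 0 → ¬ Eig n x) {v : W}
    (hv : v ≠ 0) (m : W ≃ₗ[K] W) (hm : ∀ x, m (n x) = n (m x)) :
    ∃ i j : K, ∀ x, m x = i • x + j • n x := by
  have hnp := np_of_noeig hn hv
  obtain ⟨i, j, hij⟩ := h2 v (n v) hv hnp (m v)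
  refine ⟨i, j, fun x => ?_⟩
  obtain ⟨a, c, rfl⟩ := h2 v (n v) hv hnp x
  simp only [map_add, map_smul]
  rw [hm v, hij]
  simp only [map_add, map_smul]
  module

theorem odd_sq_pow {X : Type*} [Group X] (x : X) (h : ∃ k : ℕ, x ^ (2 * k + 1) = 1) :
    ∃ k : ℕ, (x * x) ^ k = x := by
  obtain ⟨k, hk⟩ := h
  refine ⟨k + 1, ?_⟩
  rw [← pow_two, ← pow_mul]
  have : 2 * (k + 1) = (2 * k + 1) + 1 := by ring
  rw [this, pow_succ, hk, one_mul]

theorem abelian_of_noeig (h2 : Two K W) (htwo : (2 : K) ≠ 0) {X : Type*} [Group X]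
    (φ : X →* (W ≃ₗ[K] W)) (hoddX : ∀ x : X, ∃ k : ℕ, x ^ (2 * k + 1) = 1)
    (N : Subgroup X) [hNn : N.Normal] (hNN : ∀ a ∈ N, ∀ b ∈ N, Scal (φ ⁅a, b⁆))
    (n : X) (hnN : n ∈ N) (hn : ∀ x : W, x ≠ 0 → ¬ Eig (φ n) x) (hW : ∃ v : W, v ≠ 0) :
    ∀ a b : X, φ ⁅a, b⁆ = 1 := by
  obtain ⟨v, hv⟩ := hW
  have hnp := np_of_noeig hn hv
  obtain ⟨α, β, hq⟩ := quad_rel h2 hn hv
  have hnv0 : φ n v ≠ 0 := fun h0 => hv ((LinearEquiv.map_eq_zero_iff (φ n)).mp h0)
  have hα : α ≠ 0 := by
    intro hα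
    have h1 := hq v
    rw [hα, zero_smul, zero_add] at h1
    exact hn (φ n v) hnv0 ⟨β, h1⟩
  have h4 : (4 : K) ≠ 0 := by
    have : (4 : K) = 2 * 2 := by norm_num
    rw [this]
    exact mul_ne_zero htwo htwo
  have hdisc : β ^ 2 + 4 * α ≠ 0 := by
    intro hd
    obtain ⟨γ, hγ⟩ : ∃ γ : K, 2 * γ = β := ⟨β / 2, by field_simp⟩
    have hα' : α = -γ ^ 2 := by
      have h5 : 4 * (α + γ ^ 2) = 0 := by rw [← hγ] at hd; linear_combination hd
      have h6 := (mul_eq_zero.mp h5).resolve_left h4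
      linear_combination h6
    have hu : φ n v - γ • v ≠ 0 := fun h0 => hnp γ (sub_eq_zero.mp h0)
    apply hn _ hu
    refine ⟨γ, ?_⟩
    rw [map_sub, map_smul, hq v, hα', ← hγ]
    module
  -- elements of `N` commute with `n`
  have hcommN : ∀ b ∈ N, ∀ x, φ n (φ b x) = φ b (φ n x) := by
    intro b hb
    obtain ⟨μ, hμ⟩ := hNN n hnN b hb
    have hrel : ∀ x, φ n (φ b x) = μ • φ b (φ n x) := by
      intro x
      have e : n * b = ⁅n, b⁆ * (b * n) := by rw [commutatorElement_def]; group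
      have h1 : φ (n * b) x = φ (⁅n, b⁆ * (b * n)) x := by rw [← e]
      rw [map_mul, map_mul, map_mul, LinearEquiv.mul_apply, LinearEquiv.mul_apply,
        LinearEquiv.mul_apply, hμ] at h1
      exact h1
    have h1 := hq (φ b v)
    rw [hrel v, map_smul, hrel (φ n v), hq v] at h1
    simp only [map_add, map_smul] at h1
    have hv' : φ b v ≠ 0 := fun h0 => hv ((LinearEquiv.map_eq_zero_iff (φ b)).mp h0)
    have hnp' : NP K (φ b v) (φ b (φ n v)) := by
      intro c hc
      apply hnp c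
      apply (φ b).injective
      rw [hc, map_smul]
    have h2' : (μ * μ * α - α) • φ b v + (μ * μ * β - β * μ) • φ b (φ n v) = 0 := by
      have h3 : (μ * μ * α - α) • φ b v + (μ * μ * β - β * μ) • φ b (φ n v) =
          μ • μ • (α • φ b v + β • φ b (φ n v)) - (α • φ b v + β • μ • φ b (φ n v)) := by module
      rw [h3, h1, sub_self]
    obtain ⟨h3, -⟩ := indep hv' hnp' h2'
    have hμ2 : μ * μ = 1 := by
      have h5 : (μ * μ - 1) * α = 0 := by linear_combination h3
      exact sub_eq_zero.mp ((mul_eq_zero.mp h5).resolve_right hα)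
    have hμ1 : μ = 1 := by
      have h5 : (μ - 1) * (μ + 1) = 0 := by linear_combination hμ2
      rcases mul_eq_zero.mp h5 with h | h
      · exact sub_eq_zero.mp h
      · exfalso
        have hμm : μ = -1 := eq_neg_of_add_eq_zero_left h
        obtain ⟨k, hk⟩ := hoddX ⁅n, b⁆
        have hpw : ∀ j : ℕ, (φ ⁅n, b⁆ ^ j) v = μ ^ j • v := by
          intro j
          induction j with
          | zero => rw [pow_zero, pow_zero, one_smul]; rfl
          | succ j ih =>
            rw [pow_succ, LinearEquiv.mul_apply, hμ, map_smul, ih, smul_smul, pow_succ']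
        have h6 := hpw (2 * k + 1)
        rw [← map_pow, hk, map_one, hμm] at h6
        have h7 : ((-1 : K)) ^ (2 * k + 1) = -1 := by
          rw [pow_succ, pow_mul]; simp
        rw [h7] at h6
        have h8 : v = (-1 : K) • v := h6
        have h9 : (2 : K) • v = 0 := by
          have h10 : (2 : K) • v = v - (-1 : K) • v := by module
          rw [h10, ← h8, sub_self]
        exact hv ((smul_eq_zero.mp h9).resolve_left htwo)
    intro x
    rw [hrel x, hμ1, one_smul]
  -- every element commutes with `n`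
  have hcommX : ∀ h : X, ∀ x, φ h (φ n x) = φ n (φ h x) := by
    intro h
    have hmN : h * n * h⁻¹ ∈ N := hNn.conj_mem n hnN h
    have hm_apply : ∀ y, φ (h * n * h⁻¹) y = φ h (φ n (φ h⁻¹ y)) := by
      intro y
      rw [map_mul, map_mul]; rfl
    have hcancel : ∀ y, φ h⁻¹ (φ h y) = y := by
      intro y
      rw [map_inv]; exact inv_apply_apply _ _
    have hcancel' : ∀ y, φ h (φ h⁻¹ y) = y := by
      intro y
      rw [map_inv]; exact apply_inv_apply _ _
    have hmh : ∀ y, φ (h * n * h⁻¹) (φ h y) = φ h (φ n y) := by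
      intro y
      rw [hm_apply, hcancel]
    have hmn : ∀ x, φ (h * n * h⁻¹) (φ n x) = φ n (φ (h * n * h⁻¹) x) :=
      fun x => (hcommN _ hmN x).symm
    obtain ⟨i, j, hij⟩ := comm_form h2 hn hv (φ (h * n * h⁻¹)) hmn
    have hmq : ∀ x, φ (h * n * h⁻¹) (φ (h * n * h⁻¹) x) = α • x + β • φ (h * n * h⁻¹) x := by
      intro x
      rw [hm_apply (φ (h * n * h⁻¹) x), hm_apply x, hcancel, hq, map_add, map_smul, map_smul,
        hcancel']
    have h1 := hmq v
    rw [hij v] at h1
    simp only [map_add, map_smul] at h1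
    rw [hmn v, hij v] at h1
    simp only [map_add, map_smul] at h1
    rw [hq v] at h1
    have h2' : (i * i + j * j * α - α - β * i) • v + (2 * i * j + j * j * β - β * j) • φ n v
        = 0 := by
      have h3 : (i * i + j * j * α - α - β * i) • v + (2 * i * j + j * j * β - β * j) • φ n v
          = (i • (i • v + j • φ n v) + j • (i • φ n v + j • (α • v + β • φ n v)))
            - (α • v + β • (i • v + j • φ n v)) := by module
      rw [h3, h1, sub_self]
    obtain ⟨e1, e2⟩ := indep hv hnp h2'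
    have hj : j ≠ 0 := by
      intro hj
      apply hn v hv
      refine ⟨i, ?_⟩
      have h3 : φ n v = φ h⁻¹ (φ (h * n * h⁻¹) (φ h v)) := by rw [hmh, hcancel]
      rw [h3, hij, hj, zero_smul, add_zero, map_smul, hcancel]
    have e3 : 2 * i = β * (1 - j) := by
      have h3 : j * (2 * i + j * β - β) = 0 := by linear_combination e2
      have h5 := (mul_eq_zero.mp h3).resolve_left hj
      linear_combination h5
    have e4 : (1 - j) * (1 + j) * (β ^ 2 + 4 * α) = 0 := by
      linear_combination (-4) * e1 + (2 * i + β * (1 - j) - 2 * β) * e3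
    have hcases : (j = 1 ∧ i = 0) ∨ (j = -1 ∧ i = β) := by
      rcases mul_eq_zero.mp e4 with h | h
      · rcases mul_eq_zero.mp h with h | h
        · left
          have hj1 : j = 1 := by linear_combination -h
          refine ⟨hj1, ?_⟩
          have h3 : 2 * i = 0 := by rw [e3, hj1]; ring
          exact (mul_eq_zero.mp h3).resolve_left htwo
        · right
          have hj1 : j = -1 := by linear_combination h
          refine ⟨hj1, ?_⟩
          have h3 : 2 * (i - β) = 0 := by rw [mul_sub, e3, hj1]; ring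
          exact sub_eq_zero.mp ((mul_eq_zero.mp h3).resolve_left htwo)
      · exact absurd h hdisc
    rcases hcases with ⟨hj1, hi0⟩ | ⟨hj1, hiβ⟩
    · intro x
      rw [← hmh x, hij, hj1, hi0, zero_smul, zero_add, one_smul]
    · -- `h * h` commutes with `n`
      have hR : ∀ y, φ h (φ n y) = β • φ h y - φ n (φ h y) := by
        intro y
        rw [← hmh y, hij, hj1, hiβ]
        module
      have hsq : ∀ x, φ (h * h) (φ n x) = φ n (φ (h * h) x) := by
        intro x
        rw [map_mul, LinearEquiv.mul_apply, LinearEquiv.mul_apply, hR x, map_sub, map_smul,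
          hR (φ h x)]
        abel
      have hpw : ∀ k : ℕ, ∀ x, φ ((h * h) ^ k) (φ n x) = φ n (φ ((h * h) ^ k) x) := by
        intro k
        induction k with
        | zero => intro x; rw [pow_zero, map_one]; rfl
        | succ k ih =>
          intro x
          rw [pow_succ, map_mul, LinearEquiv.mul_apply, LinearEquiv.mul_apply, hsq, ih]
      obtain ⟨k, hk⟩ := odd_sq_pow h (hoddX h)
      intro x
      have h3 := hpw k x
      rw [hk] at h3
      exact h3
  intro a b
  rw [map_commutatorElement, commutatorElement_eq_one_iff_commute]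
  obtain ⟨i, j, hij⟩ := comm_form h2 hn hv (φ a) (hcommX a)
  obtain ⟨i', j', hij'⟩ := comm_form h2 hn hv (φ b) (hcommX b)
  show φ a * φ b = φ b * φ a
  apply LinearEquiv.ext
  intro x
  rw [LinearEquiv.mul_apply, LinearEquiv.mul_apply, hij' x, hij x]
  simp only [map_add, map_smul]
  rw [hij x, hij' x, hij (φ n x), hij' (φ n x)]
  module

end general


section main

variable {K : Type*} [Field K] {W : Type*} [AddCommGroup W] [Module K W]

theorem exists_basis [FiniteDimensional K W] (hdim : Module.finrank K W = 2) {v w : W}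
    (hv : v ≠ 0) (hw : NP K v w) : ∃ b : Module.Basis (Fin 2) K W, b 0 = v ∧ b 1 = w := by
  have hli : LinearIndependent K ![v, w] :=
    (LinearIndependent.pair_iff' hv).mpr (fun a h => hw a h.symm)
  refine ⟨basisOfLinearIndependentOfCardEqFinrank hli (by rw [hdim]; rfl), ?_, ?_⟩
  · rw [coe_basisOfLinearIndependentOfCardEqFinrank]; rfl
  · rw [coe_basisOfLinearIndependentOfCardEqFinrank]; rfl

theorem two_of_finrank [FiniteDimensional K W] (hdim : Module.finrank K W = 2) : Two K W := by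
  intro v w hv hw x
  obtain ⟨b, hb0, hb1⟩ := exists_basis hdim hv hw
  refine ⟨b.repr x 0, b.repr x 1, ?_⟩
  have h := b.sum_repr x
  rw [Fin.sum_univ_two, hb0, hb1] at h
  exact h.symm

theorem exists_fun [FiniteDimensional K W] (hdim : Module.finrank K W = 2) {v w : W}
    (hv : v ≠ 0) (hw : NP K v w) :
    ∃ f : W →ₗ[K] K, f v = 0 ∧ f w ≠ 0 ∧ ∀ x, f x = 0 → ∃ e : K, x = e • v := by
  obtain ⟨b, hb0, hb1⟩ := exists_basis hdim hv hw
  refine ⟨b.coord 1, ?_, ?_, ?_⟩
  · rw [← hb0, Module.Basis.coord_apply, Module.Basis.repr_self]; simp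
  · rw [← hb1, Module.Basis.coord_apply, Module.Basis.repr_self]; simp
  · intro x hx
    refine ⟨b.repr x 0, ?_⟩
    have h := b.sum_repr x
    rw [Fin.sum_univ_two, hb0, hb1] at h
    rw [Module.Basis.coord_apply] at hx
    rw [hx, zero_smul, add_zero] at h
    exact h.symm

theorem exists_np [FiniteDimensional K W] (hdim : Module.finrank K W = 2) {v : W} (hv : v ≠ 0) :
    ∃ w, NP K v w := by
  by_contra hcon
  have h : ∀ w : W, ∃ c : K, c • v = w := by
    intro w
    by_contra hw
    exact hcon ⟨w, fun c hc => hw ⟨c, hc.symm⟩⟩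
  have h1 := finrank_le_one v h
  omega

theorem odd_pow {X : Type*} [Group X] [Finite X] (hodd : Odd (Nat.card X)) (x : X) :
    ∃ k : ℕ, x ^ (2 * k + 1) = 1 := by
  have h1 : Odd (orderOf x) := hodd.of_dvd_nat (orderOf_dvd_natCard x)
  obtain ⟨k, hk⟩ := h1
  exact ⟨k, by rw [← hk]; exact pow_orderOf_eq_one x⟩

/-- A finite solvable group of odd order acting on a plane in characteristic `p ≠ 2`:
the commutator subgroup acts unipotently. -/
theorem main_two {p : ℕ} [CharP K p] (htwo : (2 : K) ≠ 0) [FiniteDimensional K W]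
    (hdim : Module.finrank K W = 2) {X : Type*} [Group X] [Finite X] (hodd : Odd (Nat.card X))
    [hsolv : Group.IsSolvable X] (φ : X →* (W ≃ₗ[K] W)) : ∀ g ∈ commutator X, (φ g) ^ p = 1 := by
  have h2 := two_of_finrank hdim
  have hoddX := odd_pow hodd
  have hW : ∃ v : W, v ≠ 0 := by
    haveI : Nontrivial W := Module.nontrivial_of_finrank_pos (R := K) (by rw [hdim]; norm_num)
    exact exists_ne 0
  have hker : (∀ a b : X, φ ⁅a, b⁆ = 1) → ∀ g ∈ commutator X, (φ g) ^ p = 1 := by
    intro h g hg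
    have hle : commutator X ≤ φ.ker := by
      rw [commutator_def, Subgroup.commutator_le]
      intro a _ b _
      exact MonoidHom.mem_ker.mpr (h a b)
    rw [MonoidHom.mem_ker.mp (hle hg), one_pow]
  by_cases hall : ∀ x : X, Scal (φ x)
  · apply hker
    intro a b
    rw [map_commutatorElement, commutatorElement_eq_one_iff_commute]
    obtain ⟨c, hc⟩ := hall a
    obtain ⟨d, hd⟩ := hall b
    show φ a * φ b = φ b * φ a
    apply LinearEquiv.ext
    intro x
    rw [LinearEquiv.mul_apply, LinearEquiv.mul_apply, hd, hc, hc, hd, smul_comm]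
  · obtain ⟨k0, hk0⟩ := hsolv.solvable
    have hex : ∃ k : ℕ, (¬ ∀ x ∈ derivedSeries X k, Scal (φ x)) ∧
        ∀ x ∈ derivedSeries X (k + 1), Scal (φ x) := by
      by_contra hcon
      have hind : ∀ k : ℕ, ¬ ∀ x ∈ derivedSeries X k, Scal (φ x) := by
        intro k
        induction k with
        | zero =>
          intro h
          exact hall (fun x => h x (by rw [derivedSeries_zero]; exact Subgroup.mem_top x))
        | succ k ih =>
          intro h
          exact hcon ⟨k, ih, h⟩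
      apply hind k0
      intro x hx
      rw [hk0, Subgroup.mem_bot] at hx
      rw [hx, map_one]
      exact ⟨1, fun y => (one_smul K y).symm⟩
    obtain ⟨k, hk1, hk2⟩ := hex
    haveI hNn : (derivedSeries X k).Normal := derivedSeries_normal X k
    have hNN : ∀ a ∈ derivedSeries X k, ∀ b ∈ derivedSeries X k, Scal (φ ⁅a, b⁆) := by
      intro a ha b hb
      apply hk2
      rw [derivedSeries_succ]
      exact Subgroup.commutator_mem_commutator ha hb
    obtain ⟨n, hnN, hnS⟩ : ∃ n ∈ derivedSeries X k, ¬ Scal (φ n) := by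
      by_contra hcon
      apply hk1
      intro x hx
      by_contra hxS
      exact hcon ⟨x, hx, hxS⟩
    by_cases heig : ∃ v1 : W, v1 ≠ 0 ∧ Eig (φ n) v1
    · obtain ⟨v1, hv1, he1⟩ := heig
      have hS : ∀ u1 ∈ {u : W | Eig (φ n) u}, ∀ u2 ∈ {u : W | Eig (φ n) u},
          ∀ u3 ∈ {u : W | Eig (φ n) u}, u1 ≠ 0 → NP K u1 u2 → NP K u1 u3 → NP K u2 u3 →
          False := by
        intro u1 hu1 u2 hu2 u3 hu3 h0 h12 h13 h23
        exact hnS (scal_of_three h2 (φ n) h0 h12 h13 h23 hu1 hu2 hu3)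
      have hNv : ∀ b ∈ derivedSeries X k, Eig (φ b) v1 := by
        intro b hb
        apply eig_of_odd {u : W | Eig (φ n) u} hS (φ b) _ _ he1 hv1
        · intro u hu
          obtain ⟨c, hc⟩ := hu
          obtain ⟨μ, hμ⟩ := hNN n hnN b hb
          refine ⟨μ * c, ?_⟩
          have e : n * b = ⁅n, b⁆ * (b * n) := by rw [commutatorElement_def]; group
          have h1 : φ (n * b) u = φ (⁅n, b⁆ * (b * n)) u := by rw [← e]
          rw [map_mul, map_mul, map_mul, LinearEquiv.mul_apply, LinearEquiv.mul_apply,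
            LinearEquiv.mul_apply, hμ, hc, map_smul, smul_smul] at h1
          exact h1
        · obtain ⟨j, hj⟩ := odd_sq_pow b (hoddX b)
          exact ⟨j, by rw [← map_mul, ← map_pow, hj]⟩
      have hS' : ∀ u1 ∈ {u : W | ∀ b ∈ derivedSeries X k, Eig (φ b) u},
          ∀ u2 ∈ {u : W | ∀ b ∈ derivedSeries X k, Eig (φ b) u},
          ∀ u3 ∈ {u : W | ∀ b ∈ derivedSeries X k, Eig (φ b) u},
          u1 ≠ 0 → NP K u1 u2 → NP K u1 u3 → NP K u2 u3 → False := by
        intro u1 hu1 u2 hu2 u3 hu3 h0 h12 h13 h23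
        exact hS u1 (hu1 n hnN) u2 (hu2 n hnN) u3 (hu3 n hnN) h0 h12 h13 h23
      have hXv : ∀ h : X, Eig (φ h) v1 := by
        intro h
        apply eig_of_odd {u : W | ∀ b ∈ derivedSeries X k, Eig (φ b) u} hS' (φ h) _ _ hNv hv1
        · intro u hu b hb
          have hb' : h⁻¹ * b * h ∈ derivedSeries X k := by
            have h3 := hNn.conj_mem b hb h⁻¹
            rwa [inv_inv] at h3
          obtain ⟨c, hc⟩ := hu _ hb'
          refine ⟨c, ?_⟩
          have e : b * h = h * (h⁻¹ * b * h) := by group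
          have h1 : φ (b * h) u = φ (h * (h⁻¹ * b * h)) u := by rw [← e]
          rw [map_mul, map_mul, LinearEquiv.mul_apply, LinearEquiv.mul_apply, hc, map_smul]
            at h1
          exact h1
        · obtain ⟨j, hj⟩ := odd_sq_pow h (hoddX h)
          exact ⟨j, by rw [← map_mul, ← map_pow, hj]⟩
      obtain ⟨w, hw⟩ := exists_np hdim hv1
      obtain ⟨f, hfv, hfw, hfk⟩ := exists_fun hdim hv1 hw
      exact borel v1 hv1 f ⟨w, hfw⟩ hfv hfk φ hXv
    · apply hker
      apply abelian_of_noeig h2 htwo φ hoddX (derivedSeries X k) hNN n hnN _ hW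
      intro x hx hex
      exact heig ⟨x, hx, hex⟩

theorem comm_of_line {v : W} (hv : ∀ w : W, ∃ c : K, w = c • v) (g h : W ≃ₗ[K] W) :
    g * h = h * g := by
  obtain ⟨c, hc⟩ := hv (g v)
  obtain ⟨d, hd⟩ := hv (h v)
  apply LinearEquiv.ext
  intro x
  obtain ⟨a, rfl⟩ := hv x
  simp only [LinearEquiv.mul_apply, map_smul, hd, hc]
  module

end main

/-- A finite solvable group of odd order acting linearly on an elementary abelian `p`-group of
order at most `p ^ 2` (`p` odd): the commutator subgroup acts with `p`-th power one. -/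
theorem gl2_odd {p : ℕ} [Fact p.Prime] (hp2 : p ≠ 2) {W : Type*} [AddCommGroup W]
    [Module (ZMod p) W] [Finite W] (hW : Nat.card W ≤ p ^ 2) {X : Type*} [Group X] [Finite X]
    (hodd : Odd (Nat.card X)) [Group.IsSolvable X] (φ : X →* (W ≃ₗ[ZMod p] W)) :
    ∀ g ∈ commutator X, (φ g) ^ p = 1 := by
  have hp : p.Prime := Fact.out
  have hcard : Nat.card W = p ^ Module.finrank (ZMod p) W := by
    rw [Module.natCard_eq_pow_finrank (K := ZMod p) (V := W), Nat.card_zmod]
  have hle : Module.finrank (ZMod p) W ≤ 2 := by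
    rw [hcard] at hW
    exact (Nat.pow_le_pow_iff_right hp.one_lt).mp hW
  have htwo : (2 : ZMod p) ≠ 0 := by
    intro h
    have h1 : ((2 : ℕ) : ZMod p) = 0 := by exact_mod_cast h
    rw [ZMod.natCast_eq_zero_iff] at h1
    exact hp2 ((Nat.prime_dvd_prime_iff_eq hp Nat.prime_two).mp h1)
  rcases Nat.lt_or_ge (Module.finrank (ZMod p) W) 2 with hlt | hge
  · have hline : ∃ v : W, ∀ w : W, ∃ c : ZMod p, w = c • v := by
      rcases Nat.lt_or_ge (Module.finrank (ZMod p) W) 1 with h0 | h1
      · have h00 : Module.finrank (ZMod p) W = 0 := by omega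
        haveI : Subsingleton W := Module.finrank_zero_iff.mp h00
        exact ⟨0, fun w => ⟨0, Subsingleton.elim _ _⟩⟩
      · have h1' : Module.finrank (ZMod p) W = 1 := by omega
        obtain ⟨v, -, hv⟩ := finrank_eq_one_iff'.mp h1'
        exact ⟨v, fun w => by obtain ⟨c, hc⟩ := hv w; exact ⟨c, hc.symm⟩⟩
    obtain ⟨v, hv⟩ := hline
    intro g hg
    have hle' : commutator X ≤ φ.ker := by
      rw [commutator_def, Subgroup.commutator_le]
      intro a _ b _
      rw [MonoidHom.mem_ker, map_commutatorElement, commutatorElement_eq_one_iff_commute]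
      exact comm_of_line hv (φ a) (φ b)
    rw [MonoidHom.mem_ker.mp (hle' hg), one_pow]
  · have hdim : Module.finrank (ZMod p) W = 2 := le_antisymm hle hge
    exact main_two htwo hdim hodd φ

end Cfsg.Agent.Helper8.GL2Odd
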