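import Mathlib
import Cfsg.Prelude.Def_LieClassical
import Cfsg.Agent.Helper8.GUConj3

set_option autoImplicit false

namespace Cfsg.Agent.Helper8.GUC

open Polynomial Matrix

variable {K : Type*} [Field K] {n : ℕ}

/-- Every invertible `σ`-Hermitian matrix is of the form `R† R`. -/
theorem herm_sqrt [Finite K] (σ : K →+* K) (hσ : ∀ x, σ (σ x) = x) (hne : σ ≠ RingHom.id K)
    (G Gi : Matrix (Fin n) (Fin n) K) (hG1 : G * Gi = 1) (hGd : dag σ G = G) :
    ∃ R Ri : Matrix (Fin n) (Fin n) K, R * Ri = 1 ∧ Ri * R = 1 ∧ dag σ R * R = G := by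
  classical
  have hG2 : Gi * G = 1 := mul_eq_one_comm.1 hG1
  let Hg : GL (Fin n) K := ⟨G, Gi, hG1, hG2⟩
  have ho : 0 < orderOf Hg := orderOf_pos Hg
  have hHo : G ^ orderOf Hg = 1 := by
    have h1 := pow_orderOf_eq_one Hg
    have h2 : ((Hg ^ orderOf Hg : GL (Fin n) K) : Matrix (Fin n) (Fin n) K) = 1 := by
      rw [h1]
      rfl
    rw [Units.val_pow_eq_pow_val] at h2
    exact h2
  obtain ⟨Φ, ⟨h, hh⟩⟩ := lemPhi σ hσ hne (orderOf Hg) ho
  have hRd : dag σ (aeval G Φ) = aeval G (Φ.map σ) := by rw [dag_aeval, hGd]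
  have hRR : dag σ (aeval G Φ) * aeval G Φ = G := by
    rw [hRd, ← map_mul]
    have h1 : Φ.map σ * Φ = X + (X ^ orderOf Hg - 1) * h := by linear_combination hh
    rw [h1, map_add, map_mul, map_sub, map_pow, aeval_X, map_one, hHo, sub_self, zero_mul,
      add_zero]
  have hR1 : (Gi * dag σ (aeval G Φ)) * aeval G Φ = 1 := by rw [mul_assoc, hRR, hG2]
  exact ⟨aeval G Φ, Gi * dag σ (aeval G Φ), mul_eq_one_comm.1 hR1, hR1, hRR⟩

/-- A `σ`-semilinear anti-automorphism of the matrix ring. -/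
structure IsIota (σ : K →+* K)
    (ι : Matrix (Fin n) (Fin n) K → Matrix (Fin n) (Fin n) K) : Prop where
  add : ∀ X Y, ι (X + Y) = ι X + ι Y
  smul : ∀ (c : K) X, ι (c • X) = σ c • ι X
  one : ι 1 = 1
  mul : ∀ X Y, ι (X * Y) = ι Y * ι X

theorem IsIota.zero {σ : K →+* K} {ι : Matrix (Fin n) (Fin n) K → Matrix (Fin n) (Fin n) K}
    (hι : IsIota σ ι) : ι 0 = 0 := by
  have := hι.smul 0 1
  rwa [zero_smul, map_zero, zero_smul] at this

theorem IsIota.neg {σ : K →+* K} {ι : Matrix (Fin n) (Fin n) K → Matrix (Fin n) (Fin n) K}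
    (hι : IsIota σ ι) (X : Matrix (Fin n) (Fin n) K) : ι (-X) = -ι X := by
  have := hι.smul (-1) X
  rwa [neg_one_smul, map_neg, map_one, neg_one_smul] at this

theorem IsIota.pow {σ : K →+* K} {ι : Matrix (Fin n) (Fin n) K → Matrix (Fin n) (Fin n) K}
    (hι : IsIota σ ι) (X : Matrix (Fin n) (Fin n) K) (k : ℕ) : ι (X ^ k) = ι X ^ k := by
  induction k with
  | zero => rw [pow_zero, pow_zero, hι.one]
  | succ k ih => rw [pow_succ, hι.mul, ih, ← pow_succ']

theorem IsIota.sum {σ : K →+* K} {ι : Matrix (Fin n) (Fin n) K → Matrix (Fin n) (Fin n) K}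
    (hι : IsIota σ ι) (s : Finset ℕ) (f : ℕ → Matrix (Fin n) (Fin n) K) :
    ι (∑ i ∈ s, f i) = ∑ i ∈ s, ι (f i) := by
  classical
  induction s using Finset.induction_on with
  | empty => rw [Finset.sum_empty, Finset.sum_empty, hι.zero]
  | insert a s ha ih => rw [Finset.sum_insert ha, Finset.sum_insert ha, hι.add, ih]

theorem pow_fix {R : Type*} [Monoid R] (a s : R) (h : a * s = s) (i : ℕ) : a ^ i * s = s := by
  induction i with
  | zero => rw [pow_zero, one_mul]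
  | succ i ih => rw [pow_succ, mul_assoc, h, ih]

theorem sum_fix (a s : Matrix (Fin n) (Fin n) K) (h : a * s = s) (M : ℕ) :
    (∑ i ∈ Finset.range M, a ^ i) * s = (M : K) • s := by
  rw [Finset.sum_mul, Finset.sum_congr rfl (fun i _ => pow_fix a s h i), Finset.sum_const,
    Finset.card_range, Nat.cast_smul_eq_nsmul]

theorem pow_fix_vec (a : Matrix (Fin n) (Fin n) K) (x : Fin n → K) (h : a *ᵥ x = x) (i : ℕ) :
    (a ^ i) *ᵥ x = x := by
  induction i with
  | zero => rw [pow_zero, Matrix.one_mulVec]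
  | succ i ih => rw [pow_succ, ← Matrix.mulVec_mulVec, h, ih]

theorem sum_fix_vec (a : Matrix (Fin n) (Fin n) K) (x : Fin n → K) (h : a *ᵥ x = x) (M : ℕ) :
    (∑ i ∈ Finset.range M, a ^ i) *ᵥ x = (M : K) • x := by
  induction M with
  | zero => rw [Finset.sum_range_zero, Matrix.zero_mulVec, Nat.cast_zero, zero_smul]
  | succ M ih =>
    rw [Finset.sum_range_succ, Matrix.add_mulVec, ih, pow_fix_vec a x h, Nat.cast_succ, add_smul,
      one_smul]

theorem u2_odd {σ : K →+* K} {ι : Matrix (Fin n) (Fin n) K → Matrix (Fin n) (Fin n) K}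
    (hι : IsIota σ ι) (h2 : (2 : K) ≠ 0) (ε : K) (hε0 : ε ≠ 0) (hε : σ ε = -ε)
    (T₂ T₂i : Matrix (Fin n) (Fin n) K) (h1 : T₂ * T₂i = 1) (hιT : ι T₂ = T₂i) (e : ℕ)
    (hT : T₂ ^ (2 ^ e) = 1) :
    ∃ u₂ : Matrix (Fin n) (Fin n) K, ι u₂ * T₂ = u₂ ∧ u₂.det ≠ 0 ∧
      ∀ Y, Commute Y T₂ → Commute Y u₂ := by
  classical
  have h1' : T₂i * T₂ = 1 := mul_eq_one_comm.1 h1
  have hc : Commute T₂ T₂i := h1.trans h1'.symm
  obtain ⟨M, hMdef⟩ : ∃ M : ℕ, M = 2 ^ (e + 1) := ⟨_, rfl⟩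
  have hMeven : Even M := by
    rw [hMdef, pow_succ]
    exact even_two.mul_left _
  have hM0 : (M : K) ≠ 0 := by
    rw [hMdef, Nat.cast_pow, Nat.cast_ofNat]
    exact pow_ne_zero _ h2
  have hTM : T₂ ^ M = 1 := by rw [hMdef, pow_succ, pow_mul, hT, one_pow]
  have hTiM : T₂i ^ M = 1 := by
    have h := hc.mul_pow M
    rw [h1, one_pow, hTM, one_mul] at h
    exact h.symm
  obtain ⟨s, hs⟩ : ∃ s : Matrix (Fin n) (Fin n) K, s = ∑ i ∈ Finset.range M, (-T₂) ^ i :=
    ⟨_, rfl⟩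
  obtain ⟨s', hs'⟩ : ∃ s' : Matrix (Fin n) (Fin n) K, s' = ∑ i ∈ Finset.range M, (-T₂i) ^ i :=
    ⟨_, rfl⟩
  have hιs : ι s = s' := by
    rw [hs, hs', hι.sum]
    apply Finset.sum_congr rfl
    intro i _
    rw [hι.pow, hι.neg, hιT]
  have e1 : (1 + T₂) * s = 0 := by
    have h := mul_neg_geom_sum (-T₂) M
    rw [sub_neg_eq_add, hMeven.neg_pow, hTM, sub_self] at h
    rw [hs]
    exact h
  have e1' : (1 + T₂i) * s' = 0 := by
    have h := mul_neg_geom_sum (-T₂i) M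
    rw [sub_neg_eq_add, hMeven.neg_pow, hTiM, sub_self] at h
    rw [hs']
    exact h
  have e2 : (-T₂) * s = s := by
    have h : s + T₂ * s = 0 := by rw [← e1, add_mul, one_mul]
    rw [neg_mul]
    exact neg_eq_of_add_eq_zero_left h
  have e2' : (-T₂i) * s' = s' := by
    have h : s' + T₂i * s' = 0 := by rw [← e1', add_mul, one_mul]
    rw [neg_mul]
    exact neg_eq_of_add_eq_zero_left h
  have e3 : (-T₂i) * s = s := by
    calc (-T₂i) * s = (-T₂i) * ((-T₂) * s) := by rw [e2]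
      _ = (T₂i * T₂) * s := by rw [neg_mul, neg_mul, mul_neg, neg_neg, mul_assoc]
      _ = s := by rw [h1', one_mul]
  have e3' : (-T₂) * s' = s' := by
    calc (-T₂) * s' = (-T₂) * ((-T₂i) * s') := by rw [e2']
      _ = (T₂ * T₂i) * s' := by rw [neg_mul, neg_mul, mul_neg, neg_neg, mul_assoc]
      _ = s' := by rw [h1, one_mul]
  have hss : s * s = (M : K) • s := by
    have h := sum_fix (-T₂) s e2 M
    rw [← hs] at h
    exact h
  have hs's : s' * s = (M : K) • s := by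
    have h := sum_fix (-T₂i) s e3 M
    rw [← hs'] at h
    exact h
  have hss' : s * s' = (M : K) • s' := by
    have h := sum_fix (-T₂) s' e3' M
    rw [← hs] at h
    exact h
  have hcomm : Commute s s' := by
    rw [hs, hs']
    apply Commute.sum_left
    intro i _
    apply Commute.sum_right
    intro j _
    exact (hc.neg_left.neg_right).pow_pow i j
  have hseq : s = s' := by
    have h : (M : K) • s = (M : K) • s' := by rw [← hs's, ← hss', hcomm.eq]
    exact smul_right_injective _ hM0 h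
  have hsT : Commute s T₂ := by
    rw [hs]
    apply Commute.sum_left
    intro i _
    exact ((Commute.refl T₂).neg_left).pow_left i
  obtain ⟨d, hd⟩ : ∃ d : Matrix (Fin n) (Fin n) K, d = (M : K)⁻¹ • s := ⟨_, rfl⟩
  have hιd : ι d = d := by
    rw [hd, hι.smul, hιs, ← hseq, map_inv₀, map_natCast]
  have hTs : T₂ * s = -s := by
    have h := e2
    rw [neg_mul] at h
    exact (neg_eq_iff_eq_neg.1 h)
  have hdT : d * T₂ = -d := by
    rw [hd, smul_mul_assoc, hsT.eq, hTs, smul_neg]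
  have hdd : d * d = d := by
    rw [hd, smul_mul_assoc, mul_smul_comm, hss, smul_smul, smul_smul, mul_assoc,
      inv_mul_cancel₀ hM0, mul_one]
  obtain ⟨u₂, hu₂⟩ : ∃ u₂ : Matrix (Fin n) (Fin n) K, u₂ = 1 + T₂ + ε • d := ⟨_, rfl⟩
  have hιu : ι u₂ = 1 + T₂i + (-ε) • d := by
    rw [hu₂, hι.add, hι.add, hι.one, hιT, hι.smul, hε, hιd]
  refine ⟨u₂, ?_, ?_, ?_⟩
  · rw [hιu, add_mul, add_mul, one_mul, h1', smul_mul_assoc, hdT, smul_neg, neg_smul, neg_neg,
      hu₂, add_comm T₂ 1]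
  · intro hdet
    obtain ⟨x, hx0, hx⟩ := Matrix.exists_mulVec_eq_zero_iff.2 hdet
    have hdu : d * u₂ = ε • d := by
      rw [hu₂, mul_add, mul_add, mul_one, hdT, mul_smul_comm, hdd, add_neg_cancel, zero_add]
    have hdx : d *ᵥ x = 0 := by
      have h : (d * u₂) *ᵥ x = 0 := by rw [← Matrix.mulVec_mulVec, hx, Matrix.mulVec_zero]
      rw [hdu, Matrix.smul_mulVec] at h
      exact (smul_eq_zero.1 h).resolve_left hε0
    have hTx : (-T₂) *ᵥ x = x := by
      have h := hx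
      rw [hu₂, Matrix.add_mulVec, Matrix.add_mulVec, Matrix.one_mulVec, Matrix.smul_mulVec, hdx,
        smul_zero, add_zero] at h
      rw [Matrix.neg_mulVec]
      exact neg_eq_of_add_eq_zero_left h
    have hsx : s *ᵥ x = (M : K) • x := by
      rw [hs]
      exact sum_fix_vec (-T₂) x hTx M
    apply hx0
    have h : d *ᵥ x = x := by
      rw [hd, Matrix.smul_mulVec, hsx, smul_smul, inv_mul_cancel₀ hM0, one_smul]
    rw [← h, hdx]
  · intro Y hY
    rw [hu₂]
    apply Commute.add_right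
    · exact (Commute.one_right Y).add_right hY
    · apply Commute.smul_right
      rw [hd]
      apply Commute.smul_right
      rw [hs]
      apply Commute.sum_right
      intro i _
      exact (hY.neg_right).pow_right i

theorem u2_even {σ : K →+* K} {ι : Matrix (Fin n) (Fin n) K → Matrix (Fin n) (Fin n) K}
    (hι : IsIota σ ι) (hσ : ∀ x, σ (σ x) = x) (h2 : (2 : K) = 0) (lam : K)
    (hlam : lam + σ lam = 1)
    (T₂ T₂i : Matrix (Fin n) (Fin n) K) (h1 : T₂ * T₂i = 1) (hιT : ι T₂ = T₂i) (e : ℕ)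
    (hT : T₂ ^ (2 ^ e) = 1) :
    ∃ u₂ : Matrix (Fin n) (Fin n) K, ι u₂ * T₂ = u₂ ∧ u₂.det ≠ 0 ∧
      ∀ Y, Commute Y T₂ → Commute Y u₂ := by
  classical
  have h1' : T₂i * T₂ = 1 := mul_eq_one_comm.1 h1
  refine ⟨lam • 1 + σ lam • T₂, ?_, ?_, ?_⟩
  · rw [hι.add, hι.smul, hι.smul, hι.one, hιT, hσ, add_mul, smul_mul_assoc, one_mul,
      smul_mul_assoc, h1', add_comm]
  · rcases Nat.eq_zero_or_pos n with hn | hn
    · subst hn
      rw [Matrix.det_isEmpty]
      exact one_ne_zero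
    · haveI : Nonempty (Fin n) := ⟨⟨0, hn⟩⟩
      haveI : CharP K 2 := CharTwo.of_one_ne_zero_of_two_eq_zero one_ne_zero h2
      haveI : Fact (Nat.Prime 2) := ⟨Nat.prime_two⟩
      haveI : CharP (Matrix (Fin n) (Fin n) K) 2 := inferInstance
      have hu : lam • (1 : Matrix (Fin n) (Fin n) K) + σ lam • T₂ = 1 + σ lam • (T₂ - 1) := by
        calc lam • (1 : Matrix (Fin n) (Fin n) K) + σ lam • T₂
            = (1 - σ lam) • (1 : Matrix (Fin n) (Fin n) K) + σ lam • T₂ := by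
              rw [← eq_sub_of_add_eq hlam]
          _ = 1 + σ lam • (T₂ - 1) := by
              rw [sub_smul, one_smul, smul_sub]
              abel
      have hN : (T₂ - 1) ^ (2 ^ e) = 0 := by
        rw [sub_pow_char_pow_of_commute 2 e (Commute.one_right T₂), hT, one_pow, sub_self]
      have hpow : (1 + σ lam • (T₂ - 1)) ^ (2 ^ e) = 1 := by
        rw [add_pow_char_pow_of_commute 2 e (Commute.one_left _), one_pow, _root_.smul_pow, hN,
          smul_zero, add_zero]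
      intro hdet
      have h := congrArg Matrix.det hpow
      rw [Matrix.det_pow, ← hu, hdet, Matrix.det_one, zero_pow (by positivity)] at h
      exact zero_ne_one h
  · intro Y hY
    exact ((Commute.one_right Y).smul_right lam).add_right (hY.smul_right _)

theorem exists_u2 [Finite K] (σ : K →+* K) (hσ : ∀ x, σ (σ x) = x) (hne : σ ≠ RingHom.id K)
    {ι : Matrix (Fin n) (Fin n) K → Matrix (Fin n) (Fin n) K} (hι : IsIota σ ι)
    (T₂ T₂i : Matrix (Fin n) (Fin n) K) (h1 : T₂ * T₂i = 1) (hιT : ι T₂ = T₂i) (e : ℕ)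
    (hT : T₂ ^ (2 ^ e) = 1) :
    ∃ u₂ : Matrix (Fin n) (Fin n) K, ι u₂ * T₂ = u₂ ∧ u₂.det ≠ 0 ∧
      ∀ Y, Commute Y T₂ → Commute Y u₂ := by
  obtain ⟨z, hz⟩ : ∃ z, σ z ≠ z := by
    by_contra hcon
    push Not at hcon
    exact hne (RingHom.ext fun x => hcon x)
  by_cases h2 : (2 : K) = 0
  · have hadd : ∀ x : K, x + x = 0 := fun x => by linear_combination x * h2
    have hτ : z + σ z ≠ 0 := by
      intro h
      apply hz
      linear_combination h - hadd z
    have hστ : σ (z + σ z) = z + σ z := by rw [map_add, hσ, add_comm]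
    have hω1 : z / (z + σ z) + σ (z / (z + σ z)) = 1 := by
      rw [map_div₀, hστ, ← add_div, div_self hτ]
    exact u2_even hι hσ h2 _ hω1 T₂ T₂i h1 hιT e hT
  · have hω0 : z - σ z ≠ 0 := fun h => hz (sub_eq_zero.1 h).symm
    have hσω : σ (z - σ z) = -(z - σ z) := by rw [map_sub, hσ]; ring
    exact u2_odd hι h2 _ hω0 hσω T₂ T₂i h1 hιT e hT

theorem exists_herm [Finite K] (σ : K →+* K) (hσ : ∀ x, σ (σ x) = x) (hne : σ ≠ RingHom.id K)
    (A Ai Q Qi : Matrix (Fin n) (Fin n) K) (hA1 : A * Ai = 1) (hQ1 : Q * Qi = 1)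
    (hAQ : dag σ A * Q * A = Q) :
    ∃ G : Matrix (Fin n) (Fin n) K, G.det ≠ 0 ∧ dag σ G = G ∧ dag σ A * G * A = G := by
  classical
  have hQ2 : Qi * Q = 1 := mul_eq_one_comm.1 hQ1
  obtain ⟨Qd, hQd⟩ : ∃ Qd : Matrix (Fin n) (Fin n) K, Qd = dag σ Q := ⟨_, rfl⟩
  obtain ⟨Qid, hQid⟩ : ∃ Qid : Matrix (Fin n) (Fin n) K, Qid = dag σ Qi := ⟨_, rfl⟩
  have hd1 : Qd * Qid = 1 := by rw [hQd, hQid, ← dag_mul, hQ2, dag_one]
  have hQdd : dag σ Qd = Q := by rw [hQd, dag_dag σ hσ]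
  have hQidd : dag σ Qid = Qi := by rw [hQid, dag_dag σ hσ]
  obtain ⟨T, hT⟩ : ∃ T : Matrix (Fin n) (Fin n) K, T = Qi * Qd := ⟨_, rfl⟩
  obtain ⟨Ti, hTi⟩ : ∃ Ti : Matrix (Fin n) (Fin n) K, Ti = Qid * Q := ⟨_, rfl⟩
  have hT1 : T * Ti = 1 := by
    rw [hT, hTi, mul_assoc, ← mul_assoc Qd, hd1, one_mul, hQ2]
  have hT2 : Ti * T = 1 := mul_eq_one_comm.1 hT1
  have hcTTi : Commute T Ti := hT1.trans hT2.symm
  -- commutation with A
  have hAd1 : dag σ Ai * dag σ A = 1 := by rw [← dag_mul, hA1, dag_one]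
  have e1 : Q * A = dag σ Ai * Q := by
    calc Q * A = dag σ Ai * (dag σ A * Q * A) := by
          rw [mul_assoc (dag σ A), ← mul_assoc (dag σ Ai), hAd1, one_mul]
      _ = dag σ Ai * Q := by rw [hAQ]
  have hAQd : dag σ A * Qd * A = Qd := by
    have h := congrArg (dag σ) hAQ
    rw [dag_mul, dag_mul, dag_dag σ hσ, ← hQd, ← mul_assoc] at h
    exact h
  have e2 : Qd * A = dag σ Ai * Qd := by
    calc Qd * A = dag σ Ai * (dag σ A * Qd * A) := by
          rw [mul_assoc (dag σ A), ← mul_assoc (dag σ Ai), hAd1, one_mul]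
      _ = dag σ Ai * Qd := by rw [hAQd]
  have e3 : A * Qi = Qi * dag σ Ai := by
    calc A * Qi = Qi * (Q * A) * Qi := by rw [← mul_assoc, hQ2, one_mul]
      _ = Qi * (dag σ Ai * Q) * Qi := by rw [e1]
      _ = Qi * dag σ Ai := by rw [mul_assoc, mul_assoc, hQ1, mul_one]
  have hAT : Commute A T := by
    show A * T = T * A
    rw [hT]
    calc A * (Qi * Qd) = (A * Qi) * Qd := by rw [mul_assoc]
      _ = Qi * (dag σ Ai * Qd) := by rw [e3, mul_assoc]
      _ = Qi * Qd * A := by rw [← e2, mul_assoc]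
  have hATi : Commute A Ti := by
    show A * Ti = Ti * A
    calc A * Ti = Ti * (T * A) * Ti := by rw [← mul_assoc, hT2, one_mul]
      _ = Ti * (A * T) * Ti := by rw [hAT.eq]
      _ = Ti * A := by rw [mul_assoc, mul_assoc, hT1, mul_one]
  -- the twisted involution
  obtain ⟨ι, hιdef⟩ : ∃ ι : Matrix (Fin n) (Fin n) K → Matrix (Fin n) (Fin n) K,
      ∀ X, ι X = Qi * dag σ X * Q := ⟨fun X => Qi * dag σ X * Q, fun _ => rfl⟩
  have hι : IsIota σ ι := by
    refine ⟨?_, ?_, ?_, ?_⟩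
    · intro X Y
      rw [hιdef, hιdef, hιdef, dag_add, mul_add, add_mul]
    · intro c X
      rw [hιdef, hιdef, dag_smul, mul_smul_comm, smul_mul_assoc]
    · rw [hιdef, dag_one, mul_one, hQ2]
    · intro X Y
      rw [hιdef, hιdef, hιdef, dag_mul]
      calc Qi * (dag σ Y * dag σ X) * Q = Qi * dag σ Y * 1 * dag σ X * Q := by
            rw [mul_one]; simp only [mul_assoc]
        _ = Qi * dag σ Y * Q * (Qi * dag σ X * Q) := by rw [← hQ1]; simp only [mul_assoc]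
  have hιT : ι T = Ti := by
    rw [hιdef, hT, dag_mul, hQdd, ← hQid, hTi, ← mul_assoc, hQ2, one_mul]
  have hιTi : ι Ti = T := by
    rw [hιdef, hTi, dag_mul, hQidd, ← hQd, hT, mul_assoc, mul_assoc, hQ2, mul_one]
  have hherm : ∀ u, ι u * T = u → dag σ (Q * u) = Q * u := by
    intro u hu
    rw [dag_mul, ← hQd]
    have h : Q * (ι u * T) = dag σ u * Qd := by
      rw [hιdef, hT]
      calc Q * (Qi * dag σ u * Q * (Qi * Qd)) = (Q * Qi) * dag σ u * (Q * Qi) * Qd := by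
            simp only [mul_assoc]
        _ = dag σ u * Qd := by rw [hQ1, one_mul, mul_one]
    rw [← h, hu]
  -- the order of T
  let Tg : GL (Fin n) K := ⟨T, Ti, hT1, hT2⟩
  have ho : 0 < orderOf Tg := orderOf_pos Tg
  have hTo : T ^ orderOf Tg = 1 := by
    have h1 := pow_orderOf_eq_one Tg
    have h2 : ((Tg ^ orderOf Tg : GL (Fin n) K) : Matrix (Fin n) (Fin n) K) = 1 := by
      rw [h1]
      rfl
    rw [Units.val_pow_eq_pow_val] at h2
    exact h2
  obtain ⟨e, o', ho', hoe⟩ := Nat.exists_eq_two_pow_mul_odd ho.ne'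
  obtain ⟨k, hk⟩ := ho'
  have h21 : T ^ o' * Ti ^ o' = 1 := by rw [← hcTTi.mul_pow, hT1, one_pow]
  have hιT2 : ι (T ^ o') = Ti ^ o' := by rw [hι.pow, hιT]
  have hT2M : (T ^ o') ^ (2 ^ e) = 1 := by rw [← pow_mul, mul_comm, ← hoe, hTo]
  obtain ⟨u₂, hu1, hu2, hu3⟩ := exists_u2 σ hσ hne hι (T ^ o') (Ti ^ o') h21 hιT2 e hT2M
  have hTiu : Commute Ti u₂ := hu3 Ti (hcTTi.symm.pow_right o')
  have hAu : Commute A u₂ := hu3 A (hAT.pow_right o')
  obtain ⟨u, hu⟩ : ∃ u : Matrix (Fin n) (Fin n) K, u = u₂ * Ti ^ k := ⟨_, rfl⟩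
  have hιu : ι u * T = u := by
    rw [hu, hι.mul, hι.pow, hιTi]
    have hc : Commute T (ι u₂) := by
      have h := hι.mul Ti u₂
      have h' := hι.mul u₂ Ti
      rw [hTiu.eq] at h
      rw [h, hιTi] at h'
      exact h'.symm
    have hpow : T ^ k * T = T ^ o' * Ti ^ k := by
      rw [hk, show 2 * k + 1 = (k + 1) + k by ring, pow_add, mul_assoc, ← hcTTi.mul_pow, hT1,
        one_pow, mul_one, pow_succ]
    calc T ^ k * ι u₂ * T = ι u₂ * (T ^ k * T) := by rw [(hc.pow_left k).eq, mul_assoc]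
      _ = ι u₂ * (T ^ o' * Ti ^ k) := by rw [hpow]
      _ = (ι u₂ * T ^ o') * Ti ^ k := by rw [mul_assoc]
      _ = u₂ * Ti ^ k := by rw [hu1]
  have hAu' : Commute A u := by
    rw [hu]
    exact hAu.mul_right (hATi.pow_right k)
  refine ⟨Q * u, ?_, hherm u hιu, ?_⟩
  · rw [Matrix.det_mul, hu, Matrix.det_mul, Matrix.det_pow]
    have hQdet : Q.det ≠ 0 := by
      intro h
      have h' := congrArg Matrix.det hQ1
      rw [Matrix.det_mul, h, zero_mul, Matrix.det_one] at h'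
      exact zero_ne_one h'
    have hTidet : Ti.det ≠ 0 := by
      intro h
      have h' := congrArg Matrix.det hT2
      rw [Matrix.det_mul, h, zero_mul, Matrix.det_one] at h'
      exact zero_ne_one h'
    exact mul_ne_zero hQdet (mul_ne_zero hu2 (pow_ne_zero _ hTidet))
  · calc dag σ A * (Q * u) * A = dag σ A * Q * (u * A) := by simp only [mul_assoc]
      _ = dag σ A * Q * (A * u) := by rw [hAu'.eq]
      _ = (dag σ A * Q * A) * u := by simp only [mul_assoc]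
      _ = Q * u := by rw [hAQ]

/-- If `A† Q A = Q` for an invertible `Q`, then `A` is conjugate to an element of `GU_n(q)`. -/
theorem conj_into_gu [Fintype K] {q : ℕ} (hK : Fintype.card K = q ^ 2) (A : GL (Fin n) K)
    (Q Qi : Matrix (Fin n) (Fin n) K) (hQ1 : Q * Qi = 1)
    (hAQ : dag (S0284.frob hK) (A : Matrix (Fin n) (Fin n) K) * Q
      * (A : Matrix (Fin n) (Fin n) K) = Q) :
    ∃ B : GL (Fin n) K, B ∈ Cfsg.GU n K q ∧ IsConj A B := by
  classical
  have hσ : ∀ x, S0284.frob hK (S0284.frob hK x) = x := S0284.frob_invol hK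
  have hne : S0284.frob hK ≠ RingHom.id K := S0284.frob_ne hK
  have hA1 : (A : Matrix (Fin n) (Fin n) K) * ((A⁻¹ : GL (Fin n) K) : Matrix (Fin n) (Fin n) K)
      = 1 := by rw [← Units.val_mul, mul_inv_cancel, Units.val_one]
  obtain ⟨G, hGdet, hGd, hGA⟩ := exists_herm (S0284.frob hK) hσ hne _ _ Q Qi hA1 hQ1 hAQ
  have hG1 : G * G⁻¹ = 1 := Matrix.mul_nonsing_inv G (isUnit_iff_ne_zero.2 hGdet)
  obtain ⟨S, Si, hS1, hS2, hSS⟩ := herm_sqrt (S0284.frob hK) hσ hne G G⁻¹ hG1 hGd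
  let Sg : GL (Fin n) K := ⟨S, Si, hS1, hS2⟩
  refine ⟨Sg * A * Sg⁻¹, ?_, isConj_iff.2 ⟨Sg, rfl⟩⟩
  rw [S0277.mem_GU]
  apply GU_of_dag hK
  obtain ⟨Am, hAm⟩ : ∃ Am : Matrix (Fin n) (Fin n) K, Am = (A : Matrix (Fin n) (Fin n) K) :=
    ⟨_, rfl⟩
  rw [← hAm] at hGA
  have hval : ((Sg * A * Sg⁻¹ : GL (Fin n) K) : Matrix (Fin n) (Fin n) K) = S * Am * Si := by
    rw [Units.val_mul, Units.val_mul, hAm]
    rfl
  rw [hval]
  calc dag (S0284.frob hK) (S * Am * Si) * (S * Am * Si)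
      = dag (S0284.frob hK) Si * (dag (S0284.frob hK) Am * (dag (S0284.frob hK) S * S) * Am)
          * Si := by
        rw [dag_mul, dag_mul]; simp only [mul_assoc]
    _ = dag (S0284.frob hK) Si * G * Si := by rw [hSS, hGA]
    _ = dag (S0284.frob hK) Si * (dag (S0284.frob hK) S * S) * Si := by rw [hSS]
    _ = dag (S0284.frob hK) (S * Si) * (S * Si) := by rw [dag_mul]; simp only [mul_assoc]
    _ = 1 := by rw [hS1, dag_one, one_mul]

end Cfsg.Agent.Helper8.GUC
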