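import Mathlib
import Cfsg.Agent.S0573
import Cfsg.Agent.Helper8.Nilp
import Cfsg.Agent.Helper8.Nilp2
import Cfsg.Agent.Helper8.Schmidt3

/-!
# Groups with an abelian maximal subgroup (Herstein) (helper8)

* `ti_case` : a finite group with an abelian maximal subgroup `A` such that `A ∩ A^x = 1` for
  `x ∉ A` is metabelian.
* auxiliary: `exists_minimal_normal`, `surj_of_fpf`, `fpf_inj`, `ne_one_centralized'`,
  `exists_mul_of_normalizes`, `derived_two_of_normal_abelian`.
-/

set_option autoImplicit false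
open scoped commutatorElement

namespace Cfsg.Agent.Helper8

theorem derived_two_of_normal_abelian {G : Type*} [Group G] (N : Subgroup G)
    (hab : ∀ x ∈ N, ∀ y ∈ N, x * y = y * x) (hq : ∀ g₁ g₂ : G, g₁ * g₂ * g₁⁻¹ * g₂⁻¹ ∈ N) :
    derivedSeries G 2 = ⊥ := by
  have h1 : commutator G ≤ N := by
    rw [commutator_def, Subgroup.commutator_le]
    intro g₁ _ g₂ _
    exact hq g₁ g₂
  show ⁅commutator G, commutator G⁆ = ⊥
  rw [Subgroup.commutator_eq_bot_iff_le_centralizer]
  intro x hx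
  rw [Subgroup.mem_centralizer_iff]
  intro y hy
  exact hab y (h1 hy) x (h1 hx)

theorem exists_minimal_normal (G : Type*) [Group G] [Finite G] [Nontrivial G] :
    ∃ N : Subgroup G, N.Normal ∧ N ≠ ⊥ ∧
      ∀ N' : Subgroup G, N'.Normal → N' ≤ N → N' = ⊥ ∨ N' = N := by
  classical
  have hex : ∃ n : ℕ, ∃ N : Subgroup G, N.Normal ∧ N ≠ ⊥ ∧ Nat.card N = n :=
    ⟨_, ⊤, inferInstance, top_ne_bot, rfl⟩
  obtain ⟨N, hNn, hNne, hNcard⟩ := Nat.find_spec hex
  refine ⟨N, hNn, hNne, ?_⟩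
  intro N' hN'n hle
  by_cases hN' : N' = ⊥
  · exact Or.inl hN'
  · right
    have h1 : Nat.find hex ≤ Nat.card N' := Nat.find_min' hex ⟨N', hN'n, hN', rfl⟩
    rw [← hNcard] at h1
    exact Subgroup.eq_of_le_of_card_ge hle h1

theorem fpf_inj {G : Type*} [Group G] (N : Subgroup G) (a : G)
    (hfix : ∀ l ∈ N, a * l = l * a → l = 1) (l : G) (hl : l ∈ N) (l' : G) (hl' : l' ∈ N)
    (h : l⁻¹ * a * l * a⁻¹ = l'⁻¹ * a * l' * a⁻¹) : l = l' := by
  have hu : a * (l' * l⁻¹) = (l' * l⁻¹) * a := by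
    calc a * (l' * l⁻¹) = l' * (l'⁻¹ * a * l' * a⁻¹) * a * l⁻¹ := by group
      _ = l' * (l⁻¹ * a * l * a⁻¹) * a * l⁻¹ := by rw [h]
      _ = (l' * l⁻¹) * a := by group
  have h1 := hfix _ (N.mul_mem hl' (N.inv_mem hl)) hu
  exact (mul_inv_eq_one.mp h1).symm

theorem surj_of_fpf {G : Type*} [Group G] [Finite G] (L : Subgroup G) (a : G)
    (hfix : ∀ l ∈ L, a * l = l * a → l = 1) (hinv : ∀ l ∈ L, a * l * a⁻¹ ∈ L) :
    ∀ w ∈ L, ∃ l ∈ L, l⁻¹ * a * l * a⁻¹ = w := by
  intro w hw
  have hmem : ∀ l : ↥L, (l : G)⁻¹ * a * (l : G) * a⁻¹ ∈ L := by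
    intro l
    have h1 := L.mul_mem (L.inv_mem l.2) (hinv l l.2)
    simpa [mul_assoc] using h1
  have hinj : Function.Injective
      (fun l : ↥L => (⟨(l : G)⁻¹ * a * (l : G) * a⁻¹, hmem l⟩ : ↥L)) := by
    intro l l' h
    have h' : (l : G)⁻¹ * a * (l : G) * a⁻¹ = (l' : G)⁻¹ * a * (l' : G) * a⁻¹ :=
      congrArg Subtype.val h
    exact Subtype.ext (fpf_inj L a hfix l l.2 l' l'.2 h')
  obtain ⟨l, hl⟩ := (Finite.injective_iff_surjective.mp hinj) ⟨w, hw⟩
  exact ⟨l, l.2, congrArg Subtype.val hl⟩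

/-- A `p`-group normalizing a subgroup of order divisible by `p` centralizes a nontrivial element
of it. -/
theorem ne_one_centralized' {G : Type*} [Group G] [Finite G] {p : ℕ} [Fact p.Prime]
    {P W : Subgroup G} (hP : IsPGroup p P) (hdvd : p ∣ Nat.card W)
    (hPW : ∀ g ∈ P, ∀ w ∈ W, g * w * g⁻¹ ∈ W) :
    ∃ w ∈ W, w ≠ 1 ∧ ∀ g ∈ P, g * w = w * g := by
  let _ : MulAction P W :=
    { smul := fun c w => ⟨(c : G) * (w : G) * (c : G)⁻¹, hPW c c.2 w w.2⟩
      one_smul := by
        intro w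
        apply Subtype.ext
        show ((1 : P) : G) * (w : G) * ((1 : P) : G)⁻¹ = w
        simp
      mul_smul := by
        intro c d w
        apply Subtype.ext
        show ((c * d : P) : G) * (w : G) * ((c * d : P) : G)⁻¹ =
          (c : G) * ((d : G) * (w : G) * (d : G)⁻¹) * (c : G)⁻¹
        simp only [Subgroup.coe_mul]
        group }
  have hfix1 : (1 : W) ∈ MulAction.fixedPoints P W := by
    intro c
    apply Subtype.ext
    show (c : G) * ((1 : W) : G) * (c : G)⁻¹ = ((1 : W) : G)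
    simp
  obtain ⟨w, hw, hw1⟩ := hP.exists_fixed_point_of_prime_dvd_card_of_fixed_point W hdvd hfix1
  refine ⟨w, w.2, ?_, ?_⟩
  · intro h
    exact hw1 (Subtype.ext h.symm)
  · intro g hg
    have h1 : (⟨g, hg⟩ : P) • w = w := hw ⟨g, hg⟩
    have h2 : g * (w : G) * g⁻¹ = w := congrArg Subtype.val h1
    calc g * (w : G) = g * (w : G) * g⁻¹ * g := by group
      _ = w * g := by rw [h2]

theorem exists_mul_of_normalizes {G : Type*} [Group G] (Q A : Subgroup G)
    (h : A ≤ Subgroup.normalizer (Q : Set G)) {w : G} (hw : w ∈ Q ⊔ A) :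
    ∃ y ∈ Q, ∃ b ∈ A, w = y * b := by
  let T : Subgroup G :=
    { carrier := {w | ∃ y ∈ Q, ∃ b ∈ A, w = y * b}
      one_mem' := ⟨1, Q.one_mem, 1, A.one_mem, (one_mul 1).symm⟩
      mul_mem' := by
        rintro _ _ ⟨y, hy, b, hb, rfl⟩ ⟨y', hy', b', hb', rfl⟩
        exact ⟨y * (b * y' * b⁻¹),
          Q.mul_mem hy ((Subgroup.mem_normalizer_iff.mp (h hb) y').mp hy'),
          b * b', A.mul_mem hb hb', by group⟩
      inv_mem' := by
        rintro _ ⟨y, hy, b, hb, rfl⟩
        exact ⟨b⁻¹ * y⁻¹ * b⁻¹⁻¹,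
          (Subgroup.mem_normalizer_iff.mp (h (A.inv_mem hb)) y⁻¹).mp (Q.inv_mem hy),
          b⁻¹, A.inv_mem hb, by group⟩ }
  have hle : Q ⊔ A ≤ T :=
    sup_le (fun y hy => ⟨y, hy, 1, A.one_mem, (mul_one y).symm⟩)
      (fun b hb => ⟨1, Q.one_mem, b, hb, (one_mul b).symm⟩)
  exact hle hw

/-- A finite group with an abelian maximal subgroup `A` which is a TI-subgroup (`A ∩ A^x = 1` for
`x ∉ A`) is metabelian. -/
theorem ti_case {G : Type*} [Group G] [Finite G] (A : Subgroup G) (hA : IsCoatom A)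
    (hab : ∀ x ∈ A, ∀ y ∈ A, x * y = y * x)
    (hTI : ∀ x : G, x ∉ A → ∀ a ∈ A, x * a * x⁻¹ ∈ A → a = 1) : derivedSeries G 2 = ⊥ := by
  classical
  by_cases hAbot : A = ⊥
  · apply derived_two_of_normal_abelian ⊥
      (fun x hx y hy => by rw [Subgroup.mem_bot.mp hx, Subgroup.mem_bot.mp hy])
    have hcomm : ∀ a b : G, a * b = b * a := by
      by_cases hex : ∃ g : G, g ≠ 1
      · obtain ⟨g, hg⟩ := hex
        have hz : Subgroup.zpowers g = ⊤ := by
          apply hA.2
          rw [hAbot]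
          exact bot_lt_iff_ne_bot.mpr (fun h => hg (Subgroup.zpowers_eq_bot.mp h))
        exact comm_of_zpowers_eq_top hz
      · push Not at hex
        intro a b; rw [hex a, hex b]
    intro g₁ g₂
    rw [Subgroup.mem_bot, hcomm g₁ g₂]; group
  obtain ⟨x₀, hx₀⟩ : ∃ x : G, x ∉ A := by
    by_contra hcon
    push Not at hcon
    exact hA.1 (eq_top_iff.mpr (fun g _ => hcon g))
  haveI : Nontrivial G := ⟨⟨x₀, 1, fun h => hx₀ (h ▸ A.one_mem)⟩⟩
  obtain ⟨N, hNn, hNne, hNmin⟩ := exists_minimal_normal G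
  have hNA : ¬ N ≤ A := by
    intro hle
    apply hNne
    rw [Subgroup.eq_bot_iff_forall]
    intro n hn
    exact hTI x₀ hx₀ n (hle hn) (hle (hNn.conj_mem n hn x₀))
  have hAN : A ⊔ N = ⊤ := hA.2 _ (lt_of_le_of_ne le_sup_left (fun h => hNA (by
    have h2 : N ≤ A ⊔ N := le_sup_right
    rw [← h] at h2; exact h2)))
  have hq : ∀ g₁ g₂ : G, g₁ * g₂ * g₁⁻¹ * g₂⁻¹ ∈ N := by
    intro g₁ g₂
    have h1 : g₁ ∈ A ⊔ N := hAN ▸ Subgroup.mem_top g₁
    have h2 : g₂ ∈ A ⊔ N := hAN ▸ Subgroup.mem_top g₂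
    obtain ⟨a₁, ha₁, n₁, hn₁, rfl⟩ := Subgroup.mem_sup_of_normal_right.mp h1
    obtain ⟨a₂, ha₂, n₂, hn₂, rfl⟩ := Subgroup.mem_sup_of_normal_right.mp h2
    refine (QuotientGroup.eq_one_iff (N := N) _).mp ?_
    have e1 : ((n₁ : G) : G ⧸ N) = 1 := (QuotientGroup.eq_one_iff n₁).mpr hn₁
    have e2 : ((n₂ : G) : G ⧸ N) = 1 := (QuotientGroup.eq_one_iff n₂).mpr hn₂
    have e3 : a₁ * a₂ = a₂ * a₁ := hab a₁ ha₁ a₂ ha₂
    have e4 : ((a₁ * a₂ : G) : G ⧸ N) = ((a₂ * a₁ : G) : G ⧸ N) := by rw [e3]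
    simp only [QuotientGroup.mk_mul, QuotientGroup.mk_inv, e1, e2, mul_one] at e4 ⊢
    rw [e4]; group
  have hcomN : commutator ↥N ≠ ⊤ := by
    by_cases hAN0 : A ⊓ N = ⊥
    · -- fixed-point-free action of `A` on `N`
      have hdisj : ∀ g ∈ A, g ∈ N → g = 1 := by
        intro g h1 h2
        have h3 : g ∈ A ⊓ N := Subgroup.mem_inf.mpr ⟨h1, h2⟩
        rw [hAN0, Subgroup.mem_bot] at h3; exact h3
      have hfpf : ∀ a ∈ A, a ≠ 1 → ∀ n ∈ N, a * n = n * a → n = 1 := by
        intro a ha ha1 n hn hcomm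
        by_contra hn1
        have hnA : n ∉ A := fun h => hn1 (hdisj n h hn)
        apply ha1
        apply hTI n hnA a ha
        rw [← hcomm, mul_inv_cancel_right]; exact ha
      obtain ⟨a, ha, ha1⟩ : ∃ a ∈ A, a ≠ 1 := by
        by_contra hcon
        push Not at hcon
        exact hAbot ((Subgroup.eq_bot_iff_forall A).mpr hcon)
      have hcardN : Nat.card N ≠ 1 := fun h1 => hNne (Subgroup.card_eq_one.mp h1)
      obtain ⟨q, hq', hqd⟩ := Nat.exists_prime_and_dvd hcardN
      haveI : Fact q.Prime := ⟨hq'⟩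
      have hqA : ¬ q ∣ Nat.card A := by
        intro hdvd
        obtain ⟨b, hb⟩ := exists_prime_orderOf_dvd_card' q hdvd
        have hbo : orderOf (b : G) = q := by rw [Subgroup.orderOf_coe]; exact hb
        have hb1 : (b : G) ≠ 1 := by
          intro h; rw [h, orderOf_one] at hbo; exact hq'.one_lt.ne hbo
        have hpg : IsPGroup q (Subgroup.zpowers (b : G)) := by
          apply IsPGroup.of_card (n := 1)
          rw [Nat.card_zpowers, hbo, pow_one]
        obtain ⟨w, hwN, hw1, hwc⟩ :=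
          ne_one_centralized' hpg hqd (fun g _ w hw => hNn.conj_mem w hw g)
        exact hw1 (hfpf (b : G) b.2 hb1 w hwN (hwc (b : G) (Subgroup.mem_zpowers _)))
      have hidx : ¬ q ∣ N.index := by
        intro hdvd
        apply hqA
        refine dvd_trans hdvd (Cfsg.Agent.S0573.index_dvd_card_of_factor N A ?_)
        intro g
        have hg : g ∈ A ⊔ N := hAN ▸ Subgroup.mem_top g
        obtain ⟨a', ha', n, hn, rfl⟩ := Subgroup.mem_sup_of_normal_right.mp hg
        exact ⟨a', ha', n, hn, rfl⟩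
      have hSylN : ∀ Q : Sylow q G, (Q : Subgroup G) ≤ N := by
        intro Q y hy
        obtain ⟨k, hk⟩ := pelem_of_mem Q.isPGroup' hy
        apply mem_of_mem_normalizer_of_coprime N y
        · rw [Subgroup.normalizer_eq_top_iff.mpr hNn]; exact Subgroup.mem_top y
        · exact Nat.Coprime.coprime_dvd_left (orderOf_dvd_of_pow_eq_one hk)
            (Nat.Coprime.pow_left k ((Nat.Prime.coprime_iff_not_dvd hq').mpr hidx))
      have hS2 : ∀ (Q : Sylow q G) (g : G), ∃ n ∈ N, g • Q = n • Q := by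
        intro Q g
        have h1 := Sylow.normalizer_sup_eq_top' Q (hSylN Q)
        have hg : g ∈ (⊤ : Subgroup G) := Subgroup.mem_top g
        rw [← h1, sup_comm] at hg
        obtain ⟨n, hn, c, hc, rfl⟩ := Subgroup.mem_sup_of_normal_left.mp hg
        refine ⟨n, hn, ?_⟩
        rw [mul_smul, Sylow.smul_eq_iff_mem_normalizer.mpr hc]
      have hinvN : ∀ l ∈ N, a * l * a⁻¹ ∈ N := fun l hl => hNn.conj_mem l hl a
      obtain ⟨Q⟩ : Nonempty (Sylow q G) := inferInstance
      obtain ⟨n, hn, hnQ⟩ := hS2 Q a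
      obtain ⟨y, hy, hyn⟩ := surj_of_fpf N a (hfpf a ha ha1) hinvN n⁻¹ (N.inv_mem hn)
      obtain ⟨Q₁, hQ₁⟩ : ∃ Q₁ : Sylow q G, Q₁ = y • Q := ⟨_, rfl⟩
      have haQ₁ : a • Q₁ = Q₁ := by
        rw [hQ₁]
        have e : a * y = y * (y⁻¹ * a * y * a⁻¹) * a := by group
        rw [← mul_smul, e, hyn, mul_smul, hnQ, mul_smul, inv_smul_smul]
      have hainv : a⁻¹ • Q₁ = Q₁ := by rw [inv_smul_eq_iff]; exact haQ₁.symm
      obtain ⟨L, hLdef⟩ : ∃ L : Subgroup G, L = N ⊓ MulAction.stabilizer G Q₁ := ⟨_, rfl⟩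
      have hLN : L ≤ N := by rw [hLdef]; exact inf_le_left
      have hLstab : ∀ l ∈ L, l • Q₁ = Q₁ := by
        intro l hl
        rw [hLdef] at hl
        exact MulAction.mem_stabilizer_iff.mp (Subgroup.mem_inf.mp hl).2
      have hinvL : ∀ l ∈ L, a * l * a⁻¹ ∈ L := by
        intro l hl
        rw [hLdef]
        refine Subgroup.mem_inf.mpr ⟨hinvN l (hLN hl), ?_⟩
        rw [MulAction.mem_stabilizer_iff, mul_smul, mul_smul, hainv, hLstab l hl, haQ₁]
      have hAQ₁ : ∀ b ∈ A, b • Q₁ = Q₁ := by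
        intro b hb
        obtain ⟨x, hx, hxQ⟩ := hS2 Q₁ b
        have h1 : a • x • Q₁ = x • Q₁ := by
          rw [← hxQ, ← mul_smul, hab a ha b hb, mul_smul, haQ₁]
        have hw : x⁻¹ * a * x * a⁻¹ ∈ L := by
          rw [hLdef]
          refine Subgroup.mem_inf.mpr ⟨?_, ?_⟩
          · have h2 := N.mul_mem (N.inv_mem hx) (hinvN x hx)
            simpa [mul_assoc] using h2
          · rw [MulAction.mem_stabilizer_iff, mul_smul, mul_smul, mul_smul, hainv, h1,
              inv_smul_smul]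
        obtain ⟨l, hl, hlw⟩ :=
          surj_of_fpf L a (fun l hl => hfpf a ha ha1 l (hLN hl)) hinvL _ hw
        have hxl : x = l := (fpf_inj N a (hfpf a ha ha1) l (hLN hl) x hx hlw).symm
        rw [hxQ, hxl]; exact hLstab l hl
      have hAnorm : A ≤ Subgroup.normalizer ((Q₁ : Subgroup G) : Set G) :=
        fun b hb => Sylow.smul_eq_iff_mem_normalizer.mp (hAQ₁ b hb)
      have hQ₁N := hSylN Q₁
      have hQ₁ne : (Q₁ : Subgroup G) ≠ ⊥ :=
        Q₁.ne_bot_of_dvd_card (dvd_trans hqd (Subgroup.card_subgroup_dvd_card N))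
      have hQA : ¬ (Q₁ : Subgroup G) ≤ A := by
        intro hle
        apply hQ₁ne
        rw [Subgroup.eq_bot_iff_forall]
        intro y hy
        exact hdisj y (hle hy) (hQ₁N hy)
      have hsup : (Q₁ : Subgroup G) ⊔ A = ⊤ := by
        rw [sup_comm]
        exact hA.2 _ (lt_of_le_of_ne le_sup_left (fun h => hQA (by
          have h2 : (Q₁ : Subgroup G) ≤ A ⊔ (Q₁ : Subgroup G) := le_sup_right
          rw [← h] at h2; exact h2)))
      have hNQ : ∀ n ∈ N, n ∈ (Q₁ : Subgroup G) := by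
        intro n hn
        have hn' : n ∈ (Q₁ : Subgroup G) ⊔ A := hsup ▸ Subgroup.mem_top n
        obtain ⟨y, hy, b, hb, hyb⟩ := exists_mul_of_normalizes _ _ hAnorm hn'
        have hb1 : b = 1 := by
          apply hdisj b hb
          have e : b = y⁻¹ * n := by rw [hyb]; group
          rw [e]; exact N.mul_mem (N.inv_mem (hQ₁N hy)) hn
        rw [hyb, hb1, mul_one]; exact hy
      have hNp : IsPGroup q ↥N := by
        intro x
        obtain ⟨k, hk⟩ := pelem_of_mem Q₁.isPGroup' (hNQ x x.2)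
        exact ⟨k, Subtype.ext (by simpa using hk)⟩
      haveI : Group.IsNilpotent ↥N := hNp.isNilpotent
      haveI : Nontrivial ↥N := (Subgroup.nontrivial_iff_ne_bot N).mpr hNne
      exact (Group.IsSolvable.commutator_lt_top_of_nontrivial ↥N).ne
    · -- Burnside transfer inside `N`
      obtain ⟨a₀, ha₀, ha₀1⟩ : ∃ a₀ ∈ A ⊓ N, a₀ ≠ 1 := by
        by_contra hcon
        push Not at hcon
        exact hAN0 ((Subgroup.eq_bot_iff_forall _).mpr hcon)
      have ha₀A := (Subgroup.mem_inf.mp ha₀).1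
      have ha₀N := (Subgroup.mem_inf.mp ha₀).2
      have hord : orderOf a₀ ≠ 1 := fun h => ha₀1 (orderOf_eq_one_iff.mp h)
      obtain ⟨p, hp, hpd⟩ := Nat.exists_prime_and_dvd hord
      haveI : Fact p.Prime := ⟨hp⟩
      obtain ⟨c, hc⟩ : ∃ c, c = a₀ ^ (orderOf a₀ / p) := ⟨_, rfl⟩
      have hco : orderOf c = p := by
        rw [hc]; exact orderOf_pow_orderOf_div (orderOf_pos a₀).ne' hpd
      have hcA : c ∈ A := by rw [hc]; exact A.pow_mem ha₀A _
      have hcN : c ∈ N := by rw [hc]; exact N.pow_mem ha₀N _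
      have hc1 : c ≠ 1 := by
        intro h; rw [h, orderOf_one] at hco; exact hp.one_lt.ne hco
      have hpg : IsPGroup p (Subgroup.zpowers (⟨c, hcN⟩ : ↥N)) := by
        apply IsPGroup.of_card (n := 1)
        rw [Nat.card_zpowers, Subgroup.orderOf_mk, hco, pow_one]
      obtain ⟨P, hP⟩ := hpg.exists_le_sylow
      have hcP : (⟨c, hcN⟩ : ↥N) ∈ (P : Subgroup ↥N) := hP (Subgroup.mem_zpowers _)
      have hPne : (P : Subgroup ↥N) ≠ ⊥ := by
        intro h
        rw [h, Subgroup.mem_bot] at hcP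
        exact hc1 (congrArg Subtype.val hcP)
      obtain ⟨z, hzP, hz1, hzc⟩ := exists_central_of_pgroup (P : Subgroup ↥N) P.isPGroup' hPne
      have hzA : (z : G) ∈ A := by
        by_contra hzA
        apply hc1
        apply hTI (z : G) hzA c hcA
        have h1 := hzc ⟨c, hcN⟩ hcP
        have h2 : c * (z : G) = (z : G) * c := congrArg Subtype.val h1
        rw [← h2, mul_inv_cancel_right]; exact hcA
      have hz1' : (z : G) ≠ 1 := fun h => hz1 (Subtype.ext h)
      have hPA : ∀ y : ↥N, y ∈ (P : Subgroup ↥N) → (y : G) ∈ A := by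
        intro y hy
        by_contra hyA
        apply hz1'
        apply hTI (y : G) hyA (z : G) hzA
        have h1 := hzc y hy
        have h2 : (y : G) * (z : G) = (z : G) * (y : G) := congrArg Subtype.val h1
        rw [h2, mul_inv_cancel_right]; exact hzA
      have hNC : Subgroup.normalizer ((P : Subgroup ↥N) : Set ↥N) ≤
          Subgroup.centralizer ((P : Subgroup ↥N) : Set ↥N) := by
        intro g hg
        have h1 := (Subgroup.mem_normalizer_iff.mp hg z).mp hzP
        have hgA : (g : G) ∈ A := by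
          by_contra hgA
          apply hz1'
          apply hTI (g : G) hgA (z : G) hzA
          exact hPA _ h1
        rw [Subgroup.mem_centralizer_iff]
        intro h hh
        exact Subtype.ext (hab _ (hPA h hh) _ hgA)
      have hcompl := MonoidHom.ker_transferSylow_isComplement' P hNC
      have hker : commutator ↥N ≤ (MonoidHom.transferSylow P hNC).ker := by
        rw [commutator_def, Subgroup.commutator_le]
        intro g₁ _ g₂ _
        rw [MonoidHom.mem_ker, map_commutatorElement, commutatorElement_eq_one_iff_commute]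
        show _ * _ = _ * _
        apply Subtype.ext
        apply Subtype.ext
        exact hab _ (hPA _ (MonoidHom.transferSylow P hNC g₁).2) _
          (hPA _ (MonoidHom.transferSylow P hNC g₂).2)
      intro htop
      have hkt : (MonoidHom.transferSylow P hNC).ker = ⊤ := top_le_iff.mp (htop ▸ hker)
      rw [hkt] at hcompl
      have h1 := hcompl.card_mul_card
      rw [Subgroup.card_top] at h1
      have h2 : Nat.card (P : Subgroup ↥N) = 1 := by
        have hpos : 0 < Nat.card ↥N := Nat.card_pos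
        exact Nat.eq_of_mul_eq_mul_left hpos (by rw [h1, mul_one])
      exact hPne (Subgroup.card_eq_one.mp h2)
  have hNN : ⁅N, N⁆ ≠ N := by
    intro h
    apply hcomN
    rw [eq_top_iff]
    intro x _
    have hx : (x : G) ∈ ⁅N, N⁆ := by rw [h]; exact x.2
    rw [← Subgroup.map_subtype_commutator] at hx
    obtain ⟨y, hy, hyx⟩ := Subgroup.mem_map.mp hx
    have hyx' : y = x := Subtype.ext hyx
    rw [← hyx']; exact hy
  have hbot : ⁅N, N⁆ = ⊥ := by
    rcases hNmin ⁅N, N⁆ inferInstance (Subgroup.commutator_le_self N) with h | h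
    · exact h
    · exact absurd h hNN
  have hNab : ∀ x ∈ N, ∀ y ∈ N, x * y = y * x := by
    have h3 := Subgroup.commutator_eq_bot_iff_le_centralizer.mp hbot
    intro x hx y hy
    exact Subgroup.mem_centralizer_iff.mp (h3 hy) x hx
  exact derived_two_of_normal_abelian N hNab hq

end Cfsg.Agent.Helper8
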