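import Mathlib
import Cfsg.Agent.Helper24.CharComplete
import Cfsg.Agent.Helper24.CharLinear

set_option autoImplicit false

namespace Cfsg.Agent.Helper8

open Cfsg Cfsg.Agent.Helper24

variable {X : Type*} [Group X]

theorem classInner_smul_right [Fintype X] (c : ℂ) (φ ψ : X → ℂ) :
    classInner φ (c • ψ) = starRingEnd ℂ c * classInner φ ψ := by
  simp only [classInner_def', Pi.smul_apply, smul_eq_mul, map_mul, Finset.mul_sum]
  refine Finset.sum_congr rfl fun g _ => ?_
  ring

theorem classInner_sub_right [Fintype X] (φ ψ₁ ψ₂ : X → ℂ) :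
    classInner φ (ψ₁ - ψ₂) = classInner φ ψ₁ - classInner φ ψ₂ := by
  simp only [classInner_def', Pi.sub_apply, map_sub, mul_sub, Finset.sum_sub_distrib]

theorem classInner_add_right [Fintype X] (φ ψ₁ ψ₂ : X → ℂ) :
    classInner φ (ψ₁ + ψ₂) = classInner φ ψ₁ + classInner φ ψ₂ := by
  simp only [classInner_def', Pi.add_apply, map_add, mul_add, Finset.sum_add_distrib]

theorem classInner_zero_right [Fintype X] (φ : X → ℂ) : classInner φ (0 : X → ℂ) = 0 := by
  simp [classInner_def']

theorem classInner_neg_right [Fintype X] (φ ψ : X → ℂ) :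
    classInner φ (-ψ) = -classInner φ ψ := by
  simp only [classInner_def', Pi.neg_apply, map_neg, mul_neg, Finset.sum_neg_distrib]

theorem classInner_neg_left [Fintype X] (φ ψ : X → ℂ) :
    classInner (-φ) ψ = -classInner φ ψ := by
  simp only [classInner_def', Pi.neg_apply, neg_mul, mul_neg, Finset.sum_neg_distrib]

theorem classInner_sum_right [Fintype X] {ι : Type*} (s : Finset ι) (φ : X → ℂ)
    (ψ : ι → X → ℂ) : classInner φ (∑ i ∈ s, ψ i) = ∑ i ∈ s, classInner φ (ψ i) := by
  classical
  induction s using Finset.induction_on with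
  | empty => simp [classInner_zero_right]
  | insert a s ha ih => rw [Finset.sum_insert ha, Finset.sum_insert ha, classInner_add_right, ih]

/-- A function that is an irreducible character up to sign. -/
theorem signed_irr (f : X → ℂ) (h : IsIrrCharacter X f ∨ IsIrrCharacter X (-f)) :
    ∃ (s : ℂ) (F : IrrCharacter X), (s = 1 ∨ s = -1) ∧ f = s • (F : X → ℂ) := by
  rcases h with h | h
  · exact ⟨1, ⟨f, h⟩, Or.inl rfl, by simp⟩
  · exact ⟨-1, ⟨-f, h⟩, Or.inr rfl, by simp⟩

theorem inner_signed [Fintype X] (s t : ℂ) (F F' : IrrCharacter X) (ht : starRingEnd ℂ t = t) :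
    classInner (s • (F : X → ℂ)) (t • (F' : X → ℂ)) = s * t * (if F = F' then 1 else 0) := by
  rw [classInner_smul_right, classInner_smul_left, irr_orthonormal, ht]; ring

theorem sign_eq (a b : ℂ) (ha : a = 1 ∨ a = -1) (hb : b = 1 ∨ b = -1) (x y : ℂ)
    (hx : ∃ n : ℕ, x = n) (hy : ∃ m : ℕ, y = m) (hx0 : x ≠ 0) (hy0 : y ≠ 0)
    (h : a * x = b * y) : a = b ∧ x = y := by
  obtain ⟨n, rfl⟩ := hx
  obtain ⟨m, rfl⟩ := hy
  rcases ha with rfl | rfl <;> rcases hb with rfl | rfl
  · exact ⟨rfl, by simpa using h⟩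
  · exfalso
    have h2 : ((n + m : ℕ) : ℂ) = 0 := by push_cast; linear_combination h
    have h3 : n + m = 0 := by exact_mod_cast h2
    have h4 : n = 0 := by omega
    exact hx0 (by rw [h4]; simp)
  · exfalso
    have h2 : ((n + m : ℕ) : ℂ) = 0 := by push_cast; linear_combination -h
    have h3 : n + m = 0 := by exact_mod_cast h2
    have h4 : n = 0 := by omega
    exact hx0 (by rw [h4]; simp)
  · exact ⟨rfl, by simpa using h⟩

end Cfsg.Agent.Helper8
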