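import Mathlib
import Cfsg.Agent.Helper8.Lattice

set_option autoImplicit false
open Matrix

namespace Cfsg.Agent.Helper8

theorem q_neg {ι : Type*} [Fintype ι] (B : Matrix ι ι ℤ) (v : ι → ℤ) :
    (-v) ⬝ᵥ (B *ᵥ (-v)) = v ⬝ᵥ (B *ᵥ v) := by
  rw [Matrix.mulVec_neg, neg_dotProduct, dotProduct_neg, neg_neg]

theorem q_zero {ι : Type*} [Fintype ι] (B : Matrix ι ι ℤ) :
    (0 : ι → ℤ) ⬝ᵥ (B *ᵥ (0 : ι → ℤ)) = 0 := by
  simp

/-- The linear functional `u ↦ a ⬝ᵥ (B *ᵥ u)`. -/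
def bfun {ι : Type*} [Fintype ι] (B : Matrix ι ι ℤ) (a : ι → ℤ) : (ι → ℤ) →ₗ[ℤ] ℤ where
  toFun u := a ⬝ᵥ (B *ᵥ u)
  map_add' u v := by rw [Matrix.mulVec_add, dotProduct_add]
  map_smul' c u := by rw [Matrix.mulVec_smul, dotProduct_smul]; rfl

/-- A set of norm-8 vectors of a positive definite lattice of rank `n`, any two of which are equal,
opposite or orthogonal, has at most `2 * n` members. -/
theorem frame_card_le {n : ℕ} (B : Matrix (Fin n) (Fin n) ℤ)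
    (F : Finset (Fin n → ℤ)) (hF8 : ∀ v ∈ F, v ⬝ᵥ (B *ᵥ v) = 8)
    (hF : ∀ v ∈ F, ∀ w ∈ F, w = v ∨ w = -v ∨ v ⬝ᵥ (B *ᵥ w) = 0) : F.card ≤ 2 * n := by
  classical
  set p : (Fin n → ℤ) → Finset (Fin n → ℤ) := fun v => {v, -v} with hp
  have h1 : F.card ≤ 2 * (F.image p).card := by
    apply Finset.card_le_mul_card_image
    intro b hb
    obtain ⟨v₀, hv₀, rfl⟩ := Finset.mem_image.mp hb
    have hsub : (F.filter fun x => p x = p v₀) ⊆ ({v₀, -v₀} : Finset (Fin n → ℤ)) := by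
      intro x hx
      have hx2 : p x = p v₀ := (Finset.mem_filter.mp hx).2
      have : x ∈ p x := by simp [hp]
      rw [hx2] at this
      exact this
    exact (Finset.card_le_card hsub).trans Finset.card_le_two
  have h2 : (F.image p).card ≤ n := by
    have hex : ∀ s : {s // s ∈ F.image p}, ∃ v ∈ F, p v = s.1 := fun s => Finset.mem_image.mp s.2
    choose rep hrepF hrep using hex
    have hli : LinearIndependent ℤ rep := by
      rw [linearIndependent_iff']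
      intro s g hsum i₀ hi₀
      have hφ := congrArg (bfun B (rep i₀)) hsum
      rw [map_sum, map_zero] at hφ
      have hterm : ∀ i ∈ s, i ≠ i₀ → bfun B (rep i₀) (g i • rep i) = 0 := by
        intro i _ hne
        rw [map_smul]
        have hb : rep i₀ ⬝ᵥ (B *ᵥ rep i) = 0 := by
          rcases hF (rep i₀) (hrepF i₀) (rep i) (hrepF i) with h | h | h
          · exfalso; apply hne; apply Subtype.ext
            rw [← hrep i, ← hrep i₀, h]
          · exfalso; apply hne; apply Subtype.ext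
            rw [← hrep i, ← hrep i₀, h]
            simp [hp, Finset.pair_comm]
          · exact h
        show g i • (rep i₀ ⬝ᵥ (B *ᵥ rep i)) = 0
        rw [hb]; simp
      rw [Finset.sum_eq_single_of_mem i₀ hi₀ hterm, map_smul] at hφ
      have h8 : rep i₀ ⬝ᵥ (B *ᵥ rep i₀) = 8 := hF8 _ (hrepF i₀)
      have hφ' : g i₀ • (rep i₀ ⬝ᵥ (B *ᵥ rep i₀)) = 0 := hφ
      rw [h8] at hφ'
      simpa using hφ'
    have := hli.fintype_card_le_finrank
    rw [Module.finrank_fin_fun] at this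
    simpa using this
  omega

/-- Reduction modulo 2 of an integer vector. -/
def red2 {n : ℕ} (v : Fin n → ℤ) : Fin n → ZMod 2 := fun i => (v i : ZMod 2)

theorem red2_eq_iff {n : ℕ} (v w : Fin n → ℤ) : red2 v = red2 w ↔ ∀ i, (2 : ℤ) ∣ (v - w) i := by
  constructor
  · intro h i
    have := congrFun h i
    simp only [red2] at this
    have h2 := (ZMod.intCast_eq_intCast_iff_dvd_sub (w i) (v i) 2).mp this.symm
    simpa using h2
  · intro h
    funext i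
    simp only [red2]
    exact ((ZMod.intCast_eq_intCast_iff_dvd_sub (w i) (v i) 2).mpr (by simpa using h i)).symm

/-- Weighted count of short vectors in one class modulo 2. -/
theorem class_bound {n : ℕ} (B : Matrix (Fin n) (Fin n) ℤ) (hsymm : B.IsSymm)
    (hpos : ∀ x : Fin n → ℤ, x ≠ 0 → 0 < x ⬝ᵥ (B *ᵥ x))
    (heven : ∀ x : Fin n → ℤ, (2 : ℤ) ∣ x ⬝ᵥ (B *ᵥ x)) (h2 : ∀ x : Fin n → ℤ, x ⬝ᵥ (B *ᵥ x) ≠ 2)
    (F0 F4 F6 F8 : Finset (Fin n → ℤ))
    (h0 : ∀ v, v ∈ F0 ↔ v ⬝ᵥ (B *ᵥ v) = 0) (h4 : ∀ v, v ∈ F4 ↔ v ⬝ᵥ (B *ᵥ v) = 4)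
    (h6 : ∀ v, v ∈ F6 ↔ v ⬝ᵥ (B *ᵥ v) = 6) (h8 : ∀ v, v ∈ F8 ↔ v ⬝ᵥ (B *ᵥ v) = 8)
    (c : Fin n → ZMod 2) :
    (2 * n) * (F0.filter fun v => red2 v = c).card + n * (F4.filter fun v => red2 v = c).card
      + n * (F6.filter fun v => red2 v = c).card + (F8.filter fun v => red2 v = c).card ≤ 2 * n := by
  classical
  -- any two short vectors in the class
  have hcongr : ∀ v w : Fin n → ℤ, red2 v = c → red2 w = c → v ⬝ᵥ (B *ᵥ v) ≤ 8 →
      w ⬝ᵥ (B *ᵥ w) ≤ 8 →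
      w = v ∨ w = -v ∨ (v ⬝ᵥ (B *ᵥ v) = 8 ∧ w ⬝ᵥ (B *ᵥ w) = 8 ∧ v ⬝ᵥ (B *ᵥ w) = 0) := by
    intro v w hv hw hqv hqw
    exact short_congr B hsymm hpos heven h2 v w hqv hqw ((red2_eq_iff v w).mp (hv.trans hw.symm))
  by_cases hex : ∃ v₀ : Fin n → ℤ, red2 v₀ = c ∧ v₀ ⬝ᵥ (B *ᵥ v₀) ≤ 8 ∧ v₀ ⬝ᵥ (B *ᵥ v₀) ≠ 8
  · obtain ⟨v₀, hv₀c, hv₀le, hv₀ne⟩ := hex
    have hall : ∀ w : Fin n → ℤ, red2 w = c → w ⬝ᵥ (B *ᵥ w) ≤ 8 → w = v₀ ∨ w = -v₀ := by
      intro w hw hqw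
      rcases hcongr v₀ w hv₀c hw hv₀le hqw with h | h | h
      · exact Or.inl h
      · exact Or.inr h
      · exact absurd h.1 hv₀ne
    have hqall : ∀ w : Fin n → ℤ, red2 w = c → w ⬝ᵥ (B *ᵥ w) ≤ 8 →
        w ⬝ᵥ (B *ᵥ w) = v₀ ⬝ᵥ (B *ᵥ v₀) := by
      intro w hw hqw
      rcases hall w hw hqw with h | h
      · rw [h]
      · rw [h, q_neg]
    have hsubk : ∀ (Fk : Finset (Fin n → ℤ)) (k : ℤ), k ≤ 8 → (∀ v, v ∈ Fk ↔ v ⬝ᵥ (B *ᵥ v) = k) →
        (Fk.filter fun v => red2 v = c) ⊆ ({v₀, -v₀} : Finset (Fin n → ℤ)) := by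
      intro Fk k hk8 hk w hw
      obtain ⟨hw1, hw2⟩ := Finset.mem_filter.mp hw
      have hqw : w ⬝ᵥ (B *ᵥ w) ≤ 8 := by rw [(hk w).mp hw1]; exact hk8
      rcases hall w hw2 hqw with h | h
      · rw [h]; simp
      · rw [h]; simp
    have hemp : ∀ (Fk : Finset (Fin n → ℤ)) (k : ℤ), k ≤ 8 → (∀ v, v ∈ Fk ↔ v ⬝ᵥ (B *ᵥ v) = k) →
        v₀ ⬝ᵥ (B *ᵥ v₀) ≠ k → (Fk.filter fun v => red2 v = c).card = 0 := by
      intro Fk k hk8 hk hne
      rw [Finset.card_eq_zero, Finset.eq_empty_iff_forall_notMem]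
      intro w hw
      obtain ⟨hw1, hw2⟩ := Finset.mem_filter.mp hw
      have hqw : w ⬝ᵥ (B *ᵥ w) = k := (hk w).mp hw1
      have := hqall w hw2 (by rw [hqw]; exact hk8)
      exact hne (this ▸ hqw)
    have hle2 : ∀ (Fk : Finset (Fin n → ℤ)) (k : ℤ), k ≤ 8 → (∀ v, v ∈ Fk ↔ v ⬝ᵥ (B *ᵥ v) = k) →
        (Fk.filter fun v => red2 v = c).card ≤ 2 := by
      intro Fk k hk8 hk
      exact (Finset.card_le_card (hsubk Fk k hk8 hk)).trans Finset.card_le_two
    have hn8 := hemp F8 8 le_rfl h8 hv₀ne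
    by_cases hq0 : v₀ ⬝ᵥ (B *ᵥ v₀) = 0
    · have hv₀0 : v₀ = 0 := by
        by_contra hne
        have := hpos v₀ hne
        omega
      have hn4 := hemp F4 4 (by norm_num) h4 (by rw [hq0]; norm_num)
      have hn6 := hemp F6 6 (by norm_num) h6 (by rw [hq0]; norm_num)
      have hn0 : (F0.filter fun v => red2 v = c).card ≤ 1 := by
        have hsub := hsubk F0 0 (by norm_num) h0
        rw [hv₀0] at hsub
        have : ({0, -0} : Finset (Fin n → ℤ)) = {0} := by simp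
        rw [this] at hsub
        exact (Finset.card_le_card hsub).trans (by simp)
      rw [hn4, hn6, hn8]
      nlinarith
    · have hn0 := hemp F0 0 (by norm_num) h0 hq0
      by_cases hq4 : v₀ ⬝ᵥ (B *ᵥ v₀) = 4
      · have hn6 := hemp F6 6 (by norm_num) h6 (by rw [hq4]; norm_num)
        have hn4 := hle2 F4 4 (by norm_num) h4
        rw [hn0, hn6, hn8]
        nlinarith
      · have hn4 := hemp F4 4 (by norm_num) h4 hq4
        have hn6 := hle2 F6 6 (by norm_num) h6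
        rw [hn0, hn4, hn8]
        nlinarith
  · push Not at hex
    have hemp : ∀ (Fk : Finset (Fin n → ℤ)) (k : ℤ), k ≤ 8 → k ≠ 8 →
        (∀ v, v ∈ Fk ↔ v ⬝ᵥ (B *ᵥ v) = k) → (Fk.filter fun v => red2 v = c).card = 0 := by
      intro Fk k hk8 hkne hk
      rw [Finset.card_eq_zero, Finset.eq_empty_iff_forall_notMem]
      intro w hw
      obtain ⟨hw1, hw2⟩ := Finset.mem_filter.mp hw
      have hqw : w ⬝ᵥ (B *ᵥ w) = k := (hk w).mp hw1
      have := hex w hw2 (by rw [hqw]; exact hk8)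
      exact hkne (hqw ▸ this)
    have hn0 := hemp F0 0 (by norm_num) (by norm_num) h0
    have hn4 := hemp F4 4 (by norm_num) (by norm_num) h4
    have hn6 := hemp F6 6 (by norm_num) (by norm_num) h6
    have hn8 : (F8.filter fun v => red2 v = c).card ≤ 2 * n := by
      apply frame_card_le B
      · intro v hv
        exact (h8 v).mp (Finset.mem_filter.mp hv).1
      · intro v hv w hw
        obtain ⟨hv1, hv2⟩ := Finset.mem_filter.mp hv
        obtain ⟨hw1, hw2⟩ := Finset.mem_filter.mp hw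
        rcases hcongr v w hv2 hw2 ((h8 v).mp hv1).le ((h8 w).mp hw1).le with h | h | h
        · exact Or.inl h
        · exact Or.inr (Or.inl h)
        · exact Or.inr (Or.inr h.2.2)
    rw [hn0, hn4, hn6]
    omega

end Cfsg.Agent.Helper8
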