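import Mathlib
import Cfsg.Prelude.Def_OddOrderLocal

set_option autoImplicit false

namespace Cfsg.Agent.Helper8

variable {G : Type*} [Group G]

theorem puigSeq_zero : Cfsg.puigSeq G 0 = ⊥ := rfl

theorem puigSeq_succ (n : ℕ) : Cfsg.puigSeq G (n + 1) = Cfsg.puigStep (Cfsg.puigSeq G n) := rfl

theorem puigStep_anti {X Y : Subgroup G} (h : X ≤ Y) : Cfsg.puigStep Y ≤ Cfsg.puigStep X := by
  apply sSup_le_sSup
  rintro A ⟨hA, hYA⟩
  exact ⟨hA, h.trans hYA⟩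

theorem puigStep_bot : Cfsg.puigStep (⊥ : Subgroup G) = ⊤ := by
  rw [eq_top_iff]
  intro g _
  have hmem : Subgroup.zpowers g ∈ {A : Subgroup G | IsMulCommutative A ∧
      (⊥ : Subgroup G) ≤ Subgroup.normalizer (A : Set G)} :=
    ⟨Subgroup.zpowers_isMulCommutative g, bot_le⟩
  exact (le_sSup hmem) (Subgroup.mem_zpowers g)

theorem puigSeq_one : Cfsg.puigSeq G 1 = ⊤ := by
  rw [puigSeq_succ, puigSeq_zero, puigStep_bot]

/-- `L_{2k} ≤ L_{2k+1}` and `L_{2k+2} ≤ L_{2k+1}`. -/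
theorem puig_even_le_odd (k : ℕ) :
    Cfsg.puigSeq G (2 * k) ≤ Cfsg.puigSeq G (2 * k + 1) ∧
      Cfsg.puigSeq G (2 * k + 2) ≤ Cfsg.puigSeq G (2 * k + 1) := by
  induction k with
  | zero =>
    refine ⟨?_, ?_⟩
    · rw [puigSeq_zero]; exact bot_le
    · show Cfsg.puigSeq G 2 ≤ Cfsg.puigSeq G 1
      rw [puigSeq_one]; exact le_top
  | succ k ih =>
    have h1 : Cfsg.puigSeq G (2 * (k + 1)) ≤ Cfsg.puigSeq G (2 * (k + 1) + 1) := by
      show Cfsg.puigSeq G (2 * k + 1 + 1) ≤ Cfsg.puigSeq G (2 * k + 2 + 1)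
      rw [puigSeq_succ, puigSeq_succ (2 * k + 2)]
      exact puigStep_anti ih.2
    refine ⟨h1, ?_⟩
    show Cfsg.puigSeq G (2 * (k + 1) + 1 + 1) ≤ Cfsg.puigSeq G (2 * (k + 1) + 1)
    rw [puigSeq_succ, puigSeq_succ (2 * (k + 1))]
    exact puigStep_anti h1

/-- `L_{2n} ≤ L_{2n+2}` and `L_{2n+3} ≤ L_{2n+1}`. -/
theorem puig_step_two (n : ℕ) :
    Cfsg.puigSeq G (2 * n) ≤ Cfsg.puigSeq G (2 * n + 2) ∧
      Cfsg.puigSeq G (2 * n + 3) ≤ Cfsg.puigSeq G (2 * n + 1) := by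
  induction n with
  | zero =>
    have h0 : Cfsg.puigSeq G (2 * 0) ≤ Cfsg.puigSeq G (2 * 0 + 2) := by
      show Cfsg.puigSeq G 0 ≤ _
      rw [puigSeq_zero]; exact bot_le
    refine ⟨h0, ?_⟩
    show Cfsg.puigSeq G (2 * 0 + 2 + 1) ≤ Cfsg.puigSeq G (2 * 0 + 1)
    rw [puigSeq_succ, puigSeq_succ (2 * 0)]
    exact puigStep_anti h0
  | succ n ih =>
    have h1 : Cfsg.puigSeq G (2 * (n + 1)) ≤ Cfsg.puigSeq G (2 * (n + 1) + 2) := by
      show Cfsg.puigSeq G (2 * n + 1 + 1) ≤ Cfsg.puigSeq G (2 * n + 3 + 1)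
      rw [puigSeq_succ, puigSeq_succ (2 * n + 3)]
      exact puigStep_anti ih.2
    refine ⟨h1, ?_⟩
    show Cfsg.puigSeq G (2 * (n + 1) + 2 + 1) ≤ Cfsg.puigSeq G (2 * (n + 1) + 1)
    rw [puigSeq_succ, puigSeq_succ (2 * (n + 1))]
    exact puigStep_anti h1

theorem puig_even_mono : Monotone (fun n : ℕ => Cfsg.puigSeq G (2 * n)) :=
  monotone_nat_of_le_succ fun n => (puig_step_two n).1

theorem puig_odd_anti : Antitone (fun n : ℕ => Cfsg.puigSeq G (2 * n + 1)) :=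
  antitone_nat_of_succ_le fun n => (puig_step_two n).2

theorem puig_even_le_odd' (n m : ℕ) :
    Cfsg.puigSeq G (2 * n) ≤ Cfsg.puigSeq G (2 * m + 1) := by
  have h1 : Cfsg.puigSeq G (2 * n) ≤ Cfsg.puigSeq G (2 * max n m) :=
    puig_even_mono (le_max_left n m)
  have h2 : Cfsg.puigSeq G (2 * max n m + 1) ≤ Cfsg.puigSeq G (2 * m + 1) :=
    puig_odd_anti (le_max_right n m)
  exact h1.trans ((puig_even_le_odd (max n m)).1.trans h2)

theorem puigLower_le_puigSubgroup : Cfsg.puigLower G ≤ Cfsg.puigSubgroup G :=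
  iSup_le fun n => le_iInf fun m => puig_even_le_odd' n m

/-- The Puig series of a finite group stabilises. -/
theorem puig_stabilises [Finite G] :
    ∃ k : ℕ, ∀ n : ℕ, k ≤ n → Cfsg.puigSeq G (2 * n) = Cfsg.puigLower G ∧
      Cfsg.puigSeq G (2 * n + 1) = Cfsg.puigSubgroup G := by
  obtain ⟨k₁, hk₁⟩ := WellFoundedGT.monotone_chain_condition
    (⟨fun n : ℕ => Cfsg.puigSeq G (2 * n), puig_even_mono⟩ : ℕ →o Subgroup G)
  obtain ⟨k₂, hk₂⟩ := WellFoundedLT.antitone_chain_condition (puig_odd_anti (G := G))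
  have hk₁' : ∀ m, k₁ ≤ m → Cfsg.puigSeq G (2 * k₁) = Cfsg.puigSeq G (2 * m) := hk₁
  have hk₂' : ∀ m, k₂ ≤ m → Cfsg.puigSeq G (2 * k₂ + 1) = Cfsg.puigSeq G (2 * m + 1) := hk₂
  have hL : Cfsg.puigLower G = Cfsg.puigSeq G (2 * k₁) := by
    apply le_antisymm
    · apply iSup_le
      intro n
      rw [hk₁' (max n k₁) (le_max_right _ _)]
      exact puig_even_mono (le_max_left n k₁)
    · exact le_iSup (fun n : ℕ => Cfsg.puigSeq G (2 * n)) k₁
  have hU : Cfsg.puigSubgroup G = Cfsg.puigSeq G (2 * k₂ + 1) := by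
    apply le_antisymm
    · exact iInf_le (fun n : ℕ => Cfsg.puigSeq G (2 * n + 1)) k₂
    · apply le_iInf
      intro n
      rw [hk₂' (max n k₂) (le_max_right _ _)]
      exact puig_odd_anti (le_max_left n k₂)
  refine ⟨max k₁ k₂, fun n hn => ⟨?_, ?_⟩⟩
  · rw [hL]; exact (hk₁' n ((le_max_left _ _).trans hn)).symm
  · rw [hU]; exact (hk₂' n ((le_max_right _ _).trans hn)).symm

theorem puigStep_puigLower [Finite G] : Cfsg.puigStep (Cfsg.puigLower G) = Cfsg.puigSubgroup G := by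
  obtain ⟨k, hk⟩ := puig_stabilises (G := G)
  rw [← (hk k le_rfl).1, ← (hk k le_rfl).2]
  rfl

theorem puigStep_puigSubgroup [Finite G] :
    Cfsg.puigStep (Cfsg.puigSubgroup G) = Cfsg.puigLower G := by
  obtain ⟨k, hk⟩ := puig_stabilises (G := G)
  rw [← (hk k le_rfl).2, ← (hk (k + 1) (Nat.le_succ k)).1]
  rfl

end Cfsg.Agent.Helper8
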