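import Mathlib
import Cfsg.Prelude.Def_GeometricClasses
import Cfsg.Agent.S5967

set_option autoImplicit false
open scoped MatrixGroups

namespace Cfsg.Agent.Helper8.S5968A1

open Matrix

/-- [A1] the similarity group contains a copy of the standard symplectic group. -/
theorem sp_card_dvd {F : Type*} [Field F] [Fintype F] (n m : ℕ) (hnm : n = 2 * m)
    (f : (Fin n → F) → (Fin n → F) → F) (hf : Cfsg.Geo.IsSymplecticForm f) :
    Nat.card (Matrix.symplecticGroup (Fin m) F) ∣
      Nat.card ((Cfsg.Geo.similarityGroup f).comap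
        (Matrix.SpecialLinearGroup.toGL : Matrix.SpecialLinearGroup (Fin n) F →* GL (Fin n) F)) := by
  classical
  have hB : (Cfsg.Agent.S5967.Bf f hf).IsAlt := fun v => hf.alternating v
  have hND : ∀ u : Fin n → F, u ≠ 0 → ∃ v, Cfsg.Agent.S5967.Bf f hf u v ≠ 0 :=
    fun u hu => (hf.nondegenerate u hu).2
  have hcard : Module.finrank F (Fin n → F) = 2 * Fintype.card (Fin m) := by
    rw [Module.finrank_fin_fun, Fintype.card_fin, hnm]
  obtain ⟨b, -, h1, h2, h3, h4⟩ :=
    Cfsg.Agent.S5967.symp_basis' (Cfsg.Agent.S5967.Bf f hf) hB hND (Fin m) hcard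
  have hsk : ∀ u v, Cfsg.Agent.S5967.Bf f hf u v = - Cfsg.Agent.S5967.Bf f hf v u :=
    fun u v => hf.skew u v
  have hG : LinearMap.BilinForm.toMatrix b (Cfsg.Agent.S5967.Bf f hf) = - Matrix.J (Fin m) F := by
    ext s t
    rw [LinearMap.BilinForm.toMatrix_apply]
    rcases s with i | i <;> rcases t with k | k
    · simp [Matrix.J, h3 i k]
    · by_cases hik : i = k
      · subst hik; simp [Matrix.J, h1 i]
      · simp [Matrix.J, h2 i k hik, Matrix.one_apply_ne hik]
    · by_cases hik : i = k
      · subst hik; rw [hsk, h1 i]; simp [Matrix.J]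
      · rw [hsk, h2 k i (Ne.symm hik)]; simp [Matrix.J, Matrix.one_apply_ne hik]
    · simp [Matrix.J, h4 i k]
  have hpres : ∀ A : Matrix (Fin m ⊕ Fin m) (Fin m ⊕ Fin m) F,
      A ∈ Matrix.symplecticGroup (Fin m) F →
      ∀ u v, f (Matrix.toLin b b A u) (Matrix.toLin b b A v) = f u v := by
    intro A hA u v
    have hAt : Aᵀ * Matrix.J (Fin m) F * A = Matrix.J (Fin m) F := SymplecticGroup.mem_iff'.mp hA
    have hcomp : (Cfsg.Agent.S5967.Bf f hf).comp (Matrix.toLin b b A) (Matrix.toLin b b A)
        = Cfsg.Agent.S5967.Bf f hf := by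
      apply (LinearMap.BilinForm.toMatrix b).injective
      rw [LinearMap.BilinForm.toMatrix_comp b b, LinearMap.toMatrix_toLin, hG]
      rw [Matrix.mul_neg, Matrix.neg_mul, hAt]
    have h6 := congrArg (fun B' : LinearMap.BilinForm F (Fin n → F) => B' u v) hcomp
    exact h6
  let Ψ : Matrix.symplecticGroup (Fin m) F →* Matrix.SpecialLinearGroup (Fin n) F :=
    { toFun := fun A => ⟨LinearMap.toMatrix' (Matrix.toLin b b A.1), by
        rw [LinearMap.det_toMatrix', LinearMap.det_toLin]
        exact SymplecticGroup.det_eq_one A.2⟩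
      map_one' := by
        apply Subtype.ext
        show LinearMap.toMatrix' (Matrix.toLin b b (1 : Matrix (Fin m ⊕ Fin m) (Fin m ⊕ Fin m) F)) = 1
        rw [Matrix.toLin_one, LinearMap.toMatrix'_id]
      map_mul' := fun A A' => by
        apply Subtype.ext
        show LinearMap.toMatrix' (Matrix.toLin b b (A.1 * A'.1))
          = LinearMap.toMatrix' (Matrix.toLin b b A.1) * LinearMap.toMatrix' (Matrix.toLin b b A'.1)
        rw [Matrix.toLin_mul b b b, LinearMap.toMatrix'_comp] }
  have hΨinj : Function.Injective Ψ := by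
    intro A A' h
    have h' := congrArg Subtype.val h
    have h'' : LinearMap.toMatrix' (Matrix.toLin b b A.1)
        = LinearMap.toMatrix' (Matrix.toLin b b A'.1) := h'
    exact Subtype.ext ((Matrix.toLin b b).injective (LinearMap.toMatrix'.injective h''))
  have hΨmem : ∀ A, Ψ A ∈ (Cfsg.Geo.similarityGroup f).comap
      (Matrix.SpecialLinearGroup.toGL : Matrix.SpecialLinearGroup (Fin n) F →* GL (Fin n) F) := by
    intro A
    rw [Subgroup.mem_comap]
    refine ⟨1, fun u v => ?_⟩
    have e : ∀ w : Fin n → F,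
        ((Matrix.SpecialLinearGroup.toGL (Ψ A) : GL (Fin n) F) : Matrix (Fin n) (Fin n) F) *ᵥ w
          = Matrix.toLin b b A.1 w := by
      intro w
      show (LinearMap.toMatrix' (Matrix.toLin b b A.1)) *ᵥ w = _
      rw [LinearMap.toMatrix'_mulVec]
    rw [e, e, hpres A.1 A.2, Units.val_one, one_mul]
  exact Subgroup.card_dvd_of_injective (Ψ.codRestrict _ hΨmem)
    (fun A A' h => hΨinj (congrArg Subtype.val h))

end Cfsg.Agent.Helper8.S5968A1
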