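import Mathlib
import Cfsg.Prelude.Def_GeometricClasses
import Cfsg.Agent.Helper2.SLCard
import Cfsg.Agent.S0245

set_option autoImplicit false
open scoped MatrixGroups

namespace Cfsg.Agent.Helper8.S5968A2

theorem split_prod (q : ℕ) (m : ℕ) :
    ∏ i ∈ Finset.range (2 * m), (q ^ (i + 1) - 1)
      = (∏ j ∈ Finset.range m, (q ^ (2 * (j + 1)) - 1)) *
        ∏ j ∈ Finset.range m, (q ^ (2 * j + 1) - 1) := by
  induction m with
  | zero => simp
  | succ m ih =>
    rw [show 2 * (m + 1) = 2 * m + 1 + 1 by ring, Finset.prod_range_succ, Finset.prod_range_succ,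
      ih, Finset.prod_range_succ, Finset.prod_range_succ]
    have e1 : 2 * m + 1 + 1 = 2 * (m + 1) := by ring
    rw [e1]; ring

/-- [A2] index arithmetic. -/
theorem index_arith {F : Type*} [Field F] [Fintype F] {p : ℕ} [Fact p.Prime] [CharP F p] {q : ℕ}
    (hq : Fintype.card F = q) (n m : ℕ) (hnm : n = 2 * m) (hm : 2 ≤ m)
    (H : Subgroup (Matrix.SpecialLinearGroup (Fin n) F))
    (hS : Nat.card (Matrix.symplecticGroup (Fin m) F) ∣ Nat.card H)
    (r : ℕ) [Fact r.Prime] (hrp : r ≠ p) (hr : r ∣ H.index) :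
    ∃ i : ℕ, Odd i ∧ 3 ≤ i ∧ i ≤ n - 1 ∧ r ∣ q ^ i - 1 := by
  classical
  have hpp : p.Prime := Fact.out
  have hrr : r.Prime := Fact.out
  have hq2 : 2 ≤ q := by rw [← hq]; exact Fintype.one_lt_card
  subst hnm
  have hn1 : 1 ≤ 2 * m := by omega
  have h1 := Cfsg.Agent.Helper2.SLCard.card_SL_mul F (2 * m) hn1
  rw [Matrix.card_GL_field, hq, Cfsg.Agent.Helper2.SLCard.prod_eq q (2 * m)] at h1
  have hrefl : ∏ i ∈ Finset.range (2 * m), (q ^ (2 * m - i) - 1)
      = ∏ i ∈ Finset.range (2 * m), (q ^ (i + 1) - 1) := by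
    rw [← Finset.prod_range_reflect (fun j => q ^ (j + 1) - 1) (2 * m)]
    apply Finset.prod_congr rfl
    intro i hi
    rw [Finset.mem_range] at hi
    have e : 2 * m - i = 2 * m - 1 - i + 1 := by omega
    rw [e]
  have h2 := Cfsg.Agent.S0245.result hq m
  have h3 := Subgroup.card_mul_index H
  obtain ⟨t, ht⟩ := hS
  have hodd : ∏ j ∈ Finset.range m, (q ^ (2 * j + 1) - 1)
      = (q - 1) * ∏ j ∈ Finset.range (m - 1), (q ^ (2 * (j + 1) + 1) - 1) := by
    obtain ⟨m', rfl⟩ : ∃ m', m = m' + 1 := ⟨m - 1, by omega⟩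
    rw [Finset.prod_range_succ']
    simp [mul_comm]
  have hPepos : 0 < ∏ j ∈ Finset.range m, (q ^ (2 * (j + 1)) - 1) :=
    Finset.prod_pos (fun j _ => Nat.sub_pos_of_lt (Nat.one_lt_pow (by omega) (by omega)))
  have hq1 : 0 < q - 1 := by omega
  have key : q ^ (m ^ 2) * t * H.index = q ^ (2 * m * (2 * m - 1) / 2) *
      ∏ j ∈ Finset.range (m - 1), (q ^ (2 * (j + 1) + 1) - 1) := by
    have e : (q ^ (m ^ 2) * t * H.index) *
          ((∏ j ∈ Finset.range m, (q ^ (2 * (j + 1)) - 1)) * (q - 1))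
        = (q ^ (2 * m * (2 * m - 1) / 2) *
          ∏ j ∈ Finset.range (m - 1), (q ^ (2 * (j + 1) + 1) - 1)) *
          ((∏ j ∈ Finset.range m, (q ^ (2 * (j + 1)) - 1)) * (q - 1)) := by
      calc (q ^ (m ^ 2) * t * H.index) *
            ((∏ j ∈ Finset.range m, (q ^ (2 * (j + 1)) - 1)) * (q - 1))
          = (Nat.card H * H.index) * (q - 1) := by rw [ht, h2]; ring
        _ = _ := by rw [h3, h1, hrefl, split_prod, hodd]; ring
    exact Nat.eq_of_mul_eq_mul_right (Nat.mul_pos hPepos hq1) e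
  have hdvd : r ∣ q ^ (2 * m * (2 * m - 1) / 2) *
      ∏ j ∈ Finset.range (m - 1), (q ^ (2 * (j + 1) + 1) - 1) := by
    rw [← key]; exact Dvd.dvd.mul_left hr _
  rcases (Nat.Prime.dvd_mul hrr).mp hdvd with h4 | h4
  · exfalso
    have h5 : r ∣ q := hrr.dvd_of_dvd_pow h4
    obtain ⟨k, hk⟩ := FiniteField.card F p
    rw [← hq, hk.2] at h5
    have h6 := hrr.dvd_of_dvd_pow h5
    exact hrp ((Nat.prime_dvd_prime_iff_eq hrr hpp).mp h6)
  · obtain ⟨j, hj, hjd⟩ := (Prime.dvd_finset_prod_iff (Nat.Prime.prime hrr) _).mp h4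
    rw [Finset.mem_range] at hj
    exact ⟨2 * (j + 1) + 1, ⟨j + 1, by ring⟩, by omega, by omega, hjd⟩

end Cfsg.Agent.Helper8.S5968A2
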