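import Mathlib
import Cfsg.Prelude.Def_GeometricClasses

set_option autoImplicit false
open scoped MatrixGroups

namespace Cfsg.Agent.Helper8.S5968D2

open Matrix

theorem blk_pow {F : Type*} [Field F] {e k : ℕ} (A : Matrix (Fin e) (Fin e) F) (j : ℕ) :
    (Matrix.fromBlocks A (0 : Matrix (Fin e) (Fin k) F) (0 : Matrix (Fin k) (Fin e) F) 1) ^ j
      = Matrix.fromBlocks (A ^ j) 0 0 1 := by
  induction j with
  | zero => simp [Matrix.fromBlocks_one]
  | succ j ih =>
    rw [pow_succ, ih, Matrix.fromBlocks_multiply]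
    simp [pow_succ]

/-- [D2] embedding a block without eigenvectors. -/
theorem embed_block {F : Type*} [Field F] (n e : ℕ) (hne : 1 ≤ e) (hen : e ≤ n) (hodd : Odd (n - e))
    (r : ℕ) (hr : (r : F) ≠ 0)
    (A : Matrix (Fin e) (Fin e) F) (hA : A ^ r = 1) (hdet : A.det = 1)
    (hfix : ∀ (m : F) (v : Fin e → F), A.mulVec v = m • v → v = 0) :
    ∃ (x : Matrix.SpecialLinearGroup (Fin n) F) (l : F), l ≠ 0 ∧ x ^ r = 1 ∧
      (∀ z : F, (x : Matrix (Fin n) (Fin n) F) ≠ z • (1 : Matrix (Fin n) (Fin n) F)) ∧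
      Odd (Module.finrank F (LinearMap.ker (Matrix.toLin' ((x : Matrix (Fin n) (Fin n) F) - l • (1 : Matrix (Fin n) (Fin n) F))))) ∧
      LinearMap.ker (Matrix.toLin' ((x : Matrix (Fin n) (Fin n) F) - l • (1 : Matrix (Fin n) (Fin n) F))) ⊓
        LinearMap.range (Matrix.toLin' ((x : Matrix (Fin n) (Fin n) F) - l • (1 : Matrix (Fin n) (Fin n) F))) = ⊥ ∧
      ∀ m : F, m ≠ l →
        Module.finrank F (LinearMap.ker (Matrix.toLin' ((x : Matrix (Fin n) (Fin n) F) - m • (1 : Matrix (Fin n) (Fin n) F)))) ≠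
        Module.finrank F (LinearMap.ker (Matrix.toLin' ((x : Matrix (Fin n) (Fin n) F) - l • (1 : Matrix (Fin n) (Fin n) F)))) := by
  classical
  let σ : Fin e ⊕ Fin (n - e) ≃ Fin n :=
    finSumFinEquiv.trans (finCongr (by omega : e + (n - e) = n))
  let M : Matrix (Fin e ⊕ Fin (n - e)) (Fin e ⊕ Fin (n - e)) F :=
    Matrix.fromBlocks A 0 0 1
  let X : Matrix (Fin n) (Fin n) F := Matrix.reindex σ σ M
  have hdetX : X.det = 1 := by
    show (Matrix.reindex σ σ M).det = 1
    rw [Matrix.det_reindex_self]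
    show (Matrix.fromBlocks A 0 0 1).det = 1
    rw [Matrix.det_fromBlocks_zero₂₁, hdet, Matrix.det_one, one_mul]
  have hXr : X ^ r = 1 := by
    have h1 : X = Matrix.reindexAlgEquiv F F σ M := rfl
    rw [h1, ← map_pow]
    have h2 : M ^ r = 1 := by
      show (Matrix.fromBlocks A 0 0 1) ^ r = 1
      rw [blk_pow, hA, Matrix.fromBlocks_one]
    rw [h2, map_one]
  -- action of X on vectors
  have hXv : ∀ v : Fin n → F, X *ᵥ v = fun i =>
      Sum.elim (A *ᵥ (fun a => v (σ (Sum.inl a)))) (fun b => v (σ (Sum.inr b))) (σ.symm i) := by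
    intro v
    have h1 : X *ᵥ v = (M *ᵥ (v ∘ σ)) ∘ σ.symm := by
      show (M.submatrix σ.symm σ.symm) *ᵥ v = _
      rw [Matrix.submatrix_mulVec_equiv]; rfl
    have h2 : v ∘ σ = Sum.elim (fun a => v (σ (Sum.inl a))) (fun b => v (σ (Sum.inr b))) := by
      funext s; rcases s with a | b <;> rfl
    rw [h1, h2]
    show ((Matrix.fromBlocks A 0 0 1) *ᵥ _) ∘ σ.symm = _
    rw [Matrix.fromBlocks_mulVec]
    funext i
    simp
  have hkey : ∀ (m : F) (v : Fin n → F), (X - m • (1 : Matrix (Fin n) (Fin n) F)) *ᵥ v = 0 ↔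
      (A *ᵥ (fun a => v (σ (Sum.inl a))) = m • (fun a => v (σ (Sum.inl a)))) ∧
      (∀ b, v (σ (Sum.inr b)) = m * v (σ (Sum.inr b))) := by
    intro m v
    rw [Matrix.sub_mulVec, Matrix.smul_mulVec, Matrix.one_mulVec, sub_eq_zero, hXv]
    constructor
    · intro h
      constructor
      · funext a
        have := congrFun h (σ (Sum.inl a))
        simpa using this
      · intro b
        have := congrFun h (σ (Sum.inr b))
        simpa using this
    · rintro ⟨h1, h2⟩
      funext i
      obtain ⟨s, rfl⟩ := σ.surjective i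
      rcases s with a | b
      · have := congrFun h1 a
        simpa using this
      · have := h2 b
        simpa using this
  have hker1 : ∀ v : Fin n → F, (X - (1 : F) • (1 : Matrix (Fin n) (Fin n) F)) *ᵥ v = 0 ↔
      ∀ a, v (σ (Sum.inl a)) = 0 := by
    intro v
    rw [hkey]
    constructor
    · rintro ⟨h1, -⟩ a
      exact congrFun (hfix 1 _ h1) a
    · intro h
      have h0 : (fun a => v (σ (Sum.inl a))) = 0 := funext h
      refine ⟨by rw [h0]; simp, fun b => by rw [one_mul]⟩
  let ι : (Fin (n - e) → F) →ₗ[F] (Fin n → F) :=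
    { toFun := fun w i => Sum.elim (0 : Fin e → F) w (σ.symm i)
      map_add' := by
        intro w w'; funext i
        show Sum.elim (0 : Fin e → F) (w + w') (σ.symm i)
          = Sum.elim (0 : Fin e → F) w (σ.symm i) + Sum.elim (0 : Fin e → F) w' (σ.symm i)
        generalize σ.symm i = s
        rcases s with a | b
        · simp
        · simp
      map_smul' := by
        intro c w; funext i
        show Sum.elim (0 : Fin e → F) (c • w) (σ.symm i)
          = c • Sum.elim (0 : Fin e → F) w (σ.symm i)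
        generalize σ.symm i = s
        rcases s with a | b
        · simp
        · simp }
  have hιinj : Function.Injective ι := by
    intro w w' h
    funext b
    have := congrFun h (σ (Sum.inr b))
    simpa [ι] using this
  have hkerrange : LinearMap.ker (Matrix.toLin' (X - (1 : F) • (1 : Matrix (Fin n) (Fin n) F)))
      = LinearMap.range ι := by
    ext v
    rw [LinearMap.mem_ker, Matrix.toLin'_apply, hker1, LinearMap.mem_range]
    constructor
    · intro h
      refine ⟨fun b => v (σ (Sum.inr b)), ?_⟩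
      funext i
      obtain ⟨s, rfl⟩ := σ.surjective i
      rcases s with a | b
      · simp [ι, h a]
      · simp [ι]
    · rintro ⟨w, rfl⟩ a
      simp [ι]
  have hfin : Module.finrank F (LinearMap.ker (Matrix.toLin' (X - (1 : F) • (1 : Matrix (Fin n) (Fin n) F))))
      = n - e := by
    rw [hkerrange, LinearMap.finrank_range_of_inj hιinj, Module.finrank_fin_fun]
  let x : Matrix.SpecialLinearGroup (Fin n) F := ⟨X, hdetX⟩
  refine ⟨x, 1, one_ne_zero, ?_, ?_, ?_, ?_, ?_⟩
  · apply Subtype.ext
    show ((x ^ r : Matrix.SpecialLinearGroup (Fin n) F) : Matrix (Fin n) (Fin n) F) = 1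
    rw [Matrix.SpecialLinearGroup.coe_pow]
    exact hXr
  · intro z hz
    have hz' : X = z • (1 : Matrix (Fin n) (Fin n) F) := hz
    -- the vector supported at σ (inl 0)
    let a0 : Fin e := ⟨0, by omega⟩
    let u0 : Fin e → F := Pi.single a0 1
    let v0 : Fin n → F := fun i => Sum.elim u0 (0 : Fin (n - e) → F) (σ.symm i)
    have h1 : (X - z • (1 : Matrix (Fin n) (Fin n) F)) *ᵥ v0 = 0 := by
      rw [hz', sub_self, Matrix.zero_mulVec]
    rw [hkey] at h1
    have h2 : (fun a => v0 (σ (Sum.inl a))) = u0 := by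
      funext a; simp [v0]
    rw [h2] at h1
    have h3 := hfix z u0 h1.1
    have h4 := congrFun h3 a0
    simp [u0] at h4
  · show Odd (Module.finrank F (LinearMap.ker (Matrix.toLin' (X - (1 : F) • (1 : Matrix (Fin n) (Fin n) F)))))
    rw [hfin]; exact hodd
  · show LinearMap.ker (Matrix.toLin' (X - (1 : F) • (1 : Matrix (Fin n) (Fin n) F))) ⊓
      LinearMap.range (Matrix.toLin' (X - (1 : F) • (1 : Matrix (Fin n) (Fin n) F))) = ⊥
    rw [eq_bot_iff]
    rintro v ⟨hv1, ⟨y, rfl⟩⟩
    rw [SetLike.mem_coe, LinearMap.mem_ker, Matrix.toLin'_apply, hker1] at hv1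
    rw [Submodule.mem_bot]
    rw [Matrix.toLin'_apply] at hv1 ⊢
    funext i
    obtain ⟨s, rfl⟩ := σ.surjective i
    rcases s with a | b
    · exact hv1 a
    · rw [Matrix.sub_mulVec, Matrix.smul_mulVec, Matrix.one_mulVec, hXv]
      simp
  · intro m hm
    show Module.finrank F (LinearMap.ker (Matrix.toLin' (X - m • (1 : Matrix (Fin n) (Fin n) F)))) ≠
      Module.finrank F (LinearMap.ker (Matrix.toLin' (X - (1 : F) • (1 : Matrix (Fin n) (Fin n) F))))
    have hbot : LinearMap.ker (Matrix.toLin' (X - m • (1 : Matrix (Fin n) (Fin n) F))) = ⊥ := by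
      rw [eq_bot_iff]
      intro v hv
      rw [LinearMap.mem_ker, Matrix.toLin'_apply, hkey] at hv
      rw [Submodule.mem_bot]
      have hu := hfix m _ hv.1
      funext i
      obtain ⟨s, rfl⟩ := σ.surjective i
      rcases s with a | b
      · exact congrFun hu a
      · have h5 := hv.2 b
        have h6 : (1 - m) * v (σ (Sum.inr b)) = 0 := by rw [sub_mul, one_mul, ← h5, sub_self]
        rcases mul_eq_zero.mp h6 with h7 | h7
        · exact absurd (sub_eq_zero.mp h7).symm hm
        · exact h7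
    rw [hbot, finrank_bot, hfin]
    obtain ⟨k, hk⟩ := hodd
    omega

end Cfsg.Agent.Helper8.S5968D2
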