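import Mathlib
import Cfsg.Prelude.Def_GeometricClasses
import Cfsg.Agent.Helper8.SU3Inv

/-!
# Witt frames for the standard Hermitian form

A Witt frame of type `(k, m)` in `F^n`, `n = 2k + m`: isotropic pairwise orthogonal vectors
`v_1 … v_k`, dual isotropic pairwise orthogonal vectors `v'_1 … v'_k` with `h(v_i, v'_j) = δ_ij`,
and an orthonormal family `u_1 … u_m` orthogonal to all of them.  Every isotropic frame extends
to a Witt frame, Witt frames give coordinates, and `GU_n(q)` is transitive on Witt frames.
-/

set_option autoImplicit false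

namespace Cfsg.Agent.Helper8.SUW

open Matrix Cfsg.Agent.Helper2 Cfsg.Agent.Helper8.SULag Cfsg.Agent.Helper8.SUNd

variable {F : Type*} [Field F] {n q : ℕ}

local notation "VV" => (Fin n → F)
local notation "MM" => Matrix (Fin n) (Fin n) F
local notation "GG" => Matrix.GeneralLinearGroup (Fin n) F
local notation "hh" => Cfsg.hermForm n F q

/-! ## Sums and spans -/

theorem h_sum_left {ι : Type*} (s : Finset ι) (c : ι → F) (x : ι → VV) (y : VV) :
    hh (∑ i ∈ s, c i • x i) y = ∑ i ∈ s, c i * hh (x i) y := by
  classical
  induction s using Finset.induction_on with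
  | empty => rw [Finset.sum_empty, Finset.sum_empty, h_zero_left]
  | insert a s ha ih =>
    rw [Finset.sum_insert ha, Finset.sum_insert ha, h_add_left, h_smul_left, ih]

theorem h_sum_right (hq : QF F q) {ι : Type*} (s : Finset ι) (c : ι → F) (x : VV)
    (y : ι → VV) :
    hh x (∑ i ∈ s, c i • y i) = ∑ i ∈ s, frob hq (c i) * hh x (y i) := by
  classical
  induction s using Finset.induction_on with
  | empty => rw [Finset.sum_empty, Finset.sum_empty, h_zero_right hq]
  | insert a s ha ih =>
    rw [Finset.sum_insert ha, Finset.sum_insert ha, h_add_right hq, h_smul_right hq, ih]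

theorem h_span_left (S : Set VV) (a : VV) (h : ∀ s ∈ S, hh s a = 0) :
    ∀ u ∈ Submodule.span F S, hh u a = 0 := by
  intro u hu
  induction hu using Submodule.span_induction with
  | mem x hx => exact h x hx
  | zero => exact h_zero_left a
  | add x y _ _ hx hy => rw [h_add_left, hx, hy, add_zero]
  | smul c x _ hx => rw [h_smul_left, hx, mul_zero]

theorem perp_of_gen (hq : QF F q) (S : Set VV) (x : VV) (h : ∀ s ∈ S, hh x s = 0) :
    x ∈ perp q (Submodule.span F S) := by
  intro u hu
  induction hu using Submodule.span_induction with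
  | mem y hy => exact h y hy
  | zero => exact h_zero_right hq x
  | add y z _ _ hy hz => rw [h_add_right hq, hy, hz, add_zero]
  | smul c y _ hy => rw [h_smul_right hq, hy, mul_zero]

/-! ## Dual isotropic vectors -/

theorem exists_dual (hq : QF F q) : ∀ (k : ℕ) (U : Submodule F VV) (v : Fin k → VV),
    (∀ c : Fin k → F, ∑ i, c i • v i ∈ U → c = 0) → (∀ i, ∀ u ∈ U, hh u (v i) = 0) →
    (∀ i j, hh (v i) (v j) = 0) →
    ∃ v' : Fin k → VV, (∀ i, ∀ u ∈ U, hh u (v' i) = 0) ∧ (∀ i j, hh (v' i) (v' j) = 0) ∧
      (∀ i j, hh (v i) (v' j) = if i = j then 1 else 0) := by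
  intro k
  induction k with
  | zero =>
    intro U v _ _ _
    exact ⟨fun i => i.elim0, fun i => i.elim0, fun i => i.elim0, fun i => i.elim0⟩
  | succ k ih =>
    intro U v hind hUv hvv
    obtain ⟨a, ha⟩ : ∃ a : VV, a = v (Fin.last k) := ⟨_, rfl⟩
    obtain ⟨vi, hvi⟩ : ∃ vi : Fin k → VV, vi = fun i => v (Fin.castSucc i) := ⟨_, rfl⟩
    have hvi' : ∀ i, vi i = v (Fin.castSucc i) := fun i => by rw [hvi]
    have haa : hh a a = 0 := by rw [ha]; exact hvv _ _
    have hsum : ∀ d : Fin (k + 1) → F,
        ∑ i, d i • v i = ∑ i, d (Fin.castSucc i) • vi i + d (Fin.last k) • a := by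
      intro d
      rw [Fin.sum_univ_castSucc, ha]
      congr 1
      exact Finset.sum_congr rfl (fun i _ => by rw [hvi' i])
    -- the partner of `a`
    have haU' : a ∉ U ⊔ Submodule.span F (Set.range vi) := by
      intro h
      obtain ⟨u, hu, s, hs, hus⟩ := Submodule.mem_sup.1 h
      obtain ⟨c, hc⟩ := (Submodule.mem_span_range_iff_exists_fun F).1 hs
      have h1 := hind (Fin.snoc (fun i => - c i) 1) (by
        rw [hsum]
        simp only [Fin.snoc_castSucc, Fin.snoc_last, neg_smul, Finset.sum_neg_distrib, one_smul]
        rw [hc, ← hus]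
        simpa using hu)
      have h2 := congrFun h1 (Fin.last k)
      rw [Fin.snoc_last] at h2
      exact one_ne_zero h2
    have hU'a : ∀ u ∈ U ⊔ Submodule.span F (Set.range vi), hh u a = 0 := by
      intro u hu
      obtain ⟨u1, hu1, s, hs, rfl⟩ := Submodule.mem_sup.1 hu
      rw [h_add_left, ha, hUv _ u1 hu1, zero_add]
      apply h_span_left _ _ _ s hs
      rintro _ ⟨i, rfl⟩
      rw [hvi' i]
      exact hvv _ _
    obtain ⟨f, hff, hU'f, haf⟩ := exists_iso_sep hq _ a haU' hU'a haa
    have hfa : hh f a = 1 := by rw [← h_conj hq a f, haf, map_one]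
    have hUf : ∀ u ∈ U, hh u f = 0 := fun u hu => hU'f u (Submodule.mem_sup_left hu)
    have hvif : ∀ i, hh (vi i) f = 0 := fun i =>
      hU'f _ (Submodule.mem_sup_right (Submodule.subset_span ⟨i, rfl⟩))
    have hvia : ∀ i, hh (vi i) a = 0 := fun i => by rw [hvi' i, ha]; exact hvv _ _
    have havi : ∀ i, hh a (vi i) = 0 := fun i => by rw [hvi' i, ha]; exact hvv _ _
    -- the induction hypothesis
    obtain ⟨U2, hU2⟩ : ∃ U2 : Submodule F VV,
        U2 = U ⊔ Submodule.span F {a} ⊔ Submodule.span F {f} := ⟨_, rfl⟩
    have hmem : ∀ x ∈ U2, ∃ u ∈ U, ∃ α β : F, x = u + α • a + β • f := by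
      intro x hx
      rw [hU2] at hx
      obtain ⟨y, hy, z, hz, rfl⟩ := Submodule.mem_sup.1 hx
      obtain ⟨u, hu, w, hw, rfl⟩ := Submodule.mem_sup.1 hy
      obtain ⟨α, rfl⟩ := Submodule.mem_span_singleton.1 hw
      obtain ⟨β, rfl⟩ := Submodule.mem_span_singleton.1 hz
      exact ⟨u, hu, α, β, rfl⟩
    have hUle : U ≤ U2 := by
      rw [hU2]
      exact le_trans le_sup_left le_sup_left
    have haU2 : a ∈ U2 := by
      rw [hU2]
      exact Submodule.mem_sup_left (Submodule.mem_sup_right (Submodule.mem_span_singleton_self a))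
    have hfU2 : f ∈ U2 := by
      rw [hU2]
      exact Submodule.mem_sup_right (Submodule.mem_span_singleton_self f)
    have h1 : ∀ c : Fin k → F, ∑ i, c i • vi i ∈ U2 → c = 0 := by
      intro c hc
      obtain ⟨u, hu, α, β, e⟩ := hmem _ hc
      have e1 : hh (∑ i, c i • vi i) a = 0 := by
        rw [h_sum_left]
        exact Finset.sum_eq_zero (fun i _ => by rw [hvia i, mul_zero])
      have hβ : β = 0 := by
        rw [e, h_add_left, h_add_left, h_smul_left, h_smul_left, haa, hfa, ha, hUv _ u hu] at e1
        simpa using e1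
      have h2 := hind (Fin.snoc c (-α)) (by
        rw [hsum]
        simp only [Fin.snoc_castSucc, Fin.snoc_last]
        rw [e, hβ, zero_smul, add_zero, neg_smul, add_neg_cancel_right]
        exact hu)
      funext i
      have h3 := congrFun h2 (Fin.castSucc i)
      rw [Fin.snoc_castSucc] at h3
      exact h3
    have h2 : ∀ i, ∀ u ∈ U2, hh u (vi i) = 0 := by
      intro i x hx
      obtain ⟨u, hu, α, β, rfl⟩ := hmem x hx
      rw [h_add_left, h_add_left, h_smul_left, h_smul_left, havi i, h_symm0 hq (hvif i),
        hvi' i, hUv _ u hu]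
      ring
    have h3 : ∀ i j, hh (vi i) (vi j) = 0 := fun i j => by
      rw [hvi' i, hvi' j]
      exact hvv _ _
    obtain ⟨vi', hA, hB, hC⟩ := ih U2 vi h1 h2 h3
    refine ⟨Fin.snoc vi' f, ?_, ?_, ?_⟩
    · intro i u hu
      induction i using Fin.lastCases with
      | last => rw [Fin.snoc_last]; exact hUf u hu
      | cast i => rw [Fin.snoc_castSucc]; exact hA i u (hUle hu)
    · intro i j
      induction i using Fin.lastCases with
      | last =>
        induction j using Fin.lastCases with
        | last => rw [Fin.snoc_last]; exact hff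
        | cast j => rw [Fin.snoc_last, Fin.snoc_castSucc]; exact hA j f hfU2
      | cast i =>
        induction j using Fin.lastCases with
        | last => rw [Fin.snoc_last, Fin.snoc_castSucc]; exact h_symm0 hq (hA i f hfU2)
        | cast j => rw [Fin.snoc_castSucc, Fin.snoc_castSucc]; exact hB i j
    · intro i j
      induction i using Fin.lastCases with
      | last =>
        induction j using Fin.lastCases with
        | last => rw [Fin.snoc_last, if_pos rfl, ← ha]; exact haf
        | cast j =>
          rw [Fin.snoc_castSucc, if_neg (Fin.castSucc_lt_last j).ne', ← ha]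
          exact hA j a haU2
      | cast i =>
        induction j using Fin.lastCases with
        | last =>
          rw [Fin.snoc_last, if_neg (Fin.castSucc_lt_last i).ne, ← hvi' i]
          exact hvif i
        | cast j =>
          rw [Fin.snoc_castSucc, ← hvi' i, hC i j]
          by_cases hij : i = j
          · rw [if_pos hij, if_pos (by rw [hij])]
          · rw [if_neg hij, if_neg (fun h => hij (Fin.castSucc_injective k h))]

/-! ## Orthonormal families in the complement of a non-degenerate subspace -/

theorem onb_ext [Finite F] (hq : QF F q) : ∀ (j : ℕ) (U : Submodule F VV), ND q U →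
    Module.finrank F U + j ≤ n →
    ∃ u : Fin j → VV, (∀ a, u a ∈ perp q U) ∧
      (∀ a b, hh (u a) (u b) = if a = b then 1 else 0) := by
  intro j
  induction j with
  | zero =>
    intro U _ _
    exact ⟨fun i => i.elim0, fun i => i.elim0, fun i => i.elim0⟩
  | succ j ih =>
    intro U hU hd
    obtain ⟨y, hy, hyy⟩ := exists_norm_vec hq hU (by omega) 1 (map_one _)
    have hU' := ND_ext1 hq hU hy (by rw [hyy]; exact one_ne_zero)
    have hd' := finrank_ext_le U y
    obtain ⟨u', h1, h2⟩ := ih _ hU' (by omega)
    have h3 : ∀ a, hh (u' a) y = 0 := fun a => ((mem_perp_ext hq U y _).1 (h1 a)).2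
    refine ⟨Fin.snoc u' y, ?_, ?_⟩
    · intro a
      induction a using Fin.lastCases with
      | last => rw [Fin.snoc_last]; exact hy
      | cast a => rw [Fin.snoc_castSucc]; exact ((mem_perp_ext hq U y _).1 (h1 a)).1
    · intro a b
      induction a using Fin.lastCases with
      | last =>
        induction b using Fin.lastCases with
        | last => rw [Fin.snoc_last, if_pos rfl]; exact hyy
        | cast b =>
          rw [Fin.snoc_last, Fin.snoc_castSucc, if_neg (Fin.castSucc_lt_last b).ne']
          exact h_symm0 hq (h3 b)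
      | cast a =>
        induction b using Fin.lastCases with
        | last =>
          rw [Fin.snoc_last, Fin.snoc_castSucc, if_neg (Fin.castSucc_lt_last a).ne]
          exact h3 a
        | cast b =>
          rw [Fin.snoc_castSucc, Fin.snoc_castSucc, h2 a b]
          by_cases hab : a = b
          · rw [if_pos hab, if_pos (by rw [hab])]
          · rw [if_neg hab, if_neg (fun h => hab (Fin.castSucc_injective j h))]

end Cfsg.Agent.Helper8.SUW
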