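import Mathlib
import Cfsg.Prelude.Def_GeometricClasses
import Cfsg.Agent.Helper8.SUWitt1

/-!
# Witt frames: existence, coordinates, transitivity
-/

set_option autoImplicit false

namespace Cfsg.Agent.Helper8.SUW

open Matrix Cfsg.Agent.Helper2 Cfsg.Agent.Helper8.SULag Cfsg.Agent.Helper8.SUNd

variable {F : Type*} [Field F] {n q : ℕ}

local notation "VV" => (Fin n → F)
local notation "MM" => Matrix (Fin n) (Fin n) F
local notation "GG" => Matrix.GeneralLinearGroup (Fin n) F
local notation "hh" => Cfsg.hermForm n F q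

/-- A Witt frame: isotropic `v`, dual isotropic `v'`, orthonormal `u`. -/
structure WF (q : ℕ) {k m : ℕ} (v v' : Fin k → (Fin n → F)) (u : Fin m → (Fin n → F)) :
    Prop where
  vv : ∀ i j, Cfsg.hermForm n F q (v i) (v j) = 0
  ww : ∀ i j, Cfsg.hermForm n F q (v' i) (v' j) = 0
  vw : ∀ i j, Cfsg.hermForm n F q (v i) (v' j) = if i = j then 1 else 0
  vu : ∀ i a, Cfsg.hermForm n F q (v i) (u a) = 0
  wu : ∀ i a, Cfsg.hermForm n F q (v' i) (u a) = 0
  uu : ∀ a b, Cfsg.hermForm n F q (u a) (u b) = if a = b then 1 else 0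

theorem WF.wv {k m : ℕ} {v v' : Fin k → VV} {u : Fin m → VV} (hq : QF F q) (h : WF q v v' u)
    (i j : Fin k) :
    hh (v' i) (v j) = if i = j then 1 else 0 := by
  rw [← h_conj hq, h.vw]
  by_cases hij : i = j
  · rw [if_pos hij, if_pos hij.symm, map_one]
  · rw [if_neg hij, if_neg (fun e => hij e.symm), map_zero]

theorem WF.uv {k m : ℕ} {v v' : Fin k → VV} {u : Fin m → VV} (hq : QF F q) (h : WF q v v' u)
    (a : Fin m) (i : Fin k) : hh (u a) (v i) = 0 :=
  h_symm0 hq (h.vu i a)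

theorem WF.uw {k m : ℕ} {v v' : Fin k → VV} {u : Fin m → VV} (hq : QF F q) (h : WF q v v' u)
    (a : Fin m) (i : Fin k) : hh (u a) (v' i) = 0 :=
  h_symm0 hq (h.wu i a)

/-- Every isotropic frame extends to a Witt frame. -/
theorem exists_witt [Finite F] (hq : QF F q) (k m : ℕ) (hn : k + k + m = n) (v : Fin k → VV)
    (hv : LinearIndependent F v) (hvv : ∀ i j, hh (v i) (v j) = 0) :
    ∃ (v' : Fin k → VV) (u : Fin m → VV), WF q v v' u := by
  classical
  obtain ⟨v', -, hww, hvw⟩ := exists_dual hq k ⊥ v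
    (fun c hc => funext (fun i => Fintype.linearIndependent_iff.1 hv c
      ((Submodule.mem_bot F).1 hc) i))
    (fun i u hu => by rw [(Submodule.mem_bot F).1 hu]; exact h_zero_left _) hvv
  have hwv : ∀ i j, hh (v' i) (v j) = if i = j then 1 else 0 := by
    intro i j
    rw [← h_conj hq, hvw]
    by_cases hij : i = j
    · rw [if_pos hij, if_pos hij.symm, map_one]
    · rw [if_neg hij, if_neg (fun e => hij e.symm), map_zero]
  obtain ⟨H, hH⟩ : ∃ H : Submodule F VV,
      H = Submodule.span F (Set.range v ∪ Set.range v') := ⟨_, rfl⟩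
  have hND : ND q H := by
    intro x
    refine ⟨∑ i, hh x (v' i) • v i + ∑ i, hh x (v i) • v' i, ?_, ?_⟩
    · rw [hH]
      apply Submodule.add_mem
      · exact Submodule.sum_mem _ (fun i _ => Submodule.smul_mem _ _
          (Submodule.subset_span (Or.inl ⟨i, rfl⟩)))
      · exact Submodule.sum_mem _ (fun i _ => Submodule.smul_mem _ _
          (Submodule.subset_span (Or.inr ⟨i, rfl⟩)))
    · rw [hH]
      apply perp_of_gen hq
      rintro s (⟨j, rfl⟩ | ⟨j, rfl⟩)
      · rw [h_sub_left, h_add_left, h_sum_left, h_sum_left]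
        simp only [hvv, hwv, mul_zero, Finset.sum_const_zero, zero_add, mul_ite, mul_one,
          Finset.sum_ite_eq', Finset.mem_univ, if_true, sub_self]
      · rw [h_sub_left, h_add_left, h_sum_left, h_sum_left]
        simp only [hww, hvw, mul_zero, Finset.sum_const_zero, add_zero, mul_ite, mul_one,
          Finset.sum_ite_eq', Finset.mem_univ, if_true, sub_self]
  have hfin : Module.finrank F H ≤ k + k := by
    rw [hH, Submodule.span_union]
    have h1 := Submodule.finrank_add_le_finrank_add_finrank (Submodule.span F (Set.range v))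
      (Submodule.span F (Set.range v'))
    have h2 := finrank_range_le_card (R := F) v
    have h3 := finrank_range_le_card (R := F) v'
    rw [Fintype.card_fin] at h2 h3
    unfold Set.finrank at h2 h3
    omega
  obtain ⟨u, hu1, hu2⟩ := onb_ext hq m H hND (by omega)
  refine ⟨v', u, ⟨hvv, hww, hvw, ?_, ?_, hu2⟩⟩
  · intro i a
    apply h_symm0 hq
    refine hu1 a _ ?_
    rw [hH]
    exact Submodule.subset_span (Or.inl ⟨i, rfl⟩)
  · intro i a
    apply h_symm0 hq
    refine hu1 a _ ?_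
    rw [hH]
    exact Submodule.subset_span (Or.inr ⟨i, rfl⟩)

/-! ## Coordinates -/

/-- The coordinate map of a frame. -/
noncomputable def Phi {k m : ℕ} (v v' : Fin k → (Fin n → F)) (u : Fin m → (Fin n → F)) :
    ((Fin k → F) × (Fin k → F) × (Fin m → F)) →ₗ[F] (Fin n → F) :=
  (Fintype.linearCombination F v).coprod
    ((Fintype.linearCombination F v').coprod (Fintype.linearCombination F u))

theorem Phi_apply {k m : ℕ} (v v' : Fin k → VV) (u : Fin m → VV) (p : (Fin k → F) × (Fin k → F) × (Fin m → F)) :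
    Phi v v' u p = ∑ i, p.1 i • v i + (∑ i, p.2.1 i • v' i + ∑ a, p.2.2 a • u a) := by
  unfold Phi
  rw [LinearMap.coprod_apply, LinearMap.coprod_apply, Fintype.linearCombination_apply,
    Fintype.linearCombination_apply, Fintype.linearCombination_apply]

theorem Phi_e1 {k m : ℕ} (v v' : Fin k → VV) (u : Fin m → VV) (i : Fin k) : Phi v v' u (Pi.single i 1, 0, 0) = v i := by
  classical
  rw [Phi_apply]
  simp [Pi.single_apply]

theorem Phi_e2 {k m : ℕ} (v v' : Fin k → VV) (u : Fin m → VV) (i : Fin k) : Phi v v' u (0, Pi.single i 1, 0) = v' i := by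
  classical
  rw [Phi_apply]
  simp [Pi.single_apply]

theorem Phi_e3 {k m : ℕ} (v v' : Fin k → VV) (u : Fin m → VV) (a : Fin m) : Phi v v' u (0, 0, Pi.single a 1) = u a := by
  classical
  rw [Phi_apply]
  simp [Pi.single_apply]

theorem Phi_v {k m : ℕ} {v v' : Fin k → VV} {u : Fin m → VV} (hq : QF F q) (h : WF q v v' u) (p : (Fin k → F) × (Fin k → F) × (Fin m → F))
    (j : Fin k) : hh (Phi v v' u p) (v j) = p.2.1 j := by
  classical
  rw [Phi_apply, h_add_left, h_add_left, h_sum_left, h_sum_left, h_sum_left]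
  simp only [h.vv, h.wv hq, h.uv hq, mul_zero, Finset.sum_const_zero, zero_add, add_zero,
    mul_ite, mul_one, Finset.sum_ite_eq', Finset.mem_univ, if_true]

theorem Phi_w {k m : ℕ} {v v' : Fin k → VV} {u : Fin m → VV} (hq : QF F q) (h : WF q v v' u) (p : (Fin k → F) × (Fin k → F) × (Fin m → F))
    (j : Fin k) : hh (Phi v v' u p) (v' j) = p.1 j := by
  classical
  rw [Phi_apply, h_add_left, h_add_left, h_sum_left, h_sum_left, h_sum_left]
  simp only [h.ww, h.vw, h.uw hq, mul_zero, Finset.sum_const_zero, zero_add, add_zero,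
    mul_ite, mul_one, Finset.sum_ite_eq', Finset.mem_univ, if_true]

theorem Phi_u {k m : ℕ} {v v' : Fin k → VV} {u : Fin m → VV} (hq : QF F q) (h : WF q v v' u) (p : (Fin k → F) × (Fin k → F) × (Fin m → F))
    (b : Fin m) : hh (Phi v v' u p) (u b) = p.2.2 b := by
  classical
  rw [Phi_apply, h_add_left, h_add_left, h_sum_left, h_sum_left, h_sum_left]
  simp only [h.vu, h.wu, h.uu, mul_zero, Finset.sum_const_zero, zero_add, add_zero,
    mul_ite, mul_one, Finset.sum_ite_eq', Finset.mem_univ, if_true]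

theorem Phi_herm {k m : ℕ} {v v' : Fin k → VV} {u : Fin m → VV} (hq : QF F q) (h : WF q v v' u)
    (p p' : (Fin k → F) × (Fin k → F) × (Fin m → F)) :
    hh (Phi v v' u p) (Phi v v' u p') = ∑ i, p.1 i * frob hq (p'.2.1 i)
      + ∑ i, p.2.1 i * frob hq (p'.1 i) + ∑ a, p.2.2 a * frob hq (p'.2.2 a) := by
  rw [Phi_apply v v' u p', h_add_right hq, h_add_right hq, h_sum_right hq, h_sum_right hq,
    h_sum_right hq]
  simp only [Phi_v hq h, Phi_w hq h, Phi_u hq h]
  have e1 : ∑ i, frob hq (p'.1 i) * p.2.1 i = ∑ i, p.2.1 i * frob hq (p'.1 i) :=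
    Finset.sum_congr rfl (fun i _ => mul_comm _ _)
  have e2 : ∑ i, frob hq (p'.2.1 i) * p.1 i = ∑ i, p.1 i * frob hq (p'.2.1 i) :=
    Finset.sum_congr rfl (fun i _ => mul_comm _ _)
  have e3 : ∑ a, frob hq (p'.2.2 a) * p.2.2 a = ∑ a, p.2.2 a * frob hq (p'.2.2 a) :=
    Finset.sum_congr rfl (fun i _ => mul_comm _ _)
  rw [e1, e2, e3]
  ring

theorem Phi_inj {k m : ℕ} {v v' : Fin k → VV} {u : Fin m → VV} (hq : QF F q) (h : WF q v v' u) : Function.Injective (Phi v v' u) := by
  intro p p' e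
  refine Prod.ext (funext fun j => ?_) (Prod.ext (funext fun j => ?_) (funext fun b => ?_))
  · rw [← Phi_w hq h p j, ← Phi_w hq h p' j, e]
  · rw [← Phi_v hq h p j, ← Phi_v hq h p' j, e]
  · rw [← Phi_u hq h p b, ← Phi_u hq h p' b, e]

theorem Phi_bij [Finite F] {k m : ℕ} {v v' : Fin k → VV} {u : Fin m → VV} (hq : QF F q) (hn : k + k + m = n) (h : WF q v v' u) :
    Function.Bijective (Phi v v' u) := by
  apply (Phi_inj hq h).bijective_of_nat_card_le
  rw [Nat.card_prod, Nat.card_prod, Nat.card_fun, Nat.card_fun, Nat.card_fun, Nat.card_fin,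
    Nat.card_fin, Nat.card_fin, ← pow_add, ← pow_add, ← add_assoc, hn]

theorem Phi_surj [Finite F] {k m : ℕ} {v v' : Fin k → VV} {u : Fin m → VV} (hq : QF F q) (hn : k + k + m = n) (h : WF q v v' u) (x : VV) :
    ∃ p, Phi v v' u p = x :=
  (Phi_bij hq hn h).2 x

/-! ## Isometries -/

theorem exists_gu (hq : QF F q) (T : VV →ₗ[F] VV) (hT : ∀ x y, hh (T x) (T y) = hh x y) :
    ∃ g : GG, g ∈ Cfsg.GU n F q ∧ ∀ x, (g : MM) *ᵥ x = T x := by
  classical
  obtain ⟨M, hM⟩ : ∃ M : MM, ∀ x, M *ᵥ x = T x :=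
    ⟨LinearMap.toMatrix' T, fun x => by rw [← Matrix.toLin'_apply, Matrix.toLin'_toMatrix']⟩
  have hinj : Function.Injective M.mulVec := by
    intro x x' hxx
    have h1 : T x = T x' := by rw [← hM, ← hM]; exact hxx
    have h2 : x - x' = 0 := by
      apply h_nondeg hq
      intro y
      rw [← hT, map_sub, h1, sub_self, h_zero_left]
    exact sub_eq_zero.1 h2
  have hU : IsUnit M := Matrix.mulVec_injective_iff_isUnit.1 hinj
  refine ⟨hU.unit, ?_, ?_⟩
  · intro x y
    show hh ((hU.unit : MM) *ᵥ x) ((hU.unit : MM) *ᵥ y) = hh x y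
    rw [IsUnit.unit_spec, hM, hM, hT]
  · intro x
    rw [IsUnit.unit_spec, hM]

/-- `GU_n(q)` is transitive on Witt frames. -/
theorem witt_trans [Finite F] (hq : QF F q) {k m : ℕ} (hn : k + k + m = n)
    {v v' : Fin k → VV} {u : Fin m → VV} {w w' : Fin k → VV} {z : Fin m → VV}
    (h1 : WF q v v' u) (h2 : WF q w w' z) :
    ∃ g : GG, g ∈ Cfsg.GU n F q ∧ (∀ i, (g : MM) *ᵥ v i = w i) ∧
      (∀ i, (g : MM) *ᵥ v' i = w' i) ∧ (∀ a, (g : MM) *ᵥ u a = z a) := by
  classical
  obtain ⟨e, he⟩ : ∃ e : ((Fin k → F) × (Fin k → F) × (Fin m → F)) ≃ₗ[F] VV,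
      ∀ p, e p = Phi v v' u p :=
    ⟨LinearEquiv.ofBijective (Phi v v' u) (Phi_bij hq hn h1), fun p => rfl⟩
  obtain ⟨T, hT⟩ : ∃ T : VV →ₗ[F] VV, ∀ x, T x = Phi w w' z (e.symm x) :=
    ⟨(Phi w w' z).comp e.symm.toLinearMap, fun x => rfl⟩
  have hiso : ∀ x y, hh (T x) (T y) = hh x y := by
    intro x y
    rw [hT, hT, Phi_herm hq h2]
    conv_rhs => rw [← e.apply_symm_apply x, ← e.apply_symm_apply y, he, he, Phi_herm hq h1]
  obtain ⟨g, hg, hgT⟩ := exists_gu hq T hiso
  refine ⟨g, hg, fun i => ?_, fun i => ?_, fun a => ?_⟩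
  · rw [hgT, hT]
    have e1 : e.symm (v i) = (Pi.single i 1, 0, 0) := by
      rw [LinearEquiv.symm_apply_eq, he, Phi_e1]
    rw [e1, Phi_e1]
  · rw [hgT, hT]
    have e1 : e.symm (v' i) = (0, Pi.single i 1, 0) := by
      rw [LinearEquiv.symm_apply_eq, he, Phi_e2]
    rw [e1, Phi_e2]
  · rw [hgT, hT]
    have e1 : e.symm (u a) = (0, 0, Pi.single a 1) := by
      rw [LinearEquiv.symm_apply_eq, he, Phi_e3]
    rw [e1, Phi_e3]

end Cfsg.Agent.Helper8.SUW
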