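import Mathlib
import Cfsg.Prelude.Def_GeometricClasses
import Cfsg.Agent.Helper8.SUWitt2

/-!
# Counting isotropic frames and frame stabilisers in `GU_n(q)`
-/

set_option autoImplicit false

namespace Cfsg.Agent.Helper8.SUW

open Matrix Cfsg.Agent.Helper2 Cfsg.Agent.Helper8.SULag Cfsg.Agent.Helper8.SUNd

/-! ## Generic counting lemmas -/

theorem card_split {G X : Type*} [Group G] (S : Subgroup G) (P : Set G) (f : G → X) (Y : Set X)
    (h1 : ∀ g ∈ S, ∀ p ∈ P, g * p ∈ S) (h2 : ∀ g ∈ S, ∀ p ∈ P, f (g * p) = f g)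
    (h3 : ∀ g ∈ S, ∀ h ∈ S, f g = f h → g⁻¹ * h ∈ P) (h4 : ∀ g ∈ S, f g ∈ Y)
    (h5 : ∀ y ∈ Y, ∃ g ∈ S, f g = y) : Nat.card S = Nat.card Y * Nat.card P := by
  classical
  choose gy hgy using (fun y : Y => h5 y.1 y.2)
  have e : ↥S ≃ ↥Y × ↥P :=
    { toFun := fun s => (⟨f s.1, h4 s.1 s.2⟩, ⟨(gy ⟨f s.1, h4 s.1 s.2⟩)⁻¹ * s.1,
        h3 _ (hgy _).1 s.1 s.2 (hgy _).2⟩)
      invFun := fun yp => ⟨gy yp.1 * yp.2.1, h1 _ (hgy yp.1).1 _ yp.2.2⟩
      left_inv := fun s => Subtype.ext (mul_inv_cancel_left _ _)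
      right_inv := by
        rintro ⟨y, p⟩
        have e1 : (⟨f (gy y * p.1), h4 _ (h1 _ (hgy y).1 _ p.2)⟩ : Y) = y :=
          Subtype.ext ((h2 _ (hgy y).1 _ p.2).trans (hgy y).2)
        refine Prod.ext e1 (Subtype.ext ?_)
        show (gy ⟨f (gy y * p.1), h4 _ (h1 _ (hgy y).1 _ p.2)⟩)⁻¹ * (gy y * p.1) = p.1
        rw [e1, inv_mul_cancel_left] }
  rw [Nat.card_congr e, Nat.card_prod]

theorem card_fiber {A B : Type*} [Finite A] [Finite B] (f : A → B) (c : ℕ)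
    (h : ∀ b, Nat.card {a // f a = b} = c) : Nat.card A = Nat.card B * c := by
  classical
  haveI := Fintype.ofFinite B
  rw [Nat.card_congr (Equiv.sigmaFiberEquiv f).symm, Nat.card_sigma]
  simp only [h, Finset.sum_const, Finset.card_univ, smul_eq_mul, Nat.card_eq_fintype_card]

variable {F : Type*} [Field F] {n q : ℕ}

local notation "VV" => (Fin n → F)
local notation "MM" => Matrix (Fin n) (Fin n) F
local notation "GG" => Matrix.GeneralLinearGroup (Fin n) F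
local notation "hh" => Cfsg.hermForm n F q

theorem gl_mul_mulVec (g h : GG) (x : VV) :
    ((g * h : GG) : MM) *ᵥ x = (g : MM) *ᵥ ((h : MM) *ᵥ x) := by
  rw [Units.val_mul, Matrix.mulVec_mulVec]

theorem gl_mulVec_lin (g : GG) {k : ℕ} (c : Fin k → F) (x : Fin k → VV) :
    (g : MM) *ᵥ (∑ i, c i • x i) = ∑ i, c i • ((g : MM) *ᵥ x i) := by
  rw [Matrix.mulVec_sum]
  exact Finset.sum_congr rfl (fun i _ => Matrix.mulVec_smul _ _ _)

/-- The frame map. -/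
def fr {k : ℕ} (v0 : Fin k → (Fin n → F)) (g : Matrix.GeneralLinearGroup (Fin n) F) :
    Fin k → (Fin n → F) :=
  fun i => (g : Matrix (Fin n) (Fin n) F) *ᵥ v0 i

/-- The elements of `GU` fixing a frame. -/
def PW (q : ℕ) {k : ℕ} (v0 : Fin k → (Fin n → F)) : Set (Matrix.GeneralLinearGroup (Fin n) F) :=
  {g | g ∈ Cfsg.GU n F q ∧ ∀ i, (g : Matrix (Fin n) (Fin n) F) *ᵥ v0 i = v0 i}

/-- The isotropic frames. -/
def YY (n : ℕ) (F : Type*) [Field F] (q k : ℕ) : Set (Fin k → (Fin n → F)) :=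
  {x | LinearIndependent F x ∧ ∀ i j, Cfsg.hermForm n F q (x i) (x j) = 0}

theorem fr_mul_PW {k : ℕ} (v0 : Fin k → VV) (g p : GG) (hp : p ∈ PW q v0) :
    fr v0 (g * p) = fr v0 g := by
  funext i
  show ((g * p : GG) : MM) *ᵥ v0 i = (g : MM) *ᵥ v0 i
  rw [gl_mul_mulVec, hp.2 i]

theorem fr_eq_PW {k : ℕ} (v0 : Fin k → VV) (g h : GG) (hg : g ∈ Cfsg.GU n F q)
    (hh' : h ∈ Cfsg.GU n F q) (e : fr v0 g = fr v0 h) : g⁻¹ * h ∈ PW q v0 := by
  refine ⟨Subgroup.mul_mem _ (Subgroup.inv_mem _ hg) hh', fun i => ?_⟩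
  have e1 : (g : MM) *ᵥ v0 i = (h : MM) *ᵥ v0 i := congrFun e i
  rw [gl_mul_mulVec, ← e1, Parab.inv_mulVec_mulVec]

theorem fr_li {k : ℕ} (v0 : Fin k → VV) (hv0 : LinearIndependent F v0) (g : GG) :
    LinearIndependent F (fr v0 g) := by
  have h1 := hv0.map' (Matrix.mulVecLin (g : MM)) (by
    rw [LinearMap.ker_eq_bot]
    intro a b hab
    exact Parab.gl_mulVec_inj g hab)
  exact h1

theorem fr_YY {k : ℕ} (v0 : Fin k → VV) (hv0 : v0 ∈ YY n F q k) (g : GG)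
    (hg : g ∈ Cfsg.GU n F q) : fr v0 g ∈ YY n F q k :=
  ⟨fr_li v0 hv0.1 g, fun i j => by
    show hh ((g : MM) *ᵥ v0 i) ((g : MM) *ᵥ v0 j) = 0
    rw [h_map hg]
    exact hv0.2 i j⟩

theorem exists_fr [Finite F] (hq : QF F q) {k m : ℕ} (hn : k + k + m = n) (v0 : Fin k → VV)
    (hv0 : v0 ∈ YY n F q k) (y : Fin k → VV) (hy : y ∈ YY n F q k) :
    ∃ g ∈ Cfsg.GU n F q, fr v0 g = y := by
  obtain ⟨v0', u0, h0⟩ := exists_witt hq k m hn v0 hv0.1 hv0.2
  obtain ⟨y', z, h1⟩ := exists_witt hq k m hn y hy.1 hy.2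
  obtain ⟨g, hg, hgv, -, -⟩ := witt_trans hq hn h0 h1
  exact ⟨g, hg, funext hgv⟩

/-- `|GU_n(q)| = #(isotropic k-frames) · #(frame stabiliser)`. -/
theorem card_gu_split [Finite F] (hq : QF F q) {k m : ℕ} (hn : k + k + m = n)
    (v0 : Fin k → VV) (hv0 : v0 ∈ YY n F q k) :
    Nat.card (Cfsg.GU n F q) = Nat.card (YY n F q k) * Nat.card (PW q v0) := by
  apply card_split (Cfsg.GU n F q) (PW q v0) (fr v0) (YY n F q k)
  · intro g hg p hp
    exact Subgroup.mul_mem _ hg hp.1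
  · intro g _ p hp
    exact fr_mul_PW v0 g p hp
  · intro g hg h hh' e
    exact fr_eq_PW v0 g h hg hh' e
  · intro g hg
    exact fr_YY v0 hv0 g hg
  · intro y hy
    exact exists_fr hq hn v0 hv0 y hy

/-- `|Stab_GU(W)| = #(bases of W) · #(frame stabiliser)`. -/
theorem card_stab_split [Finite F] (hq : QF F q) {k m : ℕ} (hn : k + k + m = n)
    (W : Submodule F VV) (hW : ∀ u ∈ W, ∀ v ∈ W, hh u v = 0)
    (v0 : Fin k → VV) (hv0 : LinearIndependent F v0)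
    (hspan : Submodule.span F (Set.range v0) = W) :
    Nat.card ↥(Cfsg.GU n F q ⊓ Cfsg.stabilizing (Cfsg.glToMat (Fin n) F) (W : Set VV))
      = Nat.card ({x | LinearIndependent F x ∧ ∀ i, x i ∈ W} : Set (Fin k → VV))
        * Nat.card (PW q v0) := by
  have hv0W : ∀ i, v0 i ∈ W := fun i => by
    rw [← hspan]
    exact Submodule.subset_span ⟨i, rfl⟩
  have hv0Y : v0 ∈ YY n F q k := ⟨hv0, fun i j => hW _ (hv0W i) _ (hv0W j)⟩
  have hmaps : ∀ g : GG, (∀ i, (g : MM) *ᵥ v0 i ∈ W) →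
      g ∈ Cfsg.stabilizing (Cfsg.glToMat (Fin n) F) (W : Set VV) := by
    intro g hg
    apply stab_of_maps_fin
    intro w hw
    rw [SetLike.mem_coe, ← hspan] at hw
    obtain ⟨c, rfl⟩ := (Submodule.mem_span_range_iff_exists_fun F).1 hw
    rw [gl_mulVec_lin]
    exact Submodule.sum_mem _ (fun i _ => Submodule.smul_mem _ _ (hg i))
  apply card_split _ (PW q v0) (fr v0)
  · intro g hg p hp
    refine Subgroup.mul_mem _ hg (Subgroup.mem_inf.2 ⟨hp.1, hmaps p (fun i => ?_)⟩)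
    rw [hp.2 i]
    exact hv0W i
  · intro g _ p hp
    exact fr_mul_PW v0 g p hp
  · intro g hg h hh' e
    exact fr_eq_PW v0 g h (Subgroup.mem_inf.1 hg).1 (Subgroup.mem_inf.1 hh').1 e
  · intro g hg
    refine ⟨fr_li v0 hv0 g, fun i => ?_⟩
    exact ((Parab.mem_stab_iff _ g).1 (Subgroup.mem_inf.1 hg).2 (v0 i)).1 (hv0W i)
  · intro y hy
    obtain ⟨g, hg, e⟩ := exists_fr hq hn v0 hv0Y y
      ⟨hy.1, fun i j => hW _ (hy.2 i) _ (hy.2 j)⟩
    refine ⟨g, Subgroup.mem_inf.2 ⟨hg, hmaps g (fun i => ?_)⟩, e⟩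
    have e1 : (g : MM) *ᵥ v0 i = y i := congrFun e i
    rw [e1]
    exact hy.2 i

/-- The number of bases of a `k`-dimensional subspace. -/
theorem card_bases [Fintype F] (hF : Fintype.card F = q ^ 2) (W : Submodule F VV) (k : ℕ)
    (hWk : Module.finrank F W = k) :
    Nat.card ({x | LinearIndependent F x ∧ ∀ i, x i ∈ W} : Set (Fin k → VV))
      = ∏ i : Fin k, ((q ^ 2) ^ k - (q ^ 2) ^ (i : ℕ)) := by
  have h1 := card_linearIndependent (K := F) (V := W) (k := k) (by rw [hWk])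
  rw [hF, hWk] at h1
  rw [← h1]
  apply Nat.card_congr
  exact
    { toFun := fun x => ⟨fun i => ⟨x.1 i, x.2.2 i⟩,
        LinearIndependent.of_comp W.subtype x.2.1⟩
      invFun := fun s => ⟨fun i => (s.1 i : VV),
        s.2.map' W.subtype (Submodule.ker_subtype W), fun i => (s.1 i).2⟩
      left_inv := fun x => rfl
      right_inv := fun s => rfl }

end Cfsg.Agent.Helper8.SUW
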