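import Mathlib
import Cfsg.Prelude.Def_GeometricClasses
import Cfsg.Agent.Helper8.SUWitt3

/-!
# The number of isotropic frames
-/

set_option autoImplicit false

namespace Cfsg.Agent.Helper8.SUW

open Matrix Cfsg.Agent.Helper2 Cfsg.Agent.Helper8.SULag Cfsg.Agent.Helper8.SUNd

variable {F : Type*} [Field F] {n q : ℕ}

local notation "VV" => (Fin n → F)
local notation "MM" => Matrix (Fin n) (Fin n) F
local notation "GG" => Matrix.GeneralLinearGroup (Fin n) F
local notation "hh" => Cfsg.hermForm n F q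

/-- Vectors completing an isotropic frame. -/
def ZZ (q : ℕ) {k : ℕ} (x : Fin k → (Fin n → F)) : Set (Fin n → F) :=
  {y | y ∉ Submodule.span F (Set.range x) ∧ Cfsg.hermForm n F q y y = 0 ∧
    ∀ i, Cfsg.hermForm n F q y (x i) = 0}

theorem init_mem_YY {k : ℕ} (y : Fin (k + 1) → VV) (hy : y ∈ YY n F q (k + 1)) :
    Fin.init y ∈ YY n F q k ∧ y (Fin.last k) ∈ ZZ q (Fin.init y) := by
  have h1 : LinearIndependent F (Fin.snoc (Fin.init y) (y (Fin.last k)) : Fin (k + 1) → VV) := by
    rw [Fin.snoc_init_self]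
    exact hy.1
  have h2 := linearIndependent_fin_snoc.1 h1
  exact ⟨⟨h2.1, fun i j => hy.2 _ _⟩, h2.2, hy.2 _ _, fun i => hy.2 _ _⟩

theorem snoc_mem_YY (hq : QF F q) {k : ℕ} (x : Fin k → VV) (hx : x ∈ YY n F q k) (z : VV)
    (hz : z ∈ ZZ q x) : (Fin.snoc x z : Fin (k + 1) → VV) ∈ YY n F q (k + 1) := by
  refine ⟨linearIndependent_fin_snoc.2 ⟨hx.1, hz.1⟩, fun i j => ?_⟩
  induction i using Fin.lastCases with
  | last =>
    induction j using Fin.lastCases with
    | last => rw [Fin.snoc_last]; exact hz.2.1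
    | cast j => rw [Fin.snoc_last, Fin.snoc_castSucc]; exact hz.2.2 j
  | cast i =>
    induction j using Fin.lastCases with
    | last => rw [Fin.snoc_last, Fin.snoc_castSucc]; exact h_symm0 hq (hz.2.2 i)
    | cast j => rw [Fin.snoc_castSucc, Fin.snoc_castSucc]; exact hx.2 i j

theorem init_snoc' {k : ℕ} (x : Fin k → VV) (z : VV) :
    Fin.init (Fin.snoc x z : Fin (k + 1) → VV) = x := by
  funext i
  show (Fin.snoc x z : Fin (k + 1) → VV) (Fin.castSucc i) = x i
  rw [Fin.snoc_castSucc]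

theorem card_YY_succ_aux [Finite F] (hq : QF F q) (k : ℕ) (c : ℕ)
    (h : ∀ x ∈ YY n F q k, Nat.card (ZZ q x) = c) :
    Nat.card (YY n F q (k + 1)) = Nat.card (YY n F q k) * c := by
  classical
  apply card_fiber (fun y : ↥(YY n F q (k + 1)) =>
    (⟨Fin.init y.1, (init_mem_YY y.1 y.2).1⟩ : ↥(YY n F q k)))
  intro b
  rw [← h b.1 b.2]
  apply Nat.card_congr
  exact
    { toFun := fun a => ⟨a.1.1 (Fin.last k), by
        have hb : Fin.init a.1.1 = b.1 := congrArg Subtype.val a.2
        have h1 := (init_mem_YY a.1.1 a.1.2).2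
        rw [hb] at h1
        exact h1⟩
      invFun := fun z => ⟨⟨Fin.snoc b.1 z.1, snoc_mem_YY hq b.1 b.2 z.1 z.2⟩,
        Subtype.ext (init_snoc' b.1 z.1)⟩
      left_inv := fun a => by
        have hb : Fin.init a.1.1 = b.1 := congrArg Subtype.val a.2
        apply Subtype.ext
        apply Subtype.ext
        show Fin.snoc b.1 (a.1.1 (Fin.last k)) = a.1.1
        rw [← hb]
        exact Fin.snoc_init_self _
      right_inv := fun z => by
        apply Subtype.ext
        show (Fin.snoc b.1 z.1 : Fin (k + 1) → VV) (Fin.last k) = z.1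
        rw [Fin.snoc_last] }

theorem card_ZZ [Finite F] (hq : QF F q) {k m : ℕ} (hn : k + k + m = n) (x : Fin k → VV)
    (hx : x ∈ YY n F q k) :
    Nat.card (ZZ q x) = Nat.card F ^ k *
      Nat.card {c : Fin m → F // Cfsg.hermForm m F q c c = 0 ∧ c ≠ 0} := by
  classical
  obtain ⟨x', u, hw⟩ := exists_witt hq k m hn x hx.1 hx.2
  have hmem : ∀ (a : Fin k → F) (c : Fin m → F), Cfsg.hermForm m F q c c = 0 → c ≠ 0 →
      Phi x x' u (a, 0, c) ∈ ZZ q x := by
    intro a c hc hc0
    refine ⟨?_, ?_, ?_⟩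
    · intro hmem
      obtain ⟨d, hd⟩ := (Submodule.mem_span_range_iff_exists_fun F).1 hmem
      have e1 : Phi x x' u (d, 0, 0) = Phi x x' u (a, 0, c) := by
        rw [← hd, Phi_apply]
        simp
      have e2 := Phi_inj hq hw e1
      exact hc0 (congrArg (fun p => p.2.2) e2).symm
    · rw [Phi_herm hq hw]
      dsimp only
      simp only [Pi.zero_apply, map_zero, mul_zero, zero_mul, Finset.sum_const_zero, zero_add,
        frob_apply]
      exact hc
    · intro i
      rw [Phi_v hq hw]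
      rfl
  obtain ⟨Ψ, hΨ⟩ : ∃ Ψ : (Fin k → F) × {c : Fin m → F // Cfsg.hermForm m F q c c = 0 ∧ c ≠ 0}
      → ↥(ZZ q x), ∀ p, (Ψ p).1 = Phi x x' u (p.1, 0, p.2.1) :=
    ⟨fun p => ⟨Phi x x' u (p.1, 0, p.2.1), hmem p.1 p.2.1 p.2.2.1 p.2.2.2⟩, fun p => rfl⟩
  have hinj : Function.Injective Ψ := by
    rintro ⟨a, c⟩ ⟨a', c'⟩ e
    have e1 : Phi x x' u (a, 0, c.1) = Phi x x' u (a', 0, c'.1) := by
      rw [← hΨ (a, c), ← hΨ (a', c'), e]
    have e2 := Phi_inj hq hw e1
    exact Prod.ext (congrArg (fun p => p.1) e2) (Subtype.ext (congrArg (fun p => p.2.2) e2))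
  have hsurj : Function.Surjective Ψ := by
    intro y
    obtain ⟨p, hp⟩ := Phi_surj hq hn hw y.1
    have h21 : p.2.1 = 0 := by
      funext i
      rw [← Phi_v hq hw p i, hp]
      exact y.2.2.2 i
    have hpe : p = (p.1, 0, p.2.2) := Prod.ext rfl (Prod.ext h21 rfl)
    have hc : Cfsg.hermForm m F q p.2.2 p.2.2 = 0 := by
      have h1 := y.2.2.1
      rw [← hp, hpe, Phi_herm hq hw] at h1
      dsimp only at h1
      simp only [Pi.zero_apply, map_zero, mul_zero, zero_mul, Finset.sum_const_zero, zero_add,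
        frob_apply] at h1
      exact h1
    have hc0 : p.2.2 ≠ 0 := by
      intro h0
      apply y.2.1
      rw [← hp, hpe, h0]
      apply (Submodule.mem_span_range_iff_exists_fun F).2
      refine ⟨p.1, ?_⟩
      rw [Phi_apply]
      simp
    refine ⟨(p.1, ⟨p.2.2, hc, hc0⟩), Subtype.ext ?_⟩
    rw [hΨ, ← hp]
    exact congrArg _ hpe.symm
  rw [← Nat.card_congr (Equiv.ofBijective Ψ ⟨hinj, hsurj⟩), Nat.card_prod, Nat.card_fun,
    Nat.card_fin]

theorem card_iso_ne [Fintype F] (m : ℕ) :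
    Nat.card {c : Fin m → F // Cfsg.hermForm m F q c c = 0 ∧ c ≠ 0} + 1
      = Nat.card {c : Fin m → F // Cfsg.hermForm m F q c c = 0} := by
  classical
  rw [Nat.card_eq_fintype_card, Nat.card_eq_fintype_card, Fintype.card_subtype,
    Fintype.card_subtype]
  have h0 : Cfsg.hermForm m F q (0 : Fin m → F) 0 = 0 := h_zero_left 0
  have e : (Finset.univ.filter (fun c : Fin m → F => Cfsg.hermForm m F q c c = 0 ∧ c ≠ 0))
      = (Finset.univ.filter (fun c : Fin m → F => Cfsg.hermForm m F q c c = 0)).erase 0 := by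
    ext c
    simp only [Finset.mem_filter, Finset.mem_univ, true_and, Finset.mem_erase]
    exact and_comm
  have hm : (0 : Fin m → F) ∈ Finset.univ.filter
      (fun c : Fin m → F => Cfsg.hermForm m F q c c = 0) := by
    simp only [Finset.mem_filter, Finset.mem_univ, true_and]
    exact h0
  rw [e, Finset.card_erase_of_mem hm, Nat.sub_add_cancel]
  exact Finset.card_pos.2 ⟨0, hm⟩

theorem card_iso_two [Fintype F] (hF : Fintype.card F = q ^ 2) (m : ℕ) :
    Nat.card {c : Fin (m + 2) → F // Cfsg.hermForm (m + 2) F q c c = 0 ∧ c ≠ 0}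
      = (if Even m then q ^ (m + 1) + 1 else q ^ (m + 1) - 1)
        * (if Even (m + 1) then q ^ (m + 1 + 1) + 1 else q ^ (m + 1 + 1) - 1) := by
  have h1 := card_iso_ne (F := F) (q := q) (m + 2)
  rw [S0285.result hF (m + 2)] at h1
  have h2 := Nat.add_right_cancel h1
  rw [h2]
  rcases Nat.even_or_odd m with he | ho
  · have h3 : Even (m + 2) := he.add (by decide)
    have h4 : ¬ Even (m + 1) := Nat.not_even_iff_odd.2 he.add_one
    rw [if_pos h3, if_pos he, if_neg h4]
    exact mul_comm _ _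
  · have h3 : ¬ Even (m + 2) := by
      rw [Nat.not_even_iff_odd]
      exact ho.add_even (by decide)
    have h4 : Even (m + 1) := ho.add_one
    have h5 : ¬ Even m := Nat.not_even_iff_odd.2 ho
    rw [if_neg h3, if_neg h5, if_pos h4]
    exact mul_comm _ _

theorem card_YY_succ [Fintype F] (hF : Fintype.card F = q ^ 2) (k m : ℕ)
    (hn : k + k + (m + 2) = n) :
    Nat.card (YY n F q (k + 1)) = Nat.card (YY n F q k) * ((q ^ 2) ^ k *
      ((if Even m then q ^ (m + 1) + 1 else q ^ (m + 1) - 1)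
        * (if Even (m + 1) then q ^ (m + 1 + 1) + 1 else q ^ (m + 1 + 1) - 1))) := by
  have hq := qf_of_card hF
  apply card_YY_succ_aux hq
  intro x hx
  rw [card_ZZ hq hn x hx, card_iso_two hF, Nat.card_eq_fintype_card, hF]

theorem card_YY_zero : Nat.card (YY n F q 0) = 1 := by
  rw [Nat.card_eq_one_iff_unique]
  refine ⟨⟨fun a b => Subtype.ext (funext fun i => i.elim0)⟩,
    ⟨⟨fun i => i.elim0, linearIndependent_empty_type, fun i => i.elim0⟩⟩⟩

theorem tri (m : ℕ) : (m + 2) * (m + 2 - 1) / 2 = m * (m - 1) / 2 + (2 * m + 1) := by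
  cases m with
  | zero => rfl
  | succ m =>
    have e : (m + 1 + 2) * (m + 1 + 2 - 1) = (m + 1) * (m + 1 - 1) + 2 * (2 * (m + 1) + 1) := by
      have a1 : m + 1 + 2 - 1 = m + 2 := by omega
      have a2 : m + 1 - 1 = m := by omega
      rw [a1, a2]
      ring
    rw [e, Nat.add_mul_div_left _ _ (by norm_num : 0 < 2)]

/-- The number of isotropic `k`-frames, in the form needed for the parabolic order. -/
theorem card_YY_formula [Fintype F] (hF : Fintype.card F = q ^ 2) : ∀ k : ℕ, 2 * k ≤ n →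
    Nat.card (YY n F q k) * (q ^ (k * (2 * n - 3 * k))
      * (q ^ ((n - 2 * k) * ((n - 2 * k) - 1) / 2)
        * ∏ i ∈ Finset.range (n - 2 * k), (if Even i then q ^ (i + 1) + 1 else q ^ (i + 1) - 1)))
    = q ^ (n * (n - 1) / 2)
        * ∏ i ∈ Finset.range n, (if Even i then q ^ (i + 1) + 1 else q ^ (i + 1) - 1) := by
  intro k
  induction k with
  | zero =>
    intro _
    rw [card_YY_zero]
    simp
  | succ k ih =>
    intro hk
    have ih' := ih (by omega)
    obtain ⟨m, rfl⟩ : ∃ m, n = 2 * k + 2 + m := ⟨n - (2 * k + 2), by omega⟩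
    have e1 : 2 * (2 * k + 2 + m) - 3 * (k + 1) = k + 1 + 2 * m := by omega
    have e2 : 2 * (2 * k + 2 + m) - 3 * k = k + 4 + 2 * m := by omega
    have e3 : 2 * k + 2 + m - 2 * (k + 1) = m := by omega
    have e4 : 2 * k + 2 + m - 2 * k = m + 2 := by omega
    rw [e2, e4, tri, Finset.prod_range_succ, Finset.prod_range_succ] at ih'
    rw [e1, e3, ← ih', card_YY_succ hF k m (by omega)]
    generalize m * (m - 1) / 2 = T
    generalize Nat.card (YY (2 * k + 2 + m) F q k) = c
    generalize (∏ i ∈ Finset.range m, (if Even i then q ^ (i + 1) + 1 else q ^ (i + 1) - 1)) = P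
    generalize (if Even m then q ^ (m + 1) + 1 else q ^ (m + 1) - 1) = A
    generalize (if Even (m + 1) then q ^ (m + 1 + 1) + 1 else q ^ (m + 1 + 1) - 1) = B
    ring

end Cfsg.Agent.Helper8.SUW
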