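import Mathlib
import Cfsg.Prelude.Def_GeometricClasses
import Cfsg.Agent.Helper8.SUWitt4
import Cfsg.Agent.S0277
import Cfsg.Agent.S0278

/-!
# The order of the stabiliser of a totally isotropic subspace in `SU_n(q)`
-/

set_option autoImplicit false

namespace Cfsg.Agent.Helper8.SUW

open Matrix Cfsg.Agent.Helper2 Cfsg.Agent.Helper8.SULag Cfsg.Agent.Helper8.SUNd

variable {F : Type*} [Field F] {n q : ℕ}

local notation "VV" => (Fin n → F)
local notation "MM" => Matrix (Fin n) (Fin n) F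
local notation "GG" => Matrix.GeneralLinearGroup (Fin n) F
local notation "hh" => Cfsg.hermForm n F q

theorem hilbert90 (hq : QF F q) (a : F) (ha : a * frob hq a = 1) :
    ∃ b : F, b ≠ 0 ∧ a * frob hq b = b := by
  by_cases h : a = -1
  · obtain ⟨η, hη⟩ := hq.ex
    have hη' : frob hq η ≠ η := hη
    refine ⟨η - frob hq η, sub_ne_zero.2 (Ne.symm hη'), ?_⟩
    rw [h, map_sub, frob_frob]
    ring
  · refine ⟨1 + a, fun h0 => h (eq_neg_of_add_eq_zero_right h0), ?_⟩
    rw [map_add, map_one, mul_add, ha, mul_one]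
    ring

/-- The dilation `v ↦ b v`, `v' ↦ d v'` of a hyperbolic pair. -/
theorem exists_dil (hq : QF F q) (v v' : VV) (hvv : hh v v = 0) (hww : hh v' v' = 0)
    (hvw : hh v v' = 1) (b d : F) (hbd : frob hq b * d = 1) :
    ∃ D : MM, D.det = b * d ∧ (∀ x y, hh (D *ᵥ x) (D *ᵥ y) = hh x y) ∧
      ∀ x, D *ᵥ x = x + ((b - 1) * hh x v') • v + ((d - 1) * hh x v) • v' := by
  have hwv : hh v' v = 1 := by rw [← h_conj hq v v', hvw, map_one]
  have hbd' : b * frob hq d = 1 := by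
    have h1 := congrArg (frob hq) hbd
    rw [map_mul, frob_frob, map_one] at h1
    exact h1
  obtain ⟨D, hD⟩ : ∃ D : MM, D = (1 + Matrix.vecMulVec ((b - 1) • v) (fun j => v' j ^ q))
      * (1 + Matrix.vecMulVec ((d - 1) • v') (fun j => v j ^ q)) := ⟨_, rfl⟩
  have hmv : ∀ x, D *ᵥ x = x + ((b - 1) * hh x v') • v + ((d - 1) * hh x v) • v' := by
    intro x
    rw [hD, ← Matrix.mulVec_mulVec, Parab.tmat_mulVec, Parab.tmat_mulVec, dot_eq, dot_eq]
    simp only [h_add_left, h_smul_left, hww, mul_zero, add_zero, smul_smul]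
    rw [mul_comm (hh x v) (d - 1), mul_comm (hh x v') (b - 1)]
    abel
  refine ⟨D, ?_, ?_, hmv⟩
  · rw [hD, Matrix.det_mul, Parab.tmat_det, Parab.tmat_det, dot_eq, dot_eq, h_smul_left,
      h_smul_left, hvw, hwv]
    ring
  · intro x y
    rw [hmv, hmv]
    simp only [h_add_left, h_add_right hq, h_smul_left, h_smul_right hq, map_mul, map_sub,
      map_one, h_conj hq, hvv, hww, hvw, hwv]
    linear_combination (hh x v * hh v' y) * hbd + (hh x v' * hh v y) * hbd'

/-- Elements of the stabiliser of `W` in `GU` with prescribed determinant of norm one. -/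
theorem exists_stab_det [Fintype F] (hF : Fintype.card F = q ^ 2) (k : ℕ) (hn1 : 1 ≤ n)
    (hk : 2 * k ≤ n) (W : Submodule F VV) (hWk : Module.finrank F W = k)
    (hW : ∀ u ∈ W, ∀ v ∈ W, hh u v = 0) (a : Fˣ) (ha : a ^ (q + 1) = 1) :
    ∃ g : GG, g ∈ Cfsg.GU n F q ⊓ Cfsg.stabilizing (Cfsg.glToMat (Fin n) F) (W : Set VV) ∧
      Matrix.GeneralLinearGroup.det g = a := by
  classical
  have hq := qf_of_card hF
  rcases Nat.eq_zero_or_pos k with hk0 | hkpos
  · rw [hk0] at hWk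
    have hWb : W = ⊥ := Submodule.finrank_eq_zero.1 hWk
    obtain ⟨g, hg⟩ := S0278.exists_diag (F := F) (q := q) n hn1 a ha
    refine ⟨g.1, Subgroup.mem_inf.2 ⟨g.2, ?_⟩, hg⟩
    apply stab_of_maps_fin
    intro w hw
    rw [hWb] at hw ⊢
    have hw0 : w = 0 := (Submodule.mem_bot F).1 hw
    rw [hw0, Matrix.mulVec_zero]
    exact Submodule.zero_mem _
  · obtain ⟨m, hm⟩ : ∃ m, k + k + m = n := ⟨n - 2 * k, by omega⟩
    let bW := Module.finBasisOfFinrankEq F W hWk
    obtain ⟨v0, hv0⟩ : ∃ v0 : Fin k → VV, ∀ i, v0 i = (bW i : VV) := ⟨fun i => bW i, fun i => rfl⟩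
    have hli : LinearIndependent F v0 := by
      have h1 := bW.linearIndependent.map' W.subtype (Submodule.ker_subtype W)
      have e : v0 = W.subtype ∘ bW := funext hv0
      rw [e]
      exact h1
    have hv0W : ∀ i, v0 i ∈ W := fun i => by rw [hv0]; exact (bW i).2
    obtain ⟨v0', u0, hw⟩ := exists_witt hq k m hm v0 hli (fun i j => hW _ (hv0W i) _ (hv0W j))
    have ha' : (a : F) * frob hq (a : F) = 1 := by
      have h1 := congrArg (fun u : Fˣ => (u : F)) ha
      simp only [Units.val_pow_eq_pow_val, Units.val_one] at h1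
      rw [frob_apply, ← pow_succ']
      exact h1
    obtain ⟨b, hb0, hab⟩ := hilbert90 hq (a : F) ha'
    have hfb0 : frob hq b ≠ 0 := by
      intro h0
      apply hb0
      rw [← frob_frob hq b, h0, map_zero]
    obtain ⟨D, hDdet, hDiso, hDmv⟩ := exists_dil hq (v0 ⟨0, hkpos⟩) (v0' ⟨0, hkpos⟩)
      (hw.vv _ _) (hw.ww _ _) (by rw [hw.vw, if_pos rfl]) b (frob hq b)⁻¹
      (mul_inv_cancel₀ hfb0)
    have hdet : D.det = (a : F) := by
      rw [hDdet, eq_comm, eq_mul_inv_iff_mul_eq₀ hfb0]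
      exact hab
    have hU : IsUnit D := by
      rw [Matrix.isUnit_iff_isUnit_det, hdet]
      exact a.isUnit
    refine ⟨hU.unit, Subgroup.mem_inf.2 ⟨?_, ?_⟩, ?_⟩
    · intro x y
      show hh ((hU.unit : MM) *ᵥ x) ((hU.unit : MM) *ᵥ y) = hh x y
      rw [IsUnit.unit_spec]
      exact hDiso x y
    · apply stab_of_maps_fin
      intro w hwW
      rw [IsUnit.unit_spec, hDmv, hW w hwW _ (hv0W _), mul_zero, zero_smul, add_zero]
      exact W.add_mem hwW (W.smul_mem _ (hv0W _))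
    · apply Units.ext
      show (hU.unit : MM).det = a
      rw [IsUnit.unit_spec, hdet]

/-- `|Stab_GU(W)| = (q + 1) |Stab_SU(W)|`. -/
theorem card_stab_index [Fintype F] (hF : Fintype.card F = q ^ 2) (k : ℕ) (hn1 : 1 ≤ n)
    (hk : 2 * k ≤ n) (W : Submodule F VV) (hWk : Module.finrank F W = k)
    (hW : ∀ u ∈ W, ∀ v ∈ W, hh u v = 0) :
    Nat.card ↥(Cfsg.GU n F q ⊓ Cfsg.stabilizing (Cfsg.glToMat (Fin n) F) (W : Set VV))
      = (q + 1) * Nat.card ↥((Cfsg.stabilizing (Cfsg.slToMat n F) (W : Set VV)).subgroupOf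
          (Cfsg.SU n F q)) := by
  classical
  have hq2 := S0284.q_two_le hF
  obtain ⟨S, hS⟩ : ∃ S : Subgroup GG,
      S = Cfsg.GU n F q ⊓ Cfsg.stabilizing (Cfsg.glToMat (Fin n) F) (W : Set VV) := ⟨_, rfl⟩
  rw [← hS]
  have hSG : ∀ g ∈ S, g ∈ Cfsg.GU n F q := fun g hg => by
    rw [hS] at hg
    exact (Subgroup.mem_inf.1 hg).1
  have hSW : ∀ g ∈ S, ∀ v : VV, v ∈ W ↔ (g : MM) *ᵥ v ∈ W := fun g hg => by
    rw [hS] at hg
    exact (Parab.mem_stab_iff _ g).1 (Subgroup.mem_inf.1 hg).2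
  have hSmk : ∀ g : GG, g ∈ Cfsg.GU n F q → (∀ v : VV, v ∈ W ↔ (g : MM) *ᵥ v ∈ W) → g ∈ S := by
    intro g h1 h2
    rw [hS]
    exact Subgroup.mem_inf.2 ⟨h1, (Parab.mem_stab_iff _ g).2 h2⟩
  obtain ⟨f, hf⟩ : ∃ f : S →* Fˣ,
      ∀ g, f g = Matrix.GeneralLinearGroup.det (g : GG) :=
    ⟨Matrix.GeneralLinearGroup.det.comp S.subtype, fun g => rfl⟩
  have h1 : Nat.card f.ker * Nat.card f.range = Nat.card S := by
    rw [← Subgroup.index_ker]
    exact Subgroup.card_mul_index _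
  have h2 : f.range = (powMonoidHom (q + 1) : Fˣ →* Fˣ).ker := by
    ext a
    rw [MonoidHom.mem_range, MonoidHom.mem_ker, powMonoidHom_apply]
    constructor
    · rintro ⟨g, rfl⟩
      apply Units.ext
      rw [Units.val_pow_eq_pow_val, Units.val_one, hf]
      exact S0278.det_norm hF n _ ((S0277.mem_GU n q g.1).1 (hSG g.1 g.2))
    · intro ha
      obtain ⟨g, hg, hdet⟩ := exists_stab_det hF k hn1 hk W hWk hW a ha
      rw [← hS] at hg
      exact ⟨⟨g, hg⟩, (hf _).trans hdet⟩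
  have h3 : Nat.card f.range = q + 1 := by
    rw [h2, IsCyclic.card_powMonoidHom_ker, Nat.card_units, Nat.card_eq_fintype_card (α := F), hF]
    apply Nat.gcd_eq_right
    refine ⟨q - 1, ?_⟩
    obtain ⟨j, rfl⟩ : ∃ j, q = j + 1 := ⟨q - 1, by omega⟩
    simp only [Nat.add_sub_cancel]
    have h3 : (j + 1) ^ 2 = (j + 1 + 1) * j + 1 := by ring
    omega
  have h4 : Nat.card f.ker = Nat.card ↥((Cfsg.stabilizing (Cfsg.slToMat n F)
      (W : Set VV)).subgroupOf (Cfsg.SU n F q)) := by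
    apply Nat.card_congr
    exact
      { toFun := fun g => ⟨⟨⟨((g.1.1 : GG) : MM), by
            have h5 := g.2
            rw [MonoidHom.mem_ker, hf] at h5
            exact congrArg (fun u : Fˣ => (u : F)) h5⟩,
            fun u v => (S0277.mem_GU n q g.1.1).1 (hSG g.1.1 g.1.2) u v⟩,
            fun v => hSW g.1.1 g.1.2 v⟩
        invFun := fun A => ⟨⟨Matrix.SpecialLinearGroup.toGL A.1.1,
            hSmk _ (fun u v => A.1.2 u v) (fun v => A.2 v)⟩, by
            rw [MonoidHom.mem_ker, hf]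
            apply Units.ext
            exact A.1.1.2⟩
        left_inv := fun g => Subtype.ext (Subtype.ext (Units.ext rfl))
        right_inv := fun A => Subtype.ext (Subtype.ext (Subtype.ext rfl)) }
  rw [← h1, h3, h4, mul_comm]

/-- The order of the stabiliser of a totally isotropic `k`-subspace in `SU_n(q)`. -/
theorem card_parabolic [Fintype F] (hF : Fintype.card F = q ^ 2) (k : ℕ) (hn1 : 1 ≤ n)
    (hk : 2 * k ≤ n) (W : Submodule F VV) (hWk : Module.finrank F W = k)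
    (hW : ∀ u ∈ W, ∀ v ∈ W, hh u v = 0) :
    (q + 1) * Nat.card ↥((Cfsg.stabilizing (Cfsg.slToMat n F) (W : Set VV)).subgroupOf
        (Cfsg.SU n F q))
      = q ^ (k * (2 * n - 3 * k)) * (∏ i : Fin k, ((q ^ 2) ^ k - (q ^ 2) ^ (i : ℕ)))
        * (q ^ ((n - 2 * k) * ((n - 2 * k) - 1) / 2)
          * ∏ i ∈ Finset.range (n - 2 * k),
              (if Even i then q ^ (i + 1) + 1 else q ^ (i + 1) - 1)) := by
  classical
  have hq := qf_of_card hF
  obtain ⟨m, hm⟩ : ∃ m, k + k + m = n := ⟨n - 2 * k, by omega⟩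
  let bW := Module.finBasisOfFinrankEq F W hWk
  obtain ⟨v0, hv0⟩ : ∃ v0 : Fin k → VV, ∀ i, v0 i = (bW i : VV) := ⟨fun i => bW i, fun i => rfl⟩
  have e0 : v0 = W.subtype ∘ bW := funext hv0
  have hli : LinearIndependent F v0 := by
    have h1 := bW.linearIndependent.map' W.subtype (Submodule.ker_subtype W)
    rw [e0]
    exact h1
  have hv0W : ∀ i, v0 i ∈ W := fun i => by rw [hv0]; exact (bW i).2
  have hspan : Submodule.span F (Set.range v0) = W := by
    rw [e0, Set.range_comp, ← Submodule.map_span, bW.span_eq, Submodule.map_subtype_top]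
  have hY : v0 ∈ YY n F q k := ⟨hli, fun i j => hW _ (hv0W i) _ (hv0W j)⟩
  have c1 := card_gu_split hq hm v0 hY
  have c2 := card_stab_split hq hm W hW v0 hli hspan
  have c3 := card_bases hF W k hWk
  have c4 := card_YY_formula (n := n) hF k hk
  have c5 := S0277.result hF n
  have c6 := card_stab_index hF k hn1 hk W hWk hW
  rw [← c6, c2, c3]
  have hpos : 0 < Nat.card (YY n F q k) := by
    have h1 : 0 < Nat.card (Cfsg.GU n F q) := Nat.card_pos
    rw [c1] at h1
    exact Nat.pos_of_mul_pos_right h1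
  have hZ : q ^ (k * (2 * n - 3 * k)) * (q ^ ((n - 2 * k) * ((n - 2 * k) - 1) / 2)
      * ∏ i ∈ Finset.range (n - 2 * k), (if Even i then q ^ (i + 1) + 1 else q ^ (i + 1) - 1))
      = Nat.card (PW q v0) := by
    apply Nat.eq_of_mul_eq_mul_left hpos
    rw [c4, ← c5, c1]
  rw [← hZ]
  ring

end Cfsg.Agent.Helper8.SUW
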