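import Mathlib

set_option autoImplicit false
open scoped commutatorElement

namespace Cfsg.Agent.Helper8

/-- A finite nilpotent group has a normal abelian subgroup containing its own centralizer
(any maximal normal abelian subgroup). -/
theorem exists_normal_abelian_self_centralizing (R : Type*) [Group R] [Finite R]
    [Group.IsNilpotent R] :
    ∃ A : Subgroup R, A.Normal ∧ IsMulCommutative A ∧ Subgroup.centralizer (A : Set R) ≤ A := by
  classical
  set S : Set (Subgroup R) := {A | A.Normal ∧ IsMulCommutative A} with hS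
  have hbot : (⊥ : Subgroup R) ∈ S := ⟨inferInstance, inferInstance⟩
  obtain ⟨A, -, hAmax⟩ := S.toFinite.exists_le_maximal hbot
  obtain ⟨hAn, hAc⟩ := hAmax.prop
  refine ⟨A, hAn, hAc, ?_⟩
  by_contra hCA
  set C : Subgroup R := Subgroup.centralizer (A : Set R) with hC
  have hCn : C.Normal := Subgroup.normal_centralizer
  obtain ⟨n, hn⟩ := Group.IsNilpotent.nilpotent R
  have hex : ∃ k, ¬ (C ⊓ Subgroup.upperCentralSeries R k ≤ A) := ⟨n, by rw [hn, inf_top_eq]; exact hCA⟩
  set m := Nat.find hex with hm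
  have hm_spec : ¬ (C ⊓ Subgroup.upperCentralSeries R m ≤ A) := Nat.find_spec hex
  have hm0 : m ≠ 0 := by
    intro h0
    rw [h0, Subgroup.upperCentralSeries_zero, inf_bot_eq] at hm_spec
    exact hm_spec bot_le
  obtain ⟨i, hi⟩ := Nat.exists_eq_succ_of_ne_zero hm0
  have hPi : C ⊓ Subgroup.upperCentralSeries R i ≤ A := by
    by_contra h
    have := Nat.find_min hex (m := i) (by omega)
    exact this h
  rw [hi] at hm_spec
  obtain ⟨x, hx, hxA⟩ := SetLike.not_le_iff_exists.mp hm_spec
  obtain ⟨hxC, hxZ⟩ := Subgroup.mem_inf.mp hx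
  -- the bigger subgroup
  set B : Subgroup R := Subgroup.closure ((A : Set R) ∪ {x}) with hB
  have hAB : A ≤ B := fun a ha => Subgroup.subset_closure (Or.inl ha)
  have hxB : x ∈ B := Subgroup.subset_closure (Or.inr rfl)
  have hxcomm : ∀ a ∈ A, a * x = x * a := by
    intro a ha
    exact (Subgroup.mem_centralizer_iff.mp hxC) a ha
  have hBc : IsMulCommutative B := by
    apply Subgroup.isMulCommutative_closure
    rintro a (ha | ha) b (hb | hb)
    · exact setLike_mul_comm ha hb
    · rw [Set.mem_singleton_iff] at hb; subst hb; exact hxcomm a ha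
    · rw [Set.mem_singleton_iff] at ha; subst ha; exact (hxcomm b hb).symm
    · rw [Set.mem_singleton_iff] at ha hb; subst ha; subst hb; rfl
  have hBn : B.Normal := by
    rw [← Subgroup.normalizer_eq_top_iff, eq_top_iff]
    rw [hB, Subgroup.le_normalizer_closure_iff]
    intro g _ y hy
    rcases hy with hy | hy
    · exact hAB (hAn.conj_mem y hy g)
    · rw [Set.mem_singleton_iff] at hy; subst hy
      -- g * y * g⁻¹ = (g * y * g⁻¹ * y⁻¹) * y
      have h1 : g * y * g⁻¹ * y⁻¹ ∈ C := C.mul_mem (hCn.conj_mem y hxC g) (C.inv_mem hxC)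
      have h2 : g * y * g⁻¹ * y⁻¹ ∈ Subgroup.upperCentralSeries R i := by
        have h3 : ⁅y, g⁆ ∈ Subgroup.upperCentralSeries R i :=
          (Subgroup.mem_upperCentralSeries_succ_iff.mp hxZ) g
        have h4 : g * y * g⁻¹ * y⁻¹ = (⁅y, g⁆)⁻¹ := by
          rw [commutatorElement_def]; group
        rw [h4]; exact Subgroup.inv_mem _ h3
      have h5 : g * y * g⁻¹ * y⁻¹ ∈ A := hPi (Subgroup.mem_inf.mpr ⟨h1, h2⟩)
      have h6 : g * y * g⁻¹ = (g * y * g⁻¹ * y⁻¹) * y := by group
      rw [h6]
      exact B.mul_mem (hAB h5) hxB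
  have hBS : B ∈ S := ⟨hBn, hBc⟩
  exact hxA (hAmax.le_of_ge hBS hAB hxB)

end Cfsg.Agent.Helper8
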